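import Cfsg.Agent.Lib.Solvable.Fpf
import Mathlib

/-! A fixed-point-free group of operators of order `pq` on an abelian group is cyclic. -/

set_option autoImplicit false

namespace CfsgLib.GroupB.FpfPQ

/-- Elements of prime order, one normalising the other's group, in a fixed-point-free group of operators of
an abelian group commute. -/
theorem commute_of_fpf {V X : Type*} [CommGroup V] [Finite V] [Nontrivial V] [Group X] [Finite X]
    (ψ : X →* MulAut V) (hfpf : ∀ a : X, a ≠ 1 → ∀ v, ψ a v = v → v = 1)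
    (hcop : (Nat.card X).Coprime (Nat.card V)) {x y : X} (hx : (orderOf x).Prime) (hy : (orderOf y).Prime)
    (hn : ∀ u ∈ Subgroup.zpowers x, y * u * y⁻¹ ∈ Subgroup.zpowers x) : Commute x y := by
  classical
  by_contra hxy
  haveI := Fintype.ofFinite X
  have hsum : ∀ u : X, u ≠ 1 → ∀ v : V, ∏ a : Subgroup.zpowers u, ψ a v = 1 := by
    intro u hu v
    refine hfpf u hu _ ?_
    rw [map_prod]
    refine Fintype.prod_equiv (Equiv.mulLeft (⟨u, Subgroup.mem_zpowers u⟩ : Subgroup.zpowers u)) _ _ fun a => ?_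
    show ψ u (ψ (a : X) v) = ψ (u * (a : X)) v
    rw [map_mul]; rfl
  have hn' : ∀ c ∈ Subgroup.zpowers y, ∀ u ∈ Subgroup.zpowers x, c * u * c⁻¹ ∈ Subgroup.zpowers x := by
    intro c hc
    obtain ⟨i, rfl⟩ := (mem_zpowers_iff_mem_range_orderOf.mp hc |> Finset.mem_image.mp |> fun ⟨i, _, h⟩ => ⟨i, h⟩ :
      ∃ i : ℕ, y ^ i = c)
    induction i with
    | zero => intro u hu; simpa using hu
    | succ i ih =>
      intro u hu
      have h := hn _ (ih (pow_mem (Subgroup.mem_zpowers y) i) u hu)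
      rw [pow_succ']
      simpa [mul_assoc] using h
  have hx1 : x ≠ 1 := fun h => hx.ne_one (by rw [h, orderOf_one])
  have hy1 : y ≠ 1 := fun h => hy.ne_one (by rw [h, orderOf_one])
  -- a nontrivial power of `y` does not commute with a nontrivial power of `x`
  have hnc : ∀ c : X, c ∈ Subgroup.zpowers y → c ≠ 1 → ∀ u : X, u ∈ Subgroup.zpowers x → u ≠ 1 → ¬ Commute u c := by
    intro c hc hc1 u hu hu1 huc
    haveI := Fact.mk hx
    haveI := Fact.mk hy
    have hxu : x ∈ Subgroup.zpowers u := by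
      have := mem_zpowers_of_prime_card (G := Subgroup.zpowers x) (p := orderOf x) (Nat.card_zpowers x)
        (g := ⟨u, hu⟩) (g' := ⟨x, Subgroup.mem_zpowers x⟩) (fun h => hu1 (congrArg Subtype.val h))
      obtain ⟨k, hk⟩ := this
      exact ⟨k, congrArg Subtype.val hk⟩
    have hyc : y ∈ Subgroup.zpowers c := by
      have := mem_zpowers_of_prime_card (G := Subgroup.zpowers y) (p := orderOf y) (Nat.card_zpowers y)
        (g := ⟨c, hc⟩) (g' := ⟨y, Subgroup.mem_zpowers y⟩) (fun h => hc1 (congrArg Subtype.val h))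
      obtain ⟨k, hk⟩ := this
      exact ⟨k, congrArg Subtype.val hk⟩
    obtain ⟨i, rfl⟩ := hxu
    obtain ⟨j, rfl⟩ := hyc
    exact hxy (huc.zpow_zpow i j)
  obtain ⟨v, hv⟩ := exists_ne (1 : V)
  -- the norm of every conjugate of `⟨y⟩` annihilates `v`
  have hconj : ∀ u : Subgroup.zpowers x, ∏ c : Subgroup.zpowers y, ψ ((u : X) * c * (u : X)⁻¹) v = 1 := by
    intro u
    have h := congrArg (ψ (u : X)) (hsum y hy1 (ψ (u : X)⁻¹ v))
    rw [map_prod, map_one] at h
    rw [← h]
    exact Finset.prod_congr rfl fun c _ => by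
      rw [show ψ ((u : X) * c * (u : X)⁻¹) = ψ (u : X) * ψ (c : X) * ψ (u : X)⁻¹ by rw [map_mul, map_mul]]
      rfl
  have h1 : ∏ c : Subgroup.zpowers y, ∏ u : Subgroup.zpowers x, ψ ((u : X) * c * (u : X)⁻¹) v = 1 := by
    rw [Finset.prod_comm]
    exact Finset.prod_eq_one fun u _ => hconj u
  rw [Finset.prod_eq_single_of_mem (1 : Subgroup.zpowers y) (Finset.mem_univ _)] at h1
  · have h2 : v ^ Fintype.card (Subgroup.zpowers x) = 1 := by
      rw [← h1]
      simp
    have h3 : (Fintype.card (Subgroup.zpowers x)).Coprime (Nat.card V) :=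
      Nat.Coprime.coprime_dvd_left (by rw [← Nat.card_eq_fintype_card]; exact Subgroup.card_subgroup_dvd_card _) hcop
    exact hv (orderOf_eq_one_iff.mp (Nat.eq_one_of_dvd_coprimes h3 (orderOf_dvd_of_pow_eq_one h2)
      (orderOf_dvd_natCard v)))
  · intro c _ hc
    have hc1 : (c : X) ≠ 1 := fun h => hc (Subtype.ext h)
    let φ : Subgroup.zpowers x → Subgroup.zpowers x := fun u =>
      ⟨(u : X) * c * (u : X)⁻¹ * (c : X)⁻¹, by
        have h := hn' c c.2 _ (Subgroup.inv_mem _ u.2)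
        simpa [mul_assoc] using Subgroup.mul_mem _ u.2 h⟩
    have hφ : Function.Bijective φ := by
      refine Finite.injective_iff_bijective.mp fun a b hab => ?_
      by_contra hne
      have hab' : (a : X) * c * (a : X)⁻¹ = (b : X) * c * (b : X)⁻¹ :=
        mul_right_cancel (congrArg Subtype.val hab : _)
      refine hnc c c.2 hc1 ((b : X)⁻¹ * a) (Subgroup.mul_mem _ (Subgroup.inv_mem _ b.2) a.2)
        (fun h => hne (Subtype.ext (inv_mul_eq_one.mp h).symm)) ?_
      calc (b : X)⁻¹ * a * c = (b : X)⁻¹ * ((a : X) * c * (a : X)⁻¹) * a := by group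
        _ = c * ((b : X)⁻¹ * a) := by rw [hab']; group
    rw [show (∏ u : Subgroup.zpowers x, ψ ((u : X) * c * (u : X)⁻¹) v)
      = ∏ u : Subgroup.zpowers x, ψ (u : X) (ψ (c : X) v) from
      Fintype.prod_equiv (Equiv.ofBijective φ hφ) _ _ fun u => by
        show ψ ((u : X) * c * (u : X)⁻¹) v = ψ ((u : X) * c * (u : X)⁻¹ * (c : X)⁻¹) (ψ (c : X) v)
        conv_lhs => rw [show (u : X) * c * (u : X)⁻¹ = (u : X) * c * (u : X)⁻¹ * (c : X)⁻¹ * (c : X) by group,
          map_mul]
        rfl]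
    exact hsum x hx1 _

variable {G : Type*} [Group G] [Finite G]

theorem commute {A V : Subgroup G} (hab : IsMulCommutative V) (hV : V ≠ ⊥)
    (hAV : A ≤ Subgroup.normalizer (V : Set G))
    (hfpf : ∀ a ∈ A, a ≠ 1 → V ⊓ Subgroup.centralizer {a} = ⊥) {x y : G} (hxA : x ∈ A) (hyA : y ∈ A)
    (hx : (orderOf x).Prime) (hy : (orderOf y).Prime)
    (hn : ∀ u ∈ Subgroup.zpowers x, y * u * y⁻¹ ∈ Subgroup.zpowers x) : Commute x y := by
  haveI := hab
  letI : CommGroup V := IsMulCommutative.instCommGroup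
  haveI : Nontrivial V := (Subgroup.nontrivial_iff_ne_bot V).mpr hV
  let ψ : A →* MulAut V := (Subgroup.normalizerMonoidHom V).comp (Subgroup.inclusion hAV)
  have key := commute_of_fpf ψ (fun a ha w hw => by
    have h : (a : G) * w * (a : G)⁻¹ = w := congrArg Subtype.val hw
    have h1 : (w : G) ∈ V ⊓ Subgroup.centralizer {(a : G)} :=
      ⟨w.2, Subgroup.mem_centralizer_singleton_iff.mpr (mul_inv_eq_iff_eq_mul.mp h).symm⟩
    rw [hfpf a a.2 (fun e => ha (Subtype.ext e)), Subgroup.mem_bot] at h1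
    exact Subtype.ext h1) (CfsgLib.Solvable.Fpf.coprime hAV hfpf) (x := ⟨x, hxA⟩) (y := ⟨y, hyA⟩)
    (by rwa [Subgroup.orderOf_mk]) (by rwa [Subgroup.orderOf_mk])
    (by
      rintro u ⟨k, rfl⟩
      obtain ⟨l, hl⟩ := hn _ (Subgroup.zpow_mem_zpowers x k)
      exact ⟨l, Subtype.ext (by simpa using hl)⟩)
  exact congrArg Subtype.val key.eq

end CfsgLib.GroupB.FpfPQ
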