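import Cfsg.Agent.Lib.Glauberman.NPCMain
import Cfsg.Agent.Lib.PLocal.OddRankTwo

/-! The Glauberman-Thompson normal `p`-complement theorem for the whole centre of the elementary Thompson subgroup. -/

set_option autoImplicit false
set_option linter.style.haveILetI false

namespace CfsgLib.GroupB.ZJThompson

open CfsgLib.ThompsonNPC CfsgLib.Fusion CfsgLib.Glauberman
open scoped commutatorElement

universe u

/-- An element of order prime to `p` fixing the elements of order `p` of a class two `p`-group fixes it. -/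
theorem commute_of_omega {G : Type u} [Group G] [Finite G] {p : ℕ} [hp : Fact p.Prime] (hp2 : p ≠ 2)
    {B : Subgroup G} (hBp : IsPGroup p B) (hcl : ∀ a ∈ B, ∀ b ∈ B, ∀ c ∈ B, Commute ⁅a, b⁆ c) {x : G}
    (hxN : x ∈ Subgroup.normalizer (B : Set G)) (hx : (orderOf x).Coprime p)
    (hfix : ∀ v ∈ B, v ^ p = 1 → Commute x v) : ∀ b ∈ B, Commute x b := by
  suffices key : ∀ k : ℕ, ∀ b ∈ B, b ^ p ^ k = 1 → Commute x b by
    intro b hb
    obtain ⟨k, hk⟩ := hBp ⟨b, hb⟩
    exact key k b hb (congrArg Subtype.val hk)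
  intro k
  induction k with
  | zero => intro b _ hb; rw [pow_zero, pow_one] at hb; rw [hb]; exact Commute.one_right x
  | succ k ih =>
    intro b hb hbk
    have hbp : Commute x (b ^ p) := ih _ (B.pow_mem hb p) (by rw [← pow_mul, ← pow_succ', hbk])
    set c := ⁅x, b⁆ with hc
    have hcB : c ∈ B := B.mul_mem ((Subgroup.mem_normalizer_iff.mp hxN b).mp hb) (B.inv_mem hb)
    have hcb : c * b = x * b * x⁻¹ := by rw [hc, commutatorElement_def]; group
    have h1 : (c * b) ^ p = b ^ p := by rw [hcb, conj_pow, hbp.eq, mul_inv_cancel_right]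
    have h2 := CfsgLib.PLocal.mul_pow_central (hcl b hb c hcB c hcB) (hcl b hb c hcB b hb) p
    have h4 : c ^ p = (⁅b, c⁆ ^ p.choose 2)⁻¹ :=
      eq_inv_of_mul_eq_one_right (mul_right_cancel (b := b ^ p) (by rw [one_mul]; exact h2.symm.trans h1))
    have h5 : ∀ n : ℕ, ⁅b, c ^ n⁆ = ⁅b, c⁆ ^ n := by
      intro n
      induction n with
      | zero => simp
      | succ n ihn =>
        rw [pow_succ', comm_mul_right, ihn, ← ((hcl b hb c hcB c hcB).pow_left n).eq, mul_inv_cancel_right, pow_succ']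
    have h6 : ⁅b, c⁆ ^ p = 1 := by
      rw [← h5]
      refine commutatorElement_eq_one_iff_commute.mpr ?_
      rw [h4]
      exact ((hcl b hb c hcB b hb).pow_left _).inv_left.symm
    have h7 : c ^ p = 1 := by
      obtain ⟨j, hj⟩ := hp.out.dvd_choose_self (k := 2) (by norm_num) (lt_of_le_of_ne hp.out.two_le (Ne.symm hp2))
      rw [h4, hj, pow_mul, h6, one_pow, inv_one]
    have hxc : Commute x c := hfix c hcB h7
    have hn : ∀ n : ℕ, x ^ n * b * (x ^ n)⁻¹ = c ^ n * b := by
      intro n
      induction n with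
      | zero => simp
      | succ n ihn =>
        calc x ^ (n + 1) * b * (x ^ (n + 1))⁻¹ = x * (x ^ n * b * (x ^ n)⁻¹) * x⁻¹ := by rw [pow_succ']; group
          _ = (x * c ^ n) * b * x⁻¹ := by rw [ihn]; group
          _ = c ^ n * (x * b * x⁻¹) := by rw [(hxc.pow_right n).eq]; group
          _ = c ^ (n + 1) * b := by rw [← hcb, pow_succ, mul_assoc]
    have h8 := hn (orderOf x)
    rw [pow_orderOf_eq_one, inv_one, mul_one, one_mul] at h8
    have h9 : c ^ orderOf x = 1 := mul_eq_right.mp h8.symm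
    have h10 : c = 1 := orderOf_eq_one_iff.mp
      (Nat.eq_one_of_dvd_coprimes hx (orderOf_dvd_of_pow_eq_one h9) (orderOf_dvd_of_pow_eq_one h7))
    exact commutatorElement_eq_one_iff_commute.mp h10

/-- **Glauberman's `ZJ` theorem** for the whole centre of the elementary Thompson subgroup. -/
theorem normal_of_stable {G : Type u} [Group G] [Finite G] {p : ℕ} [hp : Fact p.Prime] (hp2 : p ≠ 2) (P : Sylow p G)
    (hst : Stable p G) (hc : Subgroup.centralizer ((Cfsg.pCore p G : Subgroup G) : Set G) ≤ Cfsg.pCore p G) :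
    (Z (J p (P : Subgroup G))).Normal := by
  set J' := J p (P : Subgroup G) with hJ'
  set W := Z J' with hW
  have hJP : J' ≤ (P : Subgroup G) := J_le p _
  have hWP : W ≤ (P : Subgroup G) := (Z_le _).trans hJP
  have hWab : ∀ x ∈ W, ∀ y ∈ W, x * y = y * x := fun x hx y hy => (mem_Z.mp hy).2 x (Z_le _ hx)
  have hPW : (P : Subgroup G) ≤ Subgroup.normalizer (W : Set G) :=
    Subgroup.le_normalizer.trans ((normalizer_le_normalizer_J p _).trans (normalizer_le_normalizer_Z _))
  have hzA : ∀ z ∈ W, ∀ A ∈ maxAb p (P : Subgroup G), ∀ a ∈ A, a * z = z * a :=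
    fun z hz A hA a ha => (mem_Z.mp hz).2 a ((le_sSup hA : A ≤ J') ha)
  have hcl : ∀ g : G, ∀ A ∈ maxAb p (P : Subgroup G), cj g A ≤ (P : Subgroup G) → cj g A ∈ maxAb p (P : Subgroup G) :=
    maxAb_inv P (fun g x _ hgx => hgx) p
  set Q := Cfsg.pCore p G with hQ
  haveI hQn : Q.Normal := Cfsg.pCore_normal p G
  have hQp : IsPGroup p Q := CfsgLib.Core.isPGroup_pCore p
  have hQP : Q ≤ (P : Subgroup G) := CfsgLib.Core.pCore_le_sylow P
  have hWQ : W ≤ Q := by
    intro z hz
    have hq : ∀ v ∈ Q, ⁅⁅v, z⁆, z⁆ = 1 := by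
      intro v hv
      refine commutatorElement_eq_one_iff_mul_comm.mpr (hWab _ ?_ z hz)
      rw [commutatorElement_def]
      exact W.mul_mem ((Subgroup.mem_normalizer_iff.mp (hPW (hQP hv)) z).mp hz) (W.inv_mem hz)
    set C := Subgroup.centralizer (Q : Set G)
    refine CfsgLib.Core.le_pCore ((Cfsg.pCore_normal p _).comap (QuotientGroup.mk' C))
      ((CfsgLib.Core.isPGroup_pCore p).comap_of_ker_isPGroup _ ?_) (hst Q hQp z hq)
    rw [QuotientGroup.ker_mk']
    exact hQp.to_le hc
  suffices main : ∀ B : Subgroup G, B.Normal → IsPGroup p B → (W ⊓ B).Normal by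
    have h := main Q hQn hQp
    rwa [inf_eq_left.mpr hWQ] at h
  intro B
  induction hB : Nat.card B using Nat.strong_induction_on generalizing B with
  | _ m ih =>
  intro hBn hBp
  subst hB
  haveI := hBn
  have hBP : B ≤ (P : Subgroup G) := (CfsgLib.Core.le_pCore hBn hBp).trans hQP
  rcases eq_or_ne B ⊥ with rfl | hBne
  · rw [inf_bot_eq]; infer_instance
  set B₀ := Subgroup.normalClosure ((W ⊓ B : Subgroup G) : Set G) with hB₀
  have hB₀B : B₀ ≤ B := Subgroup.normalClosure_le_normal fun x hx => hx.2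
  by_cases hlt : B₀ = B
  swap
  · rw [show W ⊓ B = W ⊓ B₀ from le_antisymm (le_inf inf_le_left fun x hx => Subgroup.subset_normalClosure hx)
      (inf_le_inf_left _ hB₀B)]
    refine ih _ ?_ B₀ rfl Subgroup.normalClosure_normal (hBp.to_le hB₀B)
    exact lt_of_le_of_ne (Subgroup.card_le_of_le hB₀B) fun h => hlt (Subgroup.eq_of_le_of_card_ge hB₀B h.ge)
  have hBgen : ∀ K : Subgroup G, K.Normal → W ⊓ B ≤ K → B ≤ K := fun K hK h => by
    rw [← hlt]; exact Subgroup.normalClosure_le_normal h
  have hPWB : (P : Subgroup G) ≤ Subgroup.normalizer ((W ⊓ B : Subgroup G) : Set G) := fun n hn =>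
    CfsgLib.Glauberman.mem_normalizer_of_conj_mem fun z hz =>
      ⟨(Subgroup.mem_normalizer_iff.mp (hPW hn) z).mp hz.1, hBn.conj_mem z hz.2 n⟩
  haveI hB'n : (⁅B, B⁆ : Subgroup G).Normal := Subgroup.commutator_normal B B
  have hB'B := commutator_lt_of_isPGroup hBp hBne
  haveI hW' : (W ⊓ ⁅B, B⁆).Normal := ih _
    (lt_of_le_of_ne (Subgroup.card_le_of_le hB'B.le) fun h => hB'B.ne (Subgroup.eq_of_le_of_card_ge hB'B.le h.ge))
    _ rfl hB'n (hBp.to_le hB'B.le)
  have hB'W : ⁅B, B⁆ ≤ W ⊓ ⁅B, B⁆ := by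
    let π := QuotientGroup.mk' (W ⊓ ⁅B, B⁆)
    haveI : (B.map π).Normal := hBn.map π (QuotientGroup.mk'_surjective _)
    have hK : B ≤ (Subgroup.centralizer ((B.map π : Subgroup (G ⧸ (W ⊓ ⁅B, B⁆))) : Set (G ⧸ (W ⊓ ⁅B, B⁆)))).comap π := by
      refine hBgen _ inferInstance fun z hz => Subgroup.mem_centralizer_iff.mpr ?_
      rintro _ ⟨b, hb, rfl⟩
      rw [← commutatorElement_eq_one_iff_mul_comm, ← map_commutatorElement]
      refine (QuotientGroup.eq_one_iff _).mpr ⟨?_, Subgroup.commutator_mem_commutator hb hz.2⟩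
      rw [commutatorElement_def]
      exact W.mul_mem ((Subgroup.mem_normalizer_iff.mp (hPW (hBP hb)) z).mp hz.1) (W.inv_mem hz.1)
    refine Subgroup.commutator_le.mpr fun x hx y hy => (QuotientGroup.eq_one_iff _).mp ?_
    show π ⁅x, y⁆ = 1
    rw [map_commutatorElement, commutatorElement_eq_one_iff_mul_comm]
    exact (Subgroup.mem_centralizer_iff.mp (hK hx) (π y) ⟨y, hy, rfl⟩).symm
  have hBB' : B ≤ Subgroup.centralizer ((⁅B, B⁆ : Subgroup G) : Set G) := hBgen _ inferInstance fun z hz =>
    Subgroup.mem_centralizer_iff.mpr fun y hy => hWab y (hB'W hy).1 z hz.1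
  have hcl2 : ∀ a ∈ B, ∀ b ∈ B, ∀ c ∈ B, Commute ⁅a, b⁆ c := fun a ha b hb c hc =>
    Subgroup.mem_centralizer_iff.mp (hBB' hc) _ (Subgroup.commutator_mem_commutator ha hb)
  -- the elements of order `p`
  let V : Subgroup G :=
    { carrier := {v | v ∈ B ∧ v ^ p = 1}
      one_mem' := ⟨one_mem _, one_pow _⟩
      mul_mem' := fun {v w} hv hw => ⟨B.mul_mem hv.1 hw.1, by
        have h5 : ⁅w, v⁆ ^ p = 1 := by
          have : ∀ n : ℕ, ⁅w, v ^ n⁆ = ⁅w, v⁆ ^ n := by
            intro n
            induction n with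
            | zero => simp
            | succ n ihn =>
              rw [pow_succ', comm_mul_right, ihn, ← ((hcl2 w hw.1 v hv.1 v hv.1).pow_left n).eq, mul_inv_cancel_right, pow_succ']
          rw [← this, hv.2, commutatorElement_one_right]
        rw [CfsgLib.PLocal.mul_pow_prime hp.out hp2 (hcl2 w hw.1 v hv.1 v hv.1) (hcl2 w hw.1 v hv.1 w hw.1) h5,
          hv.2, hw.2, one_mul]⟩
      inv_mem' := fun {v} hv => ⟨B.inv_mem hv.1, by rw [inv_pow, hv.2, inv_one]⟩ }
  haveI hVn : V.Normal := ⟨fun v hv g => ⟨hBn.conj_mem v hv.1 g, by rw [conj_pow, hv.2, mul_one, mul_inv_cancel]⟩⟩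
  set C := Subgroup.centralizer (V : Set G) with hC
  set CB := Subgroup.centralizer (B : Set G) with hCB
  set N := Subgroup.normalizer ((W ⊓ B : Subgroup G) : Set G) with hN
  have hCBN : CB ≤ N := fun c hc' => CfsgLib.Glauberman.mem_normalizer_of_conj_mem fun z hz => by
    rw [← Subgroup.mem_centralizer_iff.mp hc' z hz.2, mul_inv_cancel_right]; exact hz
  -- `C(V) / C(B)` is a `p`-group
  have hCN : C ≤ N := by
    let π := QuotientGroup.mk' CB
    have hπp : IsPGroup p (C.map π) := by
      intro y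
      obtain ⟨x, hx, hxy⟩ := y.2
      obtain ⟨a, b, -, hb, hab, ⟨k, hk⟩, hbc⟩ := exists_mul_parts p x
      refine ⟨k, Subtype.ext ?_⟩
      have hbB : π b = 1 := (QuotientGroup.eq_one_iff b).mpr (Subgroup.mem_centralizer_iff.mpr fun u hu =>
        (commute_of_omega hp2 hBp hcl2 (by rw [Subgroup.normalizer_eq_top_iff.mpr hBn]; trivial) hbc
          (fun v hv hvp => (Subgroup.mem_centralizer_iff.mp (Subgroup.zpowers_le.mpr hx hb) v ⟨hv, hvp⟩).symm)
          u hu).eq.symm)
      rw [SubmonoidClass.coe_pow, ← hxy, ← hab, map_mul, hbB, mul_one, ← map_pow, hk, map_one]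
      rfl
    haveI : (C.map π).Normal := (inferInstance : C.Normal).map π (QuotientGroup.mk'_surjective _)
    have h1 : C.map π ≤ ((P : Subgroup G).map π) :=
      (CfsgLib.Core.le_pCore inferInstance hπp).trans
        (CfsgLib.Core.pCore_le_sylow (P.mapSurjective (QuotientGroup.mk'_surjective CB)))
    rw [Subgroup.map_le_map_iff, QuotientGroup.ker_mk'] at h1
    exact h1.trans (sup_le hPWB hCBN)
  set X := N.normalCore with hX
  haveI : X.Normal := Subgroup.normalCore_normal _
  have hCX : C ≤ X := Subgroup.normal_le_normalCore.mpr hCN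
  -- quadratic elements lie in `X`
  have hquad : ∀ a : G, (∀ v ∈ V, ⁅⁅v, a⁆, a⁆ = 1) → a ∈ X := by
    intro a ha
    let π := QuotientGroup.mk' C
    let Dn := (Cfsg.pCore p (G ⧸ C)).comap π
    haveI : Dn.Normal := (Cfsg.pCore_normal p _).comap π
    have hle : Dn ≤ N := by
      have h1 : Dn ≤ ((P : Subgroup G).map π).comap π :=
        Subgroup.comap_mono (CfsgLib.Core.pCore_le_sylow (P.mapSurjective (QuotientGroup.mk'_surjective C)))
      rw [Subgroup.comap_map_eq, QuotientGroup.ker_mk'] at h1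
      exact h1.trans (sup_le hPWB hCN)
    exact Subgroup.normal_le_normalCore.mpr hle (hst V (hBp.to_le fun v hv => hv.1) a ha)
  set T := (P : Subgroup G) ⊓ X with hT
  have hidx : ¬ p ∣ T.relIndex X :=
    sylow_inf_normal (H := ⊤) (by rw [Subgroup.relIndex_top_right]; exact P.not_dvd_index) le_top le_top
      (by rw [Subgroup.normalizer_eq_top_iff.mpr inferInstance])
  obtain ⟨R, hR⟩ := (exists_sylow_iff (inf_le_right : T ≤ X)).mpr ⟨P.2.to_le inf_le_left, hidx⟩
  have hfr := Sylow.normalizer_sup_eq_top R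
  rw [show ((R : Subgroup ↥X).map X.subtype) = T by
    rw [hR, Subgroup.map_subgroupOf_eq_of_le inf_le_right]] at hfr
  -- conjugates of `W ⊓ B` commute with the members inside `X`
  have hAB : ∀ A ∈ maxAb p (P : Subgroup G), A ≤ X → ∀ b ∈ B, ∀ a ∈ A, a * b = b * a := by
    intro A hA hAX b hb a ha
    have h1 : B ≤ Subgroup.centralizer (A : Set G) := by
      rw [← hlt, hB₀, Subgroup.normalClosure, Subgroup.closure_le]
      intro y hy
      obtain ⟨z, hz, hzy⟩ := Group.mem_conjugatesOfSet_iff.mp hy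
      obtain ⟨g, rfl⟩ := isConj_iff.mp hzy
      obtain ⟨n, hn, x, hx, rfl⟩ := Subgroup.mem_sup_of_normal_right.mp (hfr.ge (Subgroup.mem_top g))
      have hxz : x * z * x⁻¹ ∈ W ⊓ B :=
        (Subgroup.mem_normalizer_iff.mp (Subgroup.normalCore_le _ hx) z).mp hz
      refine Subgroup.mem_centralizer_iff.mpr fun a ha => ?_
      have hmem : cj n⁻¹ A ∈ maxAb p (P : Subgroup G) := hcl _ A hA (by
        rintro _ ⟨w, hw, rfl⟩
        exact ((Subgroup.mem_normalizer_iff.mp (inv_mem hn) w).mp ⟨hA.1 hw, hAX hw⟩).1)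
      have := hzA _ hxz.1 _ hmem _ (mem_cj.mpr ⟨a, ha, rfl⟩)
      simp only [inv_inv] at this
      calc a * (n * x * z * (n * x)⁻¹) = n * ((n⁻¹ * a * n) * (x * z * x⁻¹)) * n⁻¹ := by group
        _ = n * ((x * z * x⁻¹) * (n⁻¹ * a * n)) * n⁻¹ := by rw [this]
        _ = n * x * z * (n * x)⁻¹ * a := by group
    exact Subgroup.mem_centralizer_iff.mp (h1 hb) a ha
  by_cases hall : ∀ A ∈ maxAb p (P : Subgroup G), V ≤ A
  · have hJT : J' ≤ T := le_inf hJP (sSup_le fun A hA a ha =>
      hCX (Subgroup.mem_centralizer_iff.mpr fun v hv => hA.2.1.1 v (hall A hA hv) a ha))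
    have hNT : Subgroup.normalizer (T : Set G) ≤ Subgroup.normalizer (J' : Set G) := by
      intro n hn
      refine CfsgLib.Glauberman.mem_normalizer_of_conj_mem ?_
      have hle : J' ≤ J'.comap (MulAut.conj n).toMonoidHom := sSup_le fun A hA a ha => by
        refine (le_sSup (hcl n A hA ?_) : cj n A ≤ J') (mem_cj.mpr ⟨a, ha, rfl⟩)
        rintro _ ⟨w, hw, rfl⟩
        exact ((Subgroup.mem_normalizer_iff.mp hn w).mp (hJT ((le_sSup hA : A ≤ J') hw))).1
      exact fun a ha => hle ha
    refine Subgroup.normalizer_eq_top_iff.mp (top_le_iff.mp (hfr.ge.trans (sup_le (fun n hn => ?_)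
      (Subgroup.normalCore_le _))))
    have hnW := normalizer_le_normalizer_Z _ (hNT hn)
    exact CfsgLib.Glauberman.mem_normalizer_of_conj_mem fun z hz =>
      ⟨(Subgroup.mem_normalizer_iff.mp hnW z).mp hz.1, hBn.conj_mem z hz.2 n⟩
  · exfalso
    push Not at hall
    have hVZ : ∀ A ∈ maxAb p (P : Subgroup G), ⁅V, V⁆ ≤ A := fun A hA => Subgroup.commutator_le.mpr fun v hv w hw => by
      have hvw : ⁅v, w⁆ ∈ W ⊓ ⁅B, B⁆ := hB'W (Subgroup.commutator_mem_commutator hv.1 hw.1)
      have hvwp : ⁅v, w⁆ ^ p = 1 := (V.mul_mem (V.mul_mem (V.mul_mem hv hw) (V.inv_mem hv)) (V.inv_mem hw)).2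
      have hcl' : AbExp p (Subgroup.closure (insert ⁅v, w⁆ (A : Set G))) := by
        refine abExp_closure ?_ ?_
        · rintro a (rfl | ha) b (rfl | hb)
          · rfl
          · exact (hzA _ hvw.1 A hA b hb).symm
          · exact hzA _ hvw.1 A hA a ha
          · exact hA.2.1.1 a ha b hb
        · rintro a (rfl | ha)
          · exact hvwp
          · exact hA.2.1.2 a ha
      have hle : Subgroup.closure (insert ⁅v, w⁆ (A : Set G)) ≤ (P : Subgroup G) :=
        (Subgroup.closure_le _).mpr (Set.insert_subset (hWP hvw.1) hA.1)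
      rw [Subgroup.eq_of_le_of_card_ge (fun a ha => Subgroup.subset_closure (Or.inr ha) :
        A ≤ Subgroup.closure (insert ⁅v, w⁆ (A : Set G))) (hA.2.2 _ hle hcl')]
      exact Subgroup.subset_closure (Or.inl rfl)
    have hVcl : ⁅⁅V, V⁆, V⁆ = ⊥ := by
      rw [Subgroup.commutator_eq_bot_iff_le_centralizer]
      exact (Subgroup.commutator_mono (H₁ := V) (H₂ := V) (K₁ := B) (K₂ := B) (fun v hv => hv.1) (fun v hv => hv.1)).trans fun y hy =>
        Subgroup.mem_centralizer_iff.mpr fun v hv => (Subgroup.mem_centralizer_iff.mp (hBB' hv.1) y hy).symm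
    obtain ⟨A, hA, hVA, hVN⟩ := maxAb_rep hp2 (Or.inr rfl) P le_rfl V (fun v hv => hBP hv.1)
      (by rw [Subgroup.normalizer_eq_top_iff.mpr hVn]; exact le_top) hVcl hVZ hall
    have hAX : A ≤ X := fun a ha => hquad a fun v hv => by
      refine commutatorElement_eq_one_iff_mul_comm.mpr (hA.2.1.1 _ ?_ a ha)
      rw [commutatorElement_def]
      exact A.mul_mem ((Subgroup.mem_normalizer_iff.mp (hVN hv) a).mp ha) (A.inv_mem ha)
    refine hVA fun v hv => ?_
    have hcl' : AbExp p (Subgroup.closure (insert v (A : Set G))) := by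
      refine abExp_closure ?_ ?_
      · rintro a (rfl | ha) b (rfl | hb)
        · rfl
        · exact (hAB A hA hAX _ hv.1 b hb).symm
        · exact hAB A hA hAX _ hv.1 a ha
        · exact hA.2.1.1 a ha b hb
      · rintro a (rfl | ha)
        · exact hv.2
        · exact hA.2.1.2 a ha
    have hle : Subgroup.closure (insert v (A : Set G)) ≤ (P : Subgroup G) :=
      (Subgroup.closure_le _).mpr (Set.insert_subset (hBP hv.1) hA.1)
    rw [Subgroup.eq_of_le_of_card_ge (fun a ha => Subgroup.subset_closure (Or.inr ha) :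
      A ≤ Subgroup.closure (insert v (A : Set G))) (hA.2.2 _ hle hcl')]
    exact Subgroup.subset_closure (Or.inl rfl)

/-- **The Glauberman-Thompson theorem**: `N(Z(J(P)))` decides normal `p`-complements, for odd `p`. -/
theorem pcOn_top {p : ℕ} [hp : Fact p.Prime] (hp2 : p ≠ 2) (n : ℕ) : ∀ (G : Type u) [Group G] [Finite G],
    Nat.card G = n → ∀ P : Sylow p G, PCOn p (Subgroup.normalizer (Z (J p (P : Subgroup G)) : Set G)) →
      PCOn p (⊤ : Subgroup G) := by
  induction n using Nat.strong_induction_on with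
  | _ n ih =>
  intro G _ _ hn P hN
  by_contra hbad
  have hPp : IsPGroup p (P : Subgroup G) := P.2
  rcases eq_or_ne (P : Subgroup G) ⊥ with hP1 | hP1
  · refine hbad fun x _ y _ _ _ => ?_
    have h1 : ¬ p ∣ Nat.card G := fun h => Sylow.ne_bot_of_dvd_card P h hP1
    exact (Nat.coprime_comm.mp (hp.out.coprime_iff_not_dvd.mpr h1)).coprime_dvd_left (orderOf_dvd_natCard _)
  -- proper subgroups over the Sylow subgroup
  have hM : ∀ M : Subgroup G, M ≠ ⊤ → (P : Subgroup G) ≤ M → PCOn p M := by
    intro M hMt hPM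
    rw [← pcOn_top_subgroup]
    refine ih _ (hn ▸ lt_of_le_of_ne (Subgroup.card_le_card_group M) fun h' => hMt (Subgroup.eq_top_of_card_eq M h'))
      M rfl (P.subtype hPM) ?_
    rw [← pcOn_map_iff (Subgroup.subtype_injective M)]
    refine hN.mono ?_
    rintro _ ⟨x, hx, rfl⟩
    have h1 := map_normalizer_le_normalizer (f := M.subtype) hx
    rwa [Z_map (injOn_of_injective (Subgroup.subtype_injective M) _),
      J_map p (injOn_of_injective (Subgroup.subtype_injective M) _),
      show ((P.subtype hPM : Sylow p M) : Subgroup M).map M.subtype = (P : Subgroup G) from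
        Subgroup.map_subgroupOf_eq_of_le hPM] at h1
  -- the elementary part is normal
  set U := zMeet p (P : Subgroup G) with hU
  have hUtop : Subgroup.normalizer (U : Set G) = ⊤ := by
    by_contra hne
    exact hbad (pcOn_top_of_strongly_closed hp2 (Or.inr rfl) P ⟨le_rfl, fun _ _ _ h => h⟩
      (hM _ hne (Subgroup.le_normalizer.trans (normalizer_le_normalizer_zMeet p _))))
  set Q := Cfsg.pCore p G with hQdef
  haveI hQn : Q.Normal := Cfsg.pCore_normal p G
  have hQp : IsPGroup p Q := CfsgLib.Core.isPGroup_pCore p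
  have hQne : Q ≠ ⊥ := fun h => zMeet_ne_bot (dvd_refl p) hPp hP1 (le_bot_iff.mp
    (h ▸ CfsgLib.Core.le_pCore (Subgroup.normalizer_eq_top_iff.mp hUtop) (hPp.to_le (zMeet_le p _))))
  -- no normal p'-subgroups
  have hcore : ∀ K : Subgroup G, K.Normal → (Nat.card K).Coprime p → K = ⊥ := by
    intro K hK hKc
    by_contra hK1
    haveI := hK
    set f := QuotientGroup.mk' K
    have hfs : Function.Surjective f := QuotientGroup.mk'_surjective K
    have hker : f.ker = K := QuotientGroup.ker_mk' K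
    have hlt : Nat.card (G ⧸ K) < n := by
      rw [← hn, Subgroup.card_eq_card_quotient_mul_card_subgroup K]
      exact lt_mul_of_one_lt_right Nat.card_pos ((Subgroup.one_lt_card_iff_ne_bot K).mpr hK1)
    have hinj : Set.InjOn f (P : Subgroup G) := by
      intro x hx y hy hxy
      have hmem : x⁻¹ * y ∈ f.ker := by rw [MonoidHom.mem_ker, map_mul, map_inv, hxy, inv_mul_cancel]
      refine inv_mul_eq_one.mp (eq_one_of_coprime_of_mem hPp (mul_mem (inv_mem hx) hy) ?_)
      exact (hker.symm ▸ hKc).coprime_dvd_left (f.ker.orderOf_dvd_natCard hmem)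
    have h := ih _ hlt (G ⧸ K) rfl (P.mapSurjective hfs) ?_
    · exact hbad (pcOn_top_of_coprime_ker f (hker.symm ▸ hKc) h)
    show PCOn p (Subgroup.normalizer (Z (J p ((P : Subgroup G).map f)) : Set (G ⧸ K)))
    rw [← J_map p hinj, ← Z_map (hinj.mono (J_le p _))]
    exact (hN.map f).mono (normalizer_map_le_of_coprime hfs (hker.symm ▸ hKc)
      (hPp.to_le ((Z_le _).trans (J_le p _))))
  have hquot := pcOn_quotient hp2 P hM
  let π := QuotientGroup.mk' Q
  have hπk : π.ker = Q := QuotientGroup.ker_mk' Q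
  set C := Subgroup.centralizer (Q : Set G)
  haveI hCn : C.Normal := inferInstance
  have hCU : C ≤ Q := by
    by_cases hCP : C ⊔ (P : Subgroup G) = ⊤
    · exfalso
      apply hbad
      have hmem : ∀ x : G, (orderOf x).Coprime p → x ∈ C := by
        intro x hx
        obtain ⟨c, hc, s, hs, rfl⟩ := Subgroup.mem_sup_of_normal_left.mp
          (show x ∈ C ⊔ (P : Subgroup G) from hCP ▸ Subgroup.mem_top x)
        have h1 : QuotientGroup.mk' C (c * s) = QuotientGroup.mk' C s := by
          rw [map_mul, show QuotientGroup.mk' C c = 1 from (QuotientGroup.eq_one_iff c).mpr hc, one_mul]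
        refine C.mul_mem hc ((QuotientGroup.eq_one_iff s).mp ?_)
        refine eq_one_of_coprime_of_mem (hPp.map (QuotientGroup.mk' C)) (Subgroup.mem_map_of_mem _ hs) ?_
        refine hx.coprime_dvd_left ?_
        have h2 := orderOf_map_dvd (QuotientGroup.mk' C) (c * s)
        rwa [h1] at h2
      set M := C ⊓ (pcore' hquot).comap π
      have hMmem : ∀ x : G, (orderOf x).Coprime p → x ∈ M := fun x hx =>
        ⟨hmem x hx, Subgroup.mem_top _, hx.coprime_dvd_left (orderOf_map_dvd π x)⟩
      intro x _ y _ hx hy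
      set a : M := ⟨x, hMmem x hx⟩
      set b : M := ⟨y, hMmem y hy⟩
      have hidx : (Subgroup.center M).index.Coprime p := by
        have h1 : Q.subgroupOf M ≤ Subgroup.center M := fun u hu => by
          rw [Subgroup.mem_center_iff]; intro g; exact Subtype.ext ((g.2.1 u hu).symm)
        refine Nat.Coprime.coprime_dvd_left (Subgroup.index_dvd_of_le h1) ?_
        have h2 : Q.subgroupOf M = (π.comp M.subtype).ker := by
          rw [← MonoidHom.comap_ker, hπk]; rfl
        rw [h2, Subgroup.index_ker]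
        refine (card_pcore'_coprime hquot).coprime_dvd_left (Subgroup.card_dvd_of_le ?_)
        rintro _ ⟨m, rfl⟩
        exact m.2.2
      set t := MonoidHom.transferCenterPow M
      have ht : ∀ z : M, ((t z : Subgroup.center M) : M) = z ^ (Subgroup.center M).index :=
        MonoidHom.transferCenterPow_apply
      have hcomm : Commute (a ^ (Subgroup.center M).index) (b ^ (Subgroup.center M).index) := by
        rw [← ht, ← ht]
        exact (Subgroup.mem_center_iff.mp (t b).2 _)
      have hab : (a * b) ^ (Subgroup.center M).index =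
          a ^ (Subgroup.center M).index * b ^ (Subgroup.center M).index := by
        rw [← ht, ← ht, ← ht, map_mul]; rfl
      have hox : orderOf a = orderOf x := (Subgroup.orderOf_coe a).symm
      have hoy : orderOf b = orderOf y := (Subgroup.orderOf_coe b).symm
      have h3 : orderOf (a * b) ∣ (Subgroup.center M).index * (orderOf x * orderOf y) := by
        apply orderOf_dvd_of_pow_eq_one
        rw [pow_mul, hab, hcomm.mul_pow, ← pow_mul, ← pow_mul,
          orderOf_dvd_iff_pow_eq_one.mp (Dvd.intro_left (Subgroup.center M).index (hox ▸ rfl) |>.trans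
            (mul_dvd_mul_left _ (dvd_mul_right (orderOf x) (orderOf y)))),
          orderOf_dvd_iff_pow_eq_one.mp (Dvd.intro_left (Subgroup.center M).index (hoy ▸ rfl) |>.trans
            (mul_dvd_mul_left _ (dvd_mul_left (orderOf y) (orderOf x)))), one_mul]
      rw [← Subgroup.orderOf_coe] at h3
      exact ((hidx.mul_left (hx.mul_left hy)).coprime_dvd_left h3)
    · have hC := (hM _ hCP le_sup_right).mono (le_sup_left : C ≤ C ⊔ P)
      have hK : (pcore' hC).Normal :=
        Subgroup.normalizer_eq_top_iff.mp (top_le_iff.mp ((Subgroup.normalizer_eq_top_iff.mpr hCn).ge.trans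
          (normalizer_le_pcore' hC)))
      have hK1 := hcore _ hK (card_pcore'_coprime hC)
      refine CfsgLib.Core.le_pCore hCn fun z => ?_
      obtain ⟨a, b, -, hb, hab, ⟨k, hk⟩, hbc⟩ := exists_mul_parts p (z : G)
      refine ⟨k, Subtype.ext ?_⟩
      have hb1 : b ∈ pcore' hC := ⟨Subgroup.zpowers_le.mpr z.2 hb, hbc⟩
      rw [hK1, Subgroup.mem_bot] at hb1
      rw [hb1, mul_one] at hab
      rw [SubmonoidClass.coe_pow, ← hab]
      exact hk
  have hst : Stable p G := (pcOn_or_stable hp2 P hCU hM).resolve_left hbad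
  have hWn := normal_of_stable hp2 P hst hCU
  rw [Subgroup.normalizer_eq_top_iff.mpr hWn] at hN
  exact hbad hN

end CfsgLib.GroupB.ZJThompson
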