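import Cfsg.Agent.Lib.GroupB.Hall
import Mathlib.Algebra.BigOperators.Group.Finset.Basic
import Mathlib.GroupTheory.Nilpotent

/-! The averaging argument for fixed-point-free groups of automorphisms of a module. -/

set_option autoImplicit false

namespace CfsgLib.GroupB.FpfAverage

open scoped commutatorElement

/-- If the orbit norms of a group of operators on `V ⋊ K` vanish on `V`, then the elements of `V` centralized by some
`⟨ζ⁻¹ * f i ζ⟩` generate `V`. -/
theorem eq_top_of_average {V K ι : Type*} [CommGroup V] [Finite V] [CommGroup K] [Finite K] [Fintype ι]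
    (φ : K →* MulAut V) (hcop : (Nat.card K).Coprime (Nat.card V)) (i0 : ι)
    (fV : ι → V → V) (fK : ι → K →* K) (h0V : ∀ v, fV i0 v = v) (h0K : ∀ ζ, fK i0 ζ = ζ)
    (hcompat : ∀ i ζ v, fV i (φ ζ v) = φ (fK i ζ) (fV i v)) (hN : ∀ v, ∏ i, fV i v = 1) (W : Subgroup V)
    (hW : ∀ i, i ≠ i0 → ∀ v, (∀ ζ, φ (ζ⁻¹ * fK i ζ) v = v) → v ∈ W) : W = ⊤ := by
  classical
  haveI := Fintype.ofFinite K
  refine eq_top_iff.mpr fun v _ => ?_
  let u : ι → V := fun i => ∏ ζ : K, φ (ζ⁻¹ * fK i ζ) (fV i v)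
  have h1 : ∀ ζ : K, ∏ i, φ (ζ⁻¹ * fK i ζ) (fV i v) = 1 := by
    intro ζ
    have e : ∀ i, φ (ζ⁻¹ * fK i ζ) (fV i v) = φ ζ⁻¹ (fV i (φ ζ v)) := fun i => by
      rw [map_mul, MulAut.mul_apply, hcompat]
    simp only [e, ← map_prod, hN, map_one]
  have h2 : ∏ i, u i = 1 := by
    simp only [u]
    rw [Finset.prod_comm]
    exact Finset.prod_eq_one fun ζ _ => h1 ζ
  have h3 : u i0 = v ^ Nat.card K := by
    simp [u, h0V, h0K, Finset.prod_const, Nat.card_eq_fintype_card]
  have h4 : ∀ i, i ≠ i0 → u i ∈ W := by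
    intro i hi
    refine hW i hi _ fun η => ?_
    simp only [u, map_prod]
    refine Fintype.prod_equiv (Equiv.mulLeft η) _ _ fun ζ => ?_
    rw [← MulAut.mul_apply, ← map_mul]
    congr 2
    simp only [Equiv.coe_mulLeft, map_mul, mul_inv_rev]
    ac_rfl
  rw [Fintype.prod_eq_mul_prod_compl i0] at h2
  have h5 : v ^ Nat.card K ∈ W := by
    rw [← h3, eq_inv_of_mul_eq_one_left h2]
    exact W.inv_mem (W.prod_mem fun i hi => h4 i (by simpa using hi))
  obtain ⟨m, hm⟩ := exists_pow_eq_self_of_coprime (hcop.coprime_dvd_right (orderOf_dvd_natCard v))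
  rw [← hm]
  exact W.pow_mem h5 m

end CfsgLib.GroupB.FpfAverage
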