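import Cfsg.Agent.Lib.GroupB.FpfRestrict
import Cfsg.Agent.Lib.GroupB.FpfAverage
import Mathlib.GroupTheory.FiniteAbelian.Duality
import Mathlib.Analysis.Complex.Polynomial.Basic
import Mathlib.RingTheory.RootsOfUnity.AlgebraicallyClosed

/-! Fixed-point-free pairs of automorphisms: an abelian group of operators is centralised. -/

set_option autoImplicit false

namespace CfsgLib.GroupB.FpfAbelian

open scoped commutatorElement Pointwise
open CfsgLib.GroupB.FpfRestrict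

attribute [local instance] finite_mulAut

variable {V : Type*} [CommGroup V]

theorem mem_fix {M : Subgroup (MulAut V)} {v : V} : v ∈ fix M ↔ M ≤ MulAction.stabilizer (MulAut V) v :=
  Iff.rfl

theorem mem_fix_commutator [Finite V] {K : Subgroup (MulAut V)} {b : MulAut V}
    (hb : b ∈ Subgroup.normalizer (K : Set (MulAut V))) {v : V} (h : ∀ k ∈ K, ⁅k, b⁆ v = v) :
    v ∈ fix ⁅K, Subgroup.zpowers b⁆ := by
  refine mem_fix.mpr (Subgroup.commutator_le.mpr fun k hk y hy => ?_)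
  obtain ⟨n, rfl⟩ := mem_powers_iff_mem_zpowers.mpr hy
  show ⁅k, b ^ n⁆ v = v
  induction n generalizing k with
  | zero => rw [pow_zero, commutatorElement_one_right, MulAut.one_apply]
  | succ n ih =>
    rw [show ⁅k, b ^ (n + 1)⁆ = ⁅k, b⁆ * ⁅b * k * b⁻¹, b ^ n⁆ by rw [pow_succ']; simp only [commutatorElement_def]; group,
      MulAut.mul_apply, ih _ ((Subgroup.mem_normalizer_iff.mp hb k).mp hk) (Subgroup.pow_mem _ (Subgroup.mem_zpowers b) n), h k hk]

/-- The averaging lemma for an abelian group of automorphisms. -/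
theorem iSup_fix_commutator [Finite V] {K B : Subgroup (MulAut V)} (hK : ∀ x ∈ K, ∀ y ∈ K, x * y = y * x)
    (hBK : B ≤ Subgroup.normalizer (K : Set (MulAut V))) (hcop : (Nat.card K).Coprime (Nat.card V))
    (hB : fix B = ⊥) : (⨆ b ∈ B, ⨆ (_ : b ≠ 1), fix ⁅K, Subgroup.zpowers b⁆) = ⊤ := by
  classical
  haveI := Fintype.ofFinite B
  letI : CommGroup K := { (inferInstance : Group K) with mul_comm := fun x y => Subtype.ext (hK x x.2 y y.2) }
  let fK : B → K →* K := fun b => MonoidHom.mk'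
    (fun z => ⟨(b : MulAut V) * z * (b : MulAut V)⁻¹, (Subgroup.mem_normalizer_iff.mp (hBK b.2) z).mp z.2⟩)
    fun x y => Subtype.ext (show (b : MulAut V) * (x * y) * (b : MulAut V)⁻¹ =
      ((b : MulAut V) * x * (b : MulAut V)⁻¹) * ((b : MulAut V) * y * (b : MulAut V)⁻¹) by group)
  refine FpfAverage.eq_top_of_average (ι := B) K.subtype hcop 1 (fun b v => (b : MulAut V) v) fK
    (fun v => rfl) (fun z => Subtype.ext (show (1 : MulAut V) * z * (1 : MulAut V)⁻¹ = z by group)) ?_ ?_ _ ?_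
  · intro b z v
    show (b : MulAut V) ((z : MulAut V) v) = ((b : MulAut V) * z * (b : MulAut V)⁻¹) ((b : MulAut V) v)
    simp only [MulAut.mul_apply, MulAut.inv_apply_self]
  · intro v
    refine Subgroup.mem_bot.mp (hB ▸ (show (∏ i : B, (i : MulAut V) v) ∈ fix B from fun g hg => ?_))
    rw [map_prod]
    exact Fintype.prod_equiv (Equiv.mulLeft (⟨g, hg⟩ : B)) _ _ fun i => rfl
  · intro b hb v hv
    refine Subgroup.mem_iSup_of_mem (b : MulAut V) (Subgroup.mem_iSup_of_mem b.2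
      (Subgroup.mem_iSup_of_mem (fun h => hb (Subtype.ext h)) (mem_fix_commutator (hBK b.2) fun k hk => ?_)))
    have h := hv (⟨k, hk⟩ : K)⁻¹
    simp only [map_mul, map_inv, inv_inv, Subgroup.coe_subtype] at h
    rw [commutatorElement_def, mul_assoc k, mul_assoc k]
    exact h

/-- The norm map of a finite group of automorphisms. -/
noncomputable def nrm [Finite V] (M : Subgroup (MulAut V)) : V →* V :=
  letI := Fintype.ofFinite M
  MonoidHom.mk' (fun v => ∏ m : M, (m : MulAut V) v) fun a b => by simp [Finset.prod_mul_distrib]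

theorem apply_nrm [Finite V] {M : Subgroup (MulAut V)} {g : MulAut V}
    (hg : g ∈ Subgroup.normalizer (M : Set (MulAut V))) (v : V) : g (nrm M v) = nrm M (g v) := by
  letI := Fintype.ofFinite M
  show g (∏ m : M, (m : MulAut V) v) = ∏ m : M, (m : MulAut V) (g v)
  rw [map_prod]
  refine Fintype.prod_bijective (fun m : M => (⟨g * m * g⁻¹, (Subgroup.mem_normalizer_iff.mp hg m).mp m.2⟩ : M))
    ?_ _ _ fun m => ?_
  · exact Finite.injective_iff_bijective.mp fun a b h =>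
      Subtype.ext (mul_left_cancel (mul_right_cancel (congrArg Subtype.val h)))
  · show g ((m : MulAut V) v) = (g * m * g⁻¹) (g v)
    simp only [MulAut.mul_apply, MulAut.inv_apply_self]

theorem nrm_mem_fix [Finite V] (M : Subgroup (MulAut V)) (v : V) : nrm M v ∈ fix M := by
  intro g hg
  letI := Fintype.ofFinite M
  show g (∏ m : M, (m : MulAut V) v) = ∏ m : M, (m : MulAut V) v
  rw [map_prod]
  exact Fintype.prod_equiv (Equiv.mulLeft (⟨g, hg⟩ : M)) _ _ fun i => rfl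

theorem nrm_of_mem_fix [Finite V] {M : Subgroup (MulAut V)} {v : V} (hv : v ∈ fix M) : nrm M v = v ^ Nat.card M := by
  letI := Fintype.ofFinite M
  show ∏ m : M, (m : MulAut V) v = _
  rw [Finset.prod_congr rfl fun (m : M) _ => hv m m.2]
  simp [Nat.card_eq_fintype_card]

theorem mem_of_pow_mem [Finite V] {W : Subgroup V} {v : V} {k : ℕ} (hk : k.Coprime (Nat.card V)) (h : v ^ k ∈ W) : v ∈ W := by
  obtain ⟨m, hm⟩ := exists_pow_eq_self_of_coprime (hk.coprime_dvd_right (orderOf_dvd_natCard v))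
  rw [← hm]
  exact W.pow_mem h m

/-- A group `B` of exponent `p` and order dividing `p²` acting without fixed points. -/
structure Acts [Finite V] (p : ℕ) (B R S : Subgroup (MulAut V)) : Prop where
  hp : p.Prime
  comm : ∀ x ∈ B, ∀ y ∈ B, x * y = y * x
  expo : ∀ x ∈ B, x ^ p = 1
  card : Nat.card B ∣ p ^ 2
  nR : B ≤ Subgroup.normalizer (R : Set (MulAut V))
  nS : B ≤ Subgroup.normalizer (S : Set (MulAut V))
  SR : S ≤ Subgroup.normalizer (R : Set (MulAut V))
  copR : (Nat.card R).Coprime (Nat.card V)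
  copBR : (Nat.card B).Coprime (Nat.card R)
  copBS : (Nat.card B).Coprime (Nat.card S)
  vfix : fix B = ⊥
  rfix : R ⊓ Subgroup.centralizer (B : Set (MulAut V)) = ⊥
  cent : ∀ b ∈ B, b ≠ 1 → ∀ s ∈ S, b * s = s * b → ∀ x ∈ R, b * x = x * b → s * x = x * s

namespace Acts

variable [Finite V] {p : ℕ} {B R S : Subgroup (MulAut V)}

theorem isSolvable (h : Acts p B R S) : Group.IsSolvable B :=
  Group.isSolvable_of_comm fun a b => Subtype.ext (h.comm a a.2 b b.2)

theorem orderOf_eq (h : Acts p B R S) {a : MulAut V} (ha : a ∈ B) (ha1 : a ≠ 1) : orderOf a = p :=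
  haveI := Fact.mk h.hp
  orderOf_eq_prime (h.expo a ha) ha1

theorem mem_zpowers_symm (h : Acts p B R S) {a c : MulAut V} (ha : a ∈ B) (hc1 : c ≠ 1)
    (hc : c ∈ Subgroup.zpowers a) : a ∈ Subgroup.zpowers c := by
  by_cases ha1 : a = 1
  · rw [ha1]; exact one_mem _
  have hcB : c ∈ B := Subgroup.zpowers_le.mpr ha hc
  rw [Subgroup.eq_of_le_of_card_ge (Subgroup.zpowers_le.mpr hc)
    (by rw [Nat.card_zpowers, Nat.card_zpowers, h.orderOf_eq ha ha1, h.orderOf_eq hcB hc1])]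
  exact Subgroup.mem_zpowers a

theorem eq_sup (h : Acts p B R S) {a c : MulAut V} (ha : a ∈ B) (hc : c ∈ B) (ha1 : a ≠ 1)
    (hca : c ∉ Subgroup.zpowers a) : B = Subgroup.zpowers a ⊔ Subgroup.zpowers c := by
  have hle : Subgroup.zpowers a ⊔ Subgroup.zpowers c ≤ B :=
    sup_le (Subgroup.zpowers_le.mpr ha) (Subgroup.zpowers_le.mpr hc)
  refine (Subgroup.eq_of_le_of_card_ge hle ?_).symm
  obtain ⟨k, hk, hk'⟩ := (Nat.dvd_prime_pow h.hp).mp ((Subgroup.card_dvd_of_le hle).trans h.card)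
  have hlt : Nat.card (Subgroup.zpowers a) < Nat.card ↥(Subgroup.zpowers a ⊔ Subgroup.zpowers c) := by
    by_contra hc'
    rw [not_lt] at hc'
    refine hca ?_
    rw [Subgroup.eq_of_le_of_card_ge le_sup_left hc']
    exact Subgroup.mem_sup_right (Subgroup.mem_zpowers c)
  rw [Nat.card_zpowers, h.orderOf_eq ha ha1, hk'] at hlt
  rw [hk']
  have h2 : 2 ≤ k := by
    by_contra h2
    have := Nat.pow_le_pow_right h.hp.pos (show k ≤ 1 by omega)
    rw [pow_one] at this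
    omega
  exact (Nat.le_of_dvd (pow_pos h.hp.pos 2) h.card).trans (Nat.pow_le_pow_right h.hp.pos h2)

theorem copZ (h : Acts p B R S) {a : MulAut V} (ha : a ∈ B) {K : Subgroup (MulAut V)}
    (hK : (Nat.card B).Coprime (Nat.card K)) : (Nat.card (Subgroup.zpowers a)).Coprime (Nat.card K) :=
  hK.coprime_dvd_left (Subgroup.card_dvd_of_le (Subgroup.zpowers_le.mpr ha))

end Acts

theorem solvable_zpowers {G : Type*} [Group G] (a : G) : Group.IsSolvable (Subgroup.zpowers a) :=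
  haveI := IsCyclic.commutative (α := Subgroup.zpowers a)
  Group.isSolvable_of_comm fun x y => Std.Commutative.comm x y

/-- An abelian group of operators is centralised. -/
theorem commute_of_acts [Finite V] {p : ℕ} {B R S : Subgroup (MulAut V)} (h : Acts p B R S)
    (hR : ∀ x ∈ R, ∀ y ∈ R, x * y = y * x) : ∀ x ∈ R, ∀ s ∈ S, x * s = s * x := by
  classical
  -- primary subgroups
  let P : Subgroup (MulAut V) → Prop := fun M => M ≤ R ∧ ¬ fix M ≤ ⨆ N, ⨆ (_ : N ≤ R ∧ M < N), fix N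
  have hD : ∀ a ∈ B, ⁅R, Subgroup.zpowers a⁆ ≤ R := fun a ha =>
    Coprime.commutator_le_of_le_normalizer ((Subgroup.zpowers_le.mpr ha).trans h.nR)
  have hprim : ∀ M, P M → M ≠ R → ∃ a ∈ B, a ≠ 1 ∧ ⁅R, Subgroup.zpowers a⁆ ≤ M := by
    rintro M ⟨hMR, hM⟩ -
    by_contra hno
    push Not at hno
    refine hM fun v hv => ?_
    set W := ⨆ N, ⨆ (_ : N ≤ R ∧ M < N), fix N with hW
    have htop : W.comap (nrm M) = ⊤ := by
      refine eq_top_iff.mpr ?_
      rw [← iSup_fix_commutator hR h.nR h.copR h.vfix]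
      refine iSup₂_le fun b hb => iSup_le fun hb1 w hw => Subgroup.mem_comap.mpr ?_
      refine Subgroup.mem_iSup_of_mem (M ⊔ ⁅R, Subgroup.zpowers b⁆) (Subgroup.mem_iSup_of_mem
        ⟨sup_le hMR (hD b hb), lt_of_le_not_ge le_sup_left fun hle => hno b hb hb1 (le_sup_right.trans hle)⟩ ?_)
      refine mem_fix.mpr (sup_le (mem_fix.mp (nrm_mem_fix M w)) fun d hd => ?_)
      show d (nrm M w) = nrm M w
      rw [apply_nrm ((Coprime.le_normalizer_of_conj_mem fun k hk m hm => ?_) hd) w, hw d hd]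
      rwa [hR k (hD b hb hk) m (hMR hm), mul_inv_cancel_right]
    refine mem_of_pow_mem (h.copR.coprime_dvd_left (Subgroup.card_dvd_of_le hMR)) ?_
    rw [← nrm_of_mem_fix hv]
    exact Subgroup.mem_comap.mp (htop ▸ Subgroup.mem_top v)
  -- the action on characters
  let N := Subgroup.normalizer (R : Set (MulAut V))
  letI act : MulAction N (R →* ℂˣ) :=
    { smul := fun g f => MonoidHom.mk'
        (fun x => f ⟨(g : (MulAut V))⁻¹ * x * (g : (MulAut V)), by simpa using (Subgroup.mem_normalizer_iff.mp (N.inv_mem g.2) x).mp x.2⟩)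
        (fun x y => by rw [← map_mul]; exact congrArg f (Subtype.ext (by simp only [Subgroup.coe_mul]; group)))
      one_smul := fun f => MonoidHom.ext fun x => congrArg f (Subtype.ext (by simp))
      mul_smul := fun g g' f => MonoidHom.ext fun x => congrArg f (Subtype.ext (by simp only [Subgroup.coe_mul]; group)) }
  have hsmul : ∀ (g : N) (f : R →* ℂˣ) (x y : R), (g : (MulAut V))⁻¹ * x * (g : (MulAut V)) = y → (g • f) x = f y :=
    fun g f x y hxy => congrArg f (Subtype.ext hxy)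
  let SN := S.subgroupOf N
  let BN := B.subgroupOf N
  have hnone : ∀ f : R →* ℂˣ, (∀ b ∈ BN, b • f = f) → f = 1 := by
    intro f hf
    have hker : R ≤ f.ker.map R.subtype := by
      calc R = (R ⊓ Subgroup.centralizer (B : Set (MulAut V))) ⊔ ⁅R, B⁆ :=
            (Coprime.centralizer_sup_commutator h.nR h.copBR (Or.inr h.isSolvable)).symm
        _ = ⁅R, B⁆ := by rw [h.rfix, bot_sup_eq]
        _ ≤ _ := Subgroup.commutator_le.mpr fun k hk b hb => by
          have hb' : b * k⁻¹ * b⁻¹ ∈ R := (Subgroup.mem_normalizer_iff.mp (h.nR hb) _).mp (R.inv_mem hk)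
          refine ⟨⟨k, hk⟩ * ⟨b * k⁻¹ * b⁻¹, hb'⟩, MonoidHom.mem_ker.mpr ?_, by
            simp [commutatorElement_def, mul_assoc]⟩
          have e := congrArg (fun t : R →* ℂˣ => t ⟨b * k⁻¹ * b⁻¹, hb'⟩) (hf ⟨b, h.nR hb⟩ hb)
          rw [hsmul _ f _ (⟨k, hk⟩⁻¹ : R) (by simp [mul_assoc])] at e
          rw [map_mul, ← e, ← map_mul, mul_inv_cancel, map_one]
    ext x
    obtain ⟨y, hy, hyx⟩ := hker x.2
    rw [show x = y from Subtype.ext hyx.symm, MonoidHom.mem_ker.mp hy]; rfl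
  -- every relevant character is fixed by `S`
  let Λ : Set (R →* ℂˣ) := {f | f ≠ 1 ∧ ∃ M, P M ∧ ∀ x : R, (x : (MulAut V)) ∈ M → f x = 1}
  have hΛfix : ∀ f ∈ Λ, ∃ a, ∃ ha : a ∈ B, a ≠ 1 ∧ (⟨a, h.nR ha⟩ : N) • f = f := by
    rintro f ⟨hf, M, hM, hfM⟩
    have hne : M ≠ R := fun he => hf (MonoidHom.ext fun x => hfM x (he ▸ x.2))
    obtain ⟨a, ha, ha1, hle⟩ := hprim M hM hne
    refine ⟨a, ha, ha1, MonoidHom.ext fun x => ?_⟩
    have hax : a⁻¹ * x * a ∈ R := by simpa using (Subgroup.mem_normalizer_iff.mp (h.nR (B.inv_mem ha)) x).mp x.2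
    rw [hsmul _ f x ⟨_, hax⟩ rfl]
    have h1 := hfM ((⟨_, hax⟩ : R) * x⁻¹) (hle ?_)
    · rwa [map_mul, map_inv, mul_inv_eq_one] at h1
    · show a⁻¹ * (x : (MulAut V)) * a * (x : (MulAut V))⁻¹ ∈ _
      rw [show a⁻¹ * (x : (MulAut V)) * a * (x : (MulAut V))⁻¹ = (⁅(x : (MulAut V)), a⁻¹⁆)⁻¹ by rw [commutatorElement_def]; group]
      exact Subgroup.inv_mem _ (Subgroup.commutator_mem_commutator x.2 (Subgroup.inv_mem _ (Subgroup.mem_zpowers a)))
  have hΛS : ∀ g ∈ SN, ∀ f ∈ Λ, g • f ∈ Λ := by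
    rintro g hg f ⟨hf, M, hM, hfM⟩
    refine ⟨fun he => hf ?_, M.map (MulAut.conj (g : (MulAut V))).toMonoidHom, ⟨?_, ?_⟩, fun x hx => ?_⟩
    · rw [← inv_smul_smul g f, he]
      ext x; rfl
    · exact (Subgroup.map_mono hM.1).trans (Coprime.mem_normalizer_iff_map_conj_eq.mp g.2).le
    · intro hle
      refine hM.2 fun v hv => ?_
      have hgv : (g : (MulAut V)) v ∈ fix (M.map (MulAut.conj (g : (MulAut V))).toMonoidHom) := by
        rintro _ ⟨m, hm, rfl⟩
        show ((g : (MulAut V)) * m * (g : (MulAut V))⁻¹) ((g : (MulAut V)) v) = (g : (MulAut V)) v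
        simp only [MulAut.mul_apply, MulAut.inv_apply_self, hv m hm]
      have hle2 : (⨆ K, ⨆ (_ : K ≤ R ∧ M.map (MulAut.conj (g : (MulAut V))).toMonoidHom < K), fix K) ≤
          (⨆ K, ⨆ (_ : K ≤ R ∧ M < K), fix K).comap (((g : (MulAut V))⁻¹ : (MulAut V)) : V ≃* V).toMonoidHom := by
        refine iSup₂_le fun K hK w hw => Subgroup.mem_comap.mpr ?_
        have hgR : R.map (MulAut.conj ((g : (MulAut V))⁻¹)).toMonoidHom = R :=
          Coprime.mem_normalizer_iff_map_conj_eq.mp (N.inv_mem g.2)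
        refine Subgroup.mem_iSup_of_mem (K.map (MulAut.conj ((g : (MulAut V))⁻¹)).toMonoidHom) (Subgroup.mem_iSup_of_mem
          ⟨(Subgroup.map_mono hK.1).trans hgR.le, ?lt⟩ ?mem)
        case lt =>
          have h2 := Subgroup.map_lt_map_iff_of_injective (f := (MulAut.conj ((g : (MulAut V))⁻¹)).toMonoidHom) (MulAut.conj ((g : (MulAut V))⁻¹)).injective |>.mpr hK.2
          rwa [SchurZassenhaus.map_conj_map_conj, inv_mul_cancel, map_one, show (1 : MulAut (MulAut V)).toMonoidHom = MonoidHom.id (MulAut V) from rfl,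
            Subgroup.map_id] at h2
        case mem =>
          rintro _ ⟨k, hk, rfl⟩
          show ((g : (MulAut V))⁻¹ * k * ((g : (MulAut V))⁻¹)⁻¹) ((g : (MulAut V))⁻¹ w) = (g : (MulAut V))⁻¹ w
          simp only [MulAut.mul_apply, inv_inv, MulAut.apply_inv_self, hw k hk]
      have h3 := Subgroup.mem_comap.mp (hle2 (hle hgv))
      simpa using h3
    · obtain ⟨m, hm, hmx⟩ := hx
      rw [hsmul g f x ⟨m, hM.1 hm⟩]
      · exact hfM _ hm
      · rw [← hmx]; show (g : (MulAut V))⁻¹ * ((g : (MulAut V)) * m * (g : (MulAut V))⁻¹) * g = m; group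
  have key : ∀ f ∈ Λ, ∀ g ∈ SN, g • f = f := by
    intro f hf
    obtain ⟨a, ha, ha1, haf⟩ := hΛfix f hf
    set aN : N := ⟨a, h.nR ha⟩
    let O : Set (R →* ℂˣ) := {μ | ∃ g ∈ SN, g • f = μ}
    have hconj : ∀ b, ∀ hb : b ∈ B, ∀ g ∈ SN, (⟨b, h.nR hb⟩ : N) * g * (⟨b, h.nR hb⟩ : N)⁻¹ ∈ SN :=
      fun b hb g hg => (Subgroup.mem_normalizer_iff.mp (h.nS hb) _).mp hg
    have hfO : ∀ μ ∈ O, aN • μ = μ := by
      rintro μ ⟨g0, hg0, rfl⟩
      obtain ⟨c, hc, hc1, hcμ⟩ := hΛfix _ (hΛS g0 hg0 f hf)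
      by_cases hca : c ∈ Subgroup.zpowers a
      · obtain ⟨n, hn⟩ := Subgroup.mem_zpowers_iff.mp (h.mem_zpowers_symm ha hc1 hca)
        have hmem : aN ∈ MulAction.stabilizer N (g0 • f) := by
          rw [show aN = (⟨c, h.nR hc⟩ : N) ^ n from Subtype.ext (by rw [SubgroupClass.coe_zpow]; exact hn.symm)]
          exact Subgroup.zpow_mem _ hcμ n
        exact hmem
      exfalso
      let Q : Subgroup N := MulAction.stabilizer N O
      have hQ : ∀ t : N, (∀ μ ∈ O, t • μ ∈ O) → t ∈ Q := fun t ht =>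
        (MulAction.mem_stabilizer_set_iff_smul_set_subset (Set.toFinite O)).mpr (by rintro _ ⟨μ, hμ, rfl⟩; exact ht μ hμ)
      have hAQ : aN ∈ Q := hQ _ (by
        rintro _ ⟨g, hg, rfl⟩
        refine ⟨aN * g * aN⁻¹, hconj a ha g hg, ?_⟩
        rw [mul_smul, mul_smul, inv_smul_eq_iff.mpr haf.symm])
      have hCQ : (⟨c, h.nR hc⟩ : N) ∈ Q := hQ _ (by
        rintro _ ⟨g, hg, rfl⟩
        refine ⟨(⟨c, h.nR hc⟩ : N) * (g * g0⁻¹) * (⟨c, h.nR hc⟩ : N)⁻¹ * g0,
          SN.mul_mem (hconj c hc _ (SN.mul_mem hg (SN.inv_mem hg0))) hg0, ?_⟩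
        rw [mul_smul, mul_smul, inv_smul_eq_iff.mpr hcμ.symm, ← mul_smul, mul_assoc, inv_mul_cancel_right, mul_smul])
      have hBQ : BN ≤ Q := by
        intro b hb
        have hb' : (b : (MulAut V)) ∈ Subgroup.zpowers a ⊔ Subgroup.zpowers c := h.eq_sup ha hc ha1 hca ▸ hb
        have : Subgroup.zpowers a ⊔ Subgroup.zpowers c ≤ Q.map N.subtype :=
          sup_le (Subgroup.zpowers_le.mpr ⟨aN, hAQ, rfl⟩) (Subgroup.zpowers_le.mpr ⟨⟨c, h.nR hc⟩, hCQ, rfl⟩)
        obtain ⟨q, hq, hqb⟩ := this hb'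
        rwa [show b = q from Subtype.ext hqb.symm]
      obtain ⟨⟨μ, ⟨g, hg, hgμ⟩, hμ⟩, -⟩ := Coprime.glauberman (G := SN) (A := BN) (X := N)
        (Coprime.le_normalizer_of_conj_mem fun b hb g hg => hconj (b : (MulAut V)) hb g hg)
        (by rw [Nat.card_congr (Subgroup.subgroupOfEquivOfLe h.nR).toEquiv,
          Nat.card_congr (Subgroup.subgroupOfEquivOfLe h.SR).toEquiv]; exact h.copBS)
        (Or.inr (haveI := h.isSolvable; Group.isSolvable_of_surjective (Subgroup.subgroupOfEquivOfLe h.nR).symm.surjective (f := (Subgroup.subgroupOfEquivOfLe h.nR).symm.toMonoidHom)))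
        O ⟨f, 1, SN.one_mem, one_smul _ _⟩
        (by rintro t ht _ ⟨g, hg, rfl⟩; exact ⟨t * g, SN.mul_mem ht hg, mul_smul _ _ _⟩)
        (fun b hb μ hμ => (MulAction.mem_stabilizer_set_iff_smul_set_subset (Set.toFinite O)).mp (hBQ hb) ⟨μ, hμ, rfl⟩)
        (by rintro _ ⟨g, hg, rfl⟩ _ ⟨g', hg', rfl⟩
            exact ⟨g' * g⁻¹, SN.mul_mem hg' (SN.inv_mem hg), by rw [← mul_smul, inv_mul_cancel_right]⟩)
      exact (hΛS g hg f hf).1 (hgμ ▸ hnone μ hμ)
    intro g hg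
    obtain ⟨c', hc', n, hn, hcn⟩ := Coprime.exists_mul_eq (A := Subgroup.zpowers a) ((Subgroup.zpowers_le.mpr ha).trans h.nS)
      (h.copZ ha h.copBS) (Or.inr (solvable_zpowers a)) (g := (g : (MulAut V))) hg
    have hnfix : ⁅S, Subgroup.zpowers a⁆ ≤ (MulAction.stabilizer N f).map N.subtype := by
      refine Subgroup.commutator_le.mpr fun t ht y hy => ?_
      obtain ⟨i, rfl⟩ := Subgroup.mem_zpowers_iff.mp hy
      let tN : N := ⟨t, h.SR ht⟩
      refine ⟨tN * aN ^ i * tN⁻¹ * (aN ^ i)⁻¹, ?_, by simp [commutatorElement_def, SubgroupClass.coe_zpow, tN, aN]⟩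
      have hfix : aN ^ i ∈ MulAction.stabilizer N f := Subgroup.zpow_mem _ haf i
      have hfix2 : aN ^ i ∈ MulAction.stabilizer N (tN⁻¹ • f) :=
        Subgroup.zpow_mem _ (hfO _ ⟨tN⁻¹, SN.inv_mem ht, rfl⟩) i
      show (tN * aN ^ i * tN⁻¹ * (aN ^ i)⁻¹) • f = f
      rw [mul_smul, inv_smul_eq_iff.mpr (MulAction.mem_stabilizer_iff.mp hfix).symm, mul_smul, mul_smul,
        MulAction.mem_stabilizer_iff.mp hfix2, smul_inv_smul]
    obtain ⟨nN, hnN, rfl⟩ := hnfix hn
    rw [show g = (⟨c', h.SR hc'.1⟩ : N) * nN from Subtype.ext hcn.symm, mul_smul, MulAction.mem_stabilizer_iff.mp hnN]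
    -- centralisers of `a`
    have hca : a * c' = c' * a := Subgroup.mem_centralizer_iff.mp hc'.2 a (Subgroup.mem_zpowers a)
    ext x : 1
    have hx' : c'⁻¹ * (x : (MulAut V)) * c' ∈ R := by
      simpa using (Subgroup.mem_normalizer_iff.mp (N.inv_mem (h.SR hc'.1)) x).mp x.2
    rw [hsmul _ f x ⟨_, hx'⟩ rfl]
    obtain ⟨y, hy, z, hz, hyz⟩ := Coprime.exists_mul_eq (A := Subgroup.zpowers a) ((Subgroup.zpowers_le.mpr ha).trans h.nR)
      (h.copZ ha h.copBR) (Or.inr (solvable_zpowers a)) x.2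
    have hya : a * y = y * a := Subgroup.mem_centralizer_iff.mp hy.2 a (Subgroup.mem_zpowers a)
    have hyc : c' * y = y * c' := h.cent a ha ha1 c' hc'.1 hca y hy.1 hya
    have hkill : ⁅R, Subgroup.zpowers a⁆ ≤ f.ker.map R.subtype := by
      refine Subgroup.commutator_le.mpr fun k hk b hb => ?_
      obtain ⟨i, rfl⟩ := Subgroup.mem_zpowers_iff.mp hb
      have hb' : a ^ i * k⁻¹ * (a ^ i)⁻¹ ∈ R :=
        (Subgroup.mem_normalizer_iff.mp (h.nR (B.zpow_mem ha i)) _).mp (R.inv_mem hk)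
      refine ⟨⟨k, hk⟩ * ⟨_, hb'⟩, MonoidHom.mem_ker.mpr ?_, by simp [commutatorElement_def, mul_assoc]⟩
      have e := congrArg (fun t : R →* ℂˣ => t ⟨_, hb'⟩)
        (MulAction.mem_stabilizer_iff.mp (Subgroup.zpow_mem (MulAction.stabilizer N f) haf i))
      rw [hsmul _ f _ (⟨k, hk⟩⁻¹ : R) (by simp [mul_assoc, SubgroupClass.coe_zpow, aN])] at e
      rw [map_mul, ← e, ← map_mul, mul_inv_cancel, map_one]
    have hz' : c'⁻¹ * z * c' ∈ ⁅R, Subgroup.zpowers a⁆ := by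
      have hcn' : c'⁻¹ ∈ Subgroup.normalizer ((⁅R, Subgroup.zpowers a⁆ : Subgroup (MulAut V)) : Set (MulAut V)) := by
        refine Subgroup.inv_mem _ (Coprime.mem_normalizer_iff_map_conj_eq.mpr ?_)
        rw [Subgroup.map_commutator, Coprime.mem_normalizer_iff_map_conj_eq.mp (h.SR hc'.1), MonoidHom.map_zpowers,
          show (MulAut.conj c').toMonoidHom a = a by show c' * a * c'⁻¹ = a; rw [← hca, mul_inv_cancel_right]]
      simpa using (Subgroup.mem_normalizer_iff.mp hcn' z).mp hz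
    obtain ⟨z1, hz1, hz1e⟩ := hkill hz
    obtain ⟨z2, hz2, hz2e⟩ := hkill hz'
    rw [show (⟨_, hx'⟩ : R) = ⟨y, hy.1⟩ * z2 from Subtype.ext (show c'⁻¹ * (x : (MulAut V)) * c' = y * (z2 : (MulAut V)) by
        rw [← hyz, show (z2 : (MulAut V)) = c'⁻¹ * z * c' from hz2e]
        calc c'⁻¹ * (y * z) * c' = c'⁻¹ * y * (z * c') := by group
          _ = c'⁻¹ * y * c' * (c'⁻¹ * z * c') := by group
          _ = _ := by rw [mul_assoc c'⁻¹ y c', ← hyc, inv_mul_cancel_left]),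
      show x = ⟨y, hy.1⟩ * z1 from Subtype.ext (hyz.symm.trans (congrArg (y * ·) hz1e.symm)),
      map_mul, map_mul, MonoidHom.mem_ker.mp hz1, MonoidHom.mem_ker.mp hz2]
  -- separation
  intro x hx s hs
  have hzR : s * x * s⁻¹ * x⁻¹ ∈ R :=
    R.mul_mem ((Subgroup.mem_normalizer_iff.mp (h.SR hs) x).mp hx) (R.inv_mem hx)
  set z := s * x * s⁻¹ * x⁻¹ with hz
  have hsep : ∀ M, P M → z ∈ M := by
    intro M hM
    by_contra hzM
    letI : CommGroup R := { (inferInstance : Group R) with mul_comm := fun a b => Subtype.ext (hR a a.2 b b.2) }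
    obtain ⟨χ, hχ⟩ := CommGroup.exists_apply_ne_one_of_hasEnoughRootsOfUnity (R ⧸ M.subgroupOf R) ℂ
      (a := (QuotientGroup.mk' (M.subgroupOf R) ⟨z, hzR⟩)) (fun he => hzM ((QuotientGroup.eq_one_iff (⟨z, hzR⟩ : R)).mp he : (⟨z, hzR⟩ : R) ∈ M.subgroupOf R))
    let f : R →* ℂˣ := χ.comp (QuotientGroup.mk' (M.subgroupOf R))
    have hfΛ : f ∈ Λ := ⟨fun he => hχ (DFunLike.congr_fun he ⟨z, hzR⟩), M, hM, fun w hw => by
      show χ (QuotientGroup.mk' _ w) = 1
      rw [show QuotientGroup.mk' (M.subgroupOf R) w = 1 from (QuotientGroup.eq_one_iff w).mpr (show w ∈ M.subgroupOf R from hw), map_one]⟩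
    have hk := DFunLike.congr_fun (key f hfΛ ⟨s, h.SR hs⟩ hs) ⟨s * x * s⁻¹, (Subgroup.mem_normalizer_iff.mp (h.SR hs) x).mp hx⟩
    rw [hsmul _ f _ ⟨x, hx⟩ (by simp only; group)] at hk
    refine hχ ?_
    show f ⟨z, hzR⟩ = 1
    rw [show (⟨z, hzR⟩ : R) = ⟨s * x * s⁻¹, (Subgroup.mem_normalizer_iff.mp (h.SR hs) x).mp hx⟩ * ⟨x, hx⟩⁻¹ from rfl,
      map_mul, ← hk, map_inv, mul_inv_cancel]
  have hall : ∀ M : Subgroup (MulAut V), M ≤ R → fix M ≤ fix (Subgroup.zpowers z) := by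
    intro M
    induction M using WellFoundedGT.induction with
    | ind M ih =>
      intro hMR
      by_cases hM : P M
      · exact fix_antitone (Subgroup.zpowers_le.mpr (hsep M hM))
      · exact (not_not.mp fun hc => hM ⟨hMR, hc⟩).trans (iSup₂_le fun K hK => ih K hK.2 hK.1)
  have hz1 : z = 1 := MulEquiv.ext fun v =>
    hall ⊥ bot_le (show v ∈ fix ⊥ from fun m hm => by rw [Subgroup.mem_bot.mp hm, MulAut.one_apply]) z (Subgroup.mem_zpowers z)
  rw [hz, mul_inv_eq_one, mul_inv_eq_iff_eq_mul] at hz1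
  exact hz1.symm

end CfsgLib.GroupB.FpfAbelian
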