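import Cfsg.Agent.Lib.GroupB.FpfMain
import Cfsg.Agent.Lib.GroupB.Hall
import Cfsg.Agent.Lib.GroupB.FrobBasic
import Cfsg.Agent.S0033

/-! Fixed-point-free elementary groups of order `p²`: Fitting height at most two. -/

set_option autoImplicit false

namespace CfsgLib.GroupB.FpfHeight

open CfsgLib.GroupB.FpfRestrict CfsgLib.GroupB.FpfAbelian

attribute [local instance] finite_mulAut

universe u v

/-- A `p`-group of automorphisms fixing a coset of coprime size fixes one of its elements. -/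
theorem exists_fixed_mem_coset {G : Type u} [Group G] [Finite G] {P : Type v} [Group P] {p : ℕ} [Fact p.Prime]
    (hP : IsPGroup p P) (φ : P →* MulAut G) (N : Subgroup G) (hN : ∀ a, ∀ x ∈ N, φ a x ∈ N)
    (hp : ¬ p ∣ Nat.card N) {g : G} (hg : ∀ a, g⁻¹ * φ a g ∈ N) :
    ∃ y, (∀ a, φ a y = y) ∧ g⁻¹ * y ∈ N := by
  let α := {x : G // g⁻¹ * x ∈ N}
  letI : MulAction P α :=
    { smul := fun a x => ⟨φ a x.1, by
        have h : g⁻¹ * φ a x.1 = (g⁻¹ * φ a g) * φ a (g⁻¹ * x.1) := by rw [map_mul, map_inv]; group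
        rw [h]; exact N.mul_mem (hg a) (hN a _ x.2)⟩
      one_smul := fun x => Subtype.ext (by show φ 1 x.1 = x.1; rw [map_one]; rfl)
      mul_smul := fun a b x => Subtype.ext (by show φ (a * b) x.1 = φ a (φ b x.1); rw [map_mul]; rfl) }
  have hcard : Nat.card α = Nat.card N := Nat.card_congr
    { toFun := fun x => ⟨g⁻¹ * x.1, x.2⟩
      invFun := fun n => ⟨g * n, by simp⟩
      left_inv := fun x => by simp
      right_inv := fun n => by simp }
  obtain ⟨y, hy⟩ := hP.nonempty_fixed_point_of_prime_not_dvd_card α (by rwa [hcard])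
  exact ⟨y.1, fun a => congrArg Subtype.val (hy a), y.2⟩

variable {p : ℕ} [Fact p.Prime] {A : Type v} [Group A] [Finite A]

theorem not_dvd_card (hA : IsPGroup p A) {G : Type u} [Group G] [Finite G] (φ : A →* MulAut G)
    (hf : ∀ g, (∀ a, φ a g = g) → g = 1) : ¬ p ∣ Nat.card G := by
  intro hdvd
  letI : MulAction A G := MulAction.compHom G φ
  obtain ⟨g, hg, hne⟩ := hA.exists_fixed_point_of_prime_dvd_card_of_fixed_point G hdvd (a := 1) fun a => map_one (φ a)
  exact hne (hf g hg).symm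

/-- Ward's theorem. -/
theorem exists_nilpotent_lowerCentralSeries (hcard : Nat.card A = p ^ 2) (hcomm : ∀ a b : A, a * b = b * a)
    (hexp : ∀ a : A, a ^ p = 1) (n : ℕ) : ∀ (G : Type u) [Group G] [Finite G], Nat.card G ≤ n → Group.IsSolvable G →
      ∀ φ : A →* MulAut G, (∀ g, (∀ a, φ a g = g) → g = 1) →
        ∃ k, Group.IsNilpotent ((⊤ : Subgroup G).lowerCentralSeries k) := by
  have hp : p.Prime := Fact.out
  have hA : IsPGroup p A := IsPGroup.of_card hcard
  induction n with
  | zero => intro G _ _ h; exact absurd h (by simpa using (Nat.card_pos (α := G)).ne')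
  | succ n ih =>
  intro G _ _ hn hG φ hfpf
  classical
  rcases subsingleton_or_nontrivial G with hs | hnt
  · exact ⟨0, Group.isNilpotent_of_subsingleton⟩
  haveI := hG
  have hpG : ¬ p ∣ Nat.card G := not_dvd_card hA φ hfpf
  have hquot : ∀ (N : Subgroup G) [N.Normal], (∀ a, ∀ x ∈ N, φ a x ∈ N) → N ≠ ⊥ →
      ∃ k, Group.IsNilpotent ((⊤ : Subgroup (G ⧸ N)).lowerCentralSeries k) := by
    intro N _ hNφ hNne
    have hmap : ∀ a, N.map (φ a).toMonoidHom = N := fun a =>
      Subgroup.eq_of_le_of_card_ge (by rintro _ ⟨x, hx, rfl⟩; exact hNφ a x hx)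
        (Subgroup.card_map_of_injective (φ a).injective).ge
    let τ : A →* MulAut (G ⧸ N) := MonoidHom.mk' (fun a => QuotientGroup.congr N N (φ a) (hmap a))
      fun a b => MulEquiv.ext fun q => by
        obtain ⟨g, rfl⟩ := QuotientGroup.mk_surjective q
        show QuotientGroup.mk ((φ (a * b)) g) = QuotientGroup.mk ((φ a) ((φ b) g))
        rw [map_mul]; rfl
    refine ih (G ⧸ N) ?_ (Group.isSolvable_of_surjective (QuotientGroup.mk'_surjective N)) τ ?_
    · haveI : Nontrivial N := (Subgroup.nontrivial_iff_ne_bot N).mpr hNne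
      have h1 := Subgroup.card_eq_card_quotient_mul_card_subgroup N
      have h2 : 1 < Nat.card N := Finite.one_lt_card
      have h3 : Nat.card (G ⧸ N) * 2 ≤ Nat.card G := h1 ▸ Nat.mul_le_mul_left _ h2
      have := (Nat.card_pos (α := G ⧸ N))
      omega
    · intro q hq
      obtain ⟨g, rfl⟩ := QuotientGroup.mk_surjective q
      obtain ⟨y, hy, hgy⟩ := exists_fixed_mem_coset hA φ N hNφ (fun h => hpG (h.trans (Subgroup.card_subgroup_dvd_card N)))
        (g := g) (fun a => QuotientGroup.eq.mp (hq a).symm)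
      refine (QuotientGroup.eq_one_iff g).mpr ?_
      rw [hfpf y hy, mul_one] at hgy
      exact N.inv_mem_iff.mp hgy
  obtain ⟨q, V0, hq, hV0c, hV0ne, hV0a, -, hV0q⟩ := CfsgLib.GroupB.Hall.exists_characteristic_abelian G
  haveI := Fact.mk hq
  haveI := hV0c
  obtain ⟨V, hVle, hVmin⟩ := Finite.exists_le_minimal
    (p := fun W : Subgroup G => W ≠ ⊥ ∧ W.Normal ∧ ∀ a, ∀ x ∈ W, φ a x ∈ W) (a := V0)
    ⟨hV0ne, inferInstance, fun a x hx => Subgroup.characteristic_iff_map_le.mp hV0c (φ a) ⟨x, hx, rfl⟩⟩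
  obtain ⟨⟨hVne, hVn, hVφ⟩, hVmin⟩ := hVmin
  haveI := hVn
  haveI hVa : IsMulCommutative V := ⟨⟨fun a b => Subtype.ext
    (congrArg Subtype.val (hV0a.is_comm.comm ⟨a, hVle a.2⟩ ⟨b, hVle b.2⟩) : (a : G) * b = b * a)⟩⟩
  letI : CommGroup V := { (inferInstance : Group V) with mul_comm := hVa.is_comm.comm }
  have hVq : IsPGroup q V := hV0q.to_le hVle
  obtain ⟨k, hk⟩ := hquot V hVφ hVne
  let ψ : G →* MulAut V := (MulAut.conjNormal : G →* MulAut V)
  set C := ψ.ker with hC
  have hmemC : ∀ g, g ∈ C → ∀ v ∈ V, g * v = v * g := fun g hg v hv => by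
    have h : g * v * g⁻¹ = v := congrArg Subtype.val (DFunLike.congr_fun (MonoidHom.mem_ker.mp hg) (⟨v, hv⟩ : V))
    calc g * v = g * v * g⁻¹ * g := by group
      _ = v * g := by rw [h]
  set H := ψ.range with hHdef
  suffices hH : Group.IsNilpotent H by
    obtain ⟨j, hj⟩ := (Subgroup.isNilpotent_iff_lowerCentralSeries H).mp hH
    refine ⟨max k j, ?_⟩
    set N := (⊤ : Subgroup G).lowerCentralSeries (max k j)
    have hNC : N ≤ C := by
      refine (Subgroup.map_eq_bot_iff N).mp (le_bot_iff.mp ?_)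
      rw [Subgroup.map_lowerCentralSeries, ← MonoidHom.range_eq_map, ← hHdef]
      exact (Subgroup.lowerCentralSeries_antitone _ (le_max_right k j)).trans hj.le
    set π := QuotientGroup.mk' V
    haveI : Group.IsNilpotent (N.map π) := by
      haveI := hk
      have hle : N.map π ≤ (⊤ : Subgroup (G ⧸ V)).lowerCentralSeries k := by
        rw [Subgroup.map_lowerCentralSeries, Subgroup.map_top_of_surjective _ (QuotientGroup.mk'_surjective V)]
        exact Subgroup.lowerCentralSeries_antitone _ (le_max_left k j)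
      exact Group.nilpotent_of_mulEquiv (Subgroup.subgroupOfEquivOfLe hle)
    refine Subgroup.isNilpotent_of_ker_le_center (π.subgroupMap N) fun x hx => ?_
    have hxV : (x : G) ∈ V := (QuotientGroup.eq_one_iff _).mp (congrArg Subtype.val (MonoidHom.mem_ker.mp hx))
    exact Subgroup.mem_center_iff.mpr fun y => Subtype.ext (hmemC _ (hNC y.2) x hxV)
  -- the action of `A` on `V`
  let ρ : A →* MulAut V := MonoidHom.mk' (fun a =>
    { toFun := fun v => ⟨φ a v, hVφ a v v.2⟩
      invFun := fun v => ⟨φ a⁻¹ v, hVφ a⁻¹ v v.2⟩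
      left_inv := fun v => Subtype.ext (by show φ a⁻¹ (φ a v) = v; rw [map_inv, MulAut.inv_apply_self])
      right_inv := fun v => Subtype.ext (by show φ a (φ a⁻¹ v) = v; rw [map_inv, MulAut.apply_inv_self])
      map_mul' := fun v w => Subtype.ext (map_mul (φ a) (v : G) w) })
    fun a b => MulEquiv.ext fun v => Subtype.ext (by show φ (a * b) v = φ a (φ b v); rw [map_mul]; rfl)
  have hρψ : ∀ a g, ρ a * ψ g * (ρ a)⁻¹ = ψ (φ a g) := fun a g => MulEquiv.ext fun v => Subtype.ext (by
    show φ a (g * ((ρ a)⁻¹ v : V) * g⁻¹) = φ a g * v * (φ a g)⁻¹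
    have : φ a (((ρ a)⁻¹ v : V) : G) = v := congrArg Subtype.val (MulAut.apply_inv_self _ (ρ a) v)
    rw [map_mul, map_mul, map_inv, this])
  set B := ρ.range with hBdef
  have hCφ : ∀ a, ∀ x ∈ C, φ a x ∈ C := fun a x hx => MonoidHom.mem_ker.mpr (by
    rw [← hρψ, MonoidHom.mem_ker.mp hx, mul_one, mul_inv_cancel])
  have hBH : B ≤ Subgroup.normalizer (H : Set (MulAut V)) := by
    refine Coprime.le_normalizer_of_conj_mem fun b hb x hx => ?_
    obtain ⟨a, rfl⟩ := hb
    obtain ⟨g, rfl⟩ := hx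
    exact ⟨φ a g, (hρψ a g).symm⟩
  have hpC : ¬ p ∣ Nat.card C := fun h => hpG (h.trans (Subgroup.card_subgroup_dvd_card C))
  -- fixed points lift
  have hlift : ∀ (P : Subgroup A) (x : MulAut V), x ∈ H → (∀ a ∈ P, ρ a * x = x * ρ a) →
      ∃ y, (∀ a ∈ P, φ a y = y) ∧ ψ y = x := by
    intro P x hx hcx
    obtain ⟨g, rfl⟩ := hx
    obtain ⟨y, hy, hgy⟩ := exists_fixed_mem_coset (hA.to_subgroup P) (φ.comp P.subtype) C (fun a => hCφ a) hpC (g := g)
      (fun a => MonoidHom.mem_ker.mpr (by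
        show ψ (g⁻¹ * φ a g) = 1
        rw [map_mul, map_inv, ← hρψ, hcx a a.2, mul_inv_cancel_right, inv_mul_cancel]))
    refine ⟨y, fun a ha => hy ⟨a, ha⟩, ?_⟩
    have := MonoidHom.mem_ker.mp hgy
    rw [map_mul, map_inv, inv_mul_eq_one] at this
    exact this.symm
  have hBcomm : ∀ x ∈ B, ∀ y ∈ B, x * y = y * x := by
    rintro _ ⟨a, rfl⟩ _ ⟨b, rfl⟩
    rw [← map_mul, ← map_mul, hcomm]
  have hrfix : H ⊓ Subgroup.centralizer (B : Set (MulAut V)) = ⊥ := by
    refine (Subgroup.eq_bot_iff_forall _).mpr fun x hx => ?_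
    obtain ⟨y, hy, rfl⟩ := hlift ⊤ x hx.1 fun a _ => Subgroup.mem_centralizer_iff.mp hx.2 _ ⟨a, rfl⟩
    rw [hfpf y fun a => hy a trivial, map_one]
  have hvfix : fix B = ⊥ := (Subgroup.eq_bot_iff_forall _).mpr fun v hv =>
    Subtype.ext (hfpf v fun a => congrArg Subtype.val (hv (ρ a) ⟨a, rfl⟩))
  have hBcard : Nat.card B ∣ p ^ 2 := hcard ▸ Subgroup.card_range_dvd ρ
  have hcopB : (Nat.card B).Coprime (Nat.card H) := by
    refine Nat.Coprime.coprime_dvd_right ((Subgroup.card_range_dvd ψ)) ?_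
    exact Nat.Coprime.coprime_dvd_left hBcard (Nat.Coprime.pow_left 2 ((hp.coprime_iff_not_dvd).mpr hpG))
  -- centralisers of elements of `A` are nilpotent
  have hKnil : ∀ a : A, a ≠ 1 → ∃ K : Subgroup G, Group.IsNilpotent K ∧ ∀ g, g ∈ K ↔ φ a g = g := by
    intro a ha
    let K : Subgroup G :=
      { carrier := {g | φ a g = g}
        one_mem' := map_one _
        mul_mem' := fun {x y} hx hy => by show φ a (x * y) = x * y; rw [map_mul, hx, hy]
        inv_mem' := fun {x} hx => by show φ a x⁻¹ = x⁻¹; rw [map_inv, hx] }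
    refine ⟨K, ?_, fun g => Iff.rfl⟩
    rcases subsingleton_or_nontrivial K with hKs | hKn
    · exact Group.isNilpotent_of_subsingleton
    obtain ⟨b, hb⟩ : ∃ b : A, b ∉ Subgroup.zpowers a := by
      by_contra hno
      push Not at hno
      have h1 : Nat.card (Subgroup.zpowers a) = p ^ 2 := by
        rw [← hcard, show Subgroup.zpowers a = ⊤ from eq_top_iff.mpr fun x _ => hno x, Subgroup.card_top]
      rw [Nat.card_zpowers, orderOf_eq_prime (hexp a) ha] at h1
      nlinarith [hp.two_le]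
    have hbK : ∀ g ∈ K, φ b g ∈ K := fun g hg => by
      show φ a (φ b g) = φ b g
      rw [← MulAut.mul_apply, ← map_mul, hcomm, map_mul, MulAut.mul_apply]
      exact congrArg _ hg
    let σ : MulAut K :=
      MulEquiv.ofBijective
        (MonoidHom.mk' (fun g : K => (⟨φ b g, hbK g g.2⟩ : K)) fun x y => Subtype.ext (map_mul (φ b) (x : G) y))
        (Finite.injective_iff_bijective.mp fun x y h => Subtype.ext ((φ b).injective (congrArg Subtype.val h)))
    have htop : Subgroup.zpowers a ⊔ Subgroup.zpowers b = ⊤ := by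
      refine Subgroup.eq_top_of_le_card _ ?_
      have hlt : Nat.card (Subgroup.zpowers a) < Nat.card ↥(Subgroup.zpowers a ⊔ Subgroup.zpowers b) := by
        by_contra hc
        rw [not_lt] at hc
        refine hb ?_
        rw [Subgroup.eq_of_le_of_card_ge le_sup_left hc]
        exact Subgroup.mem_sup_right (Subgroup.mem_zpowers b)
      rw [Nat.card_zpowers, orderOf_eq_prime (hexp a) ha] at hlt
      have hd := Subgroup.card_subgroup_dvd_card (Subgroup.zpowers a ⊔ Subgroup.zpowers b)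
      rw [hcard] at hd ⊢
      obtain ⟨i, hi, hi'⟩ := (Nat.dvd_prime_pow hp).mp hd
      rw [hi'] at hlt ⊢
      refine Nat.pow_le_pow_right hp.pos ?_
      by_contra h2
      have := Nat.pow_le_pow_right hp.pos (show i ≤ 1 by omega)
      rw [pow_one] at this
      omega
    have hσfpf : MonoidHom.FixedPointFree (σ : K →* K) := by
      intro g hg
      refine Subtype.ext (hfpf g fun c => ?_)
      have hg' : φ b (g : G) = g := congrArg Subtype.val hg
      have hle : Subgroup.zpowers a ⊔ Subgroup.zpowers b ≤ (MulAction.stabilizer (MulAut G) (g : G)).comap φ :=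
        sup_le (Subgroup.zpowers_le.mpr g.2) (Subgroup.zpowers_le.mpr hg')
      exact hle (htop ▸ Subgroup.mem_top c)
    haveI := Fact.mk hp
    refine Cfsg.Agent.S0033.result σ hσfpf p hp (orderOf_eq_prime ?_ ?_)
    · have : ∀ (i : ℕ) (g : K), ((σ ^ i) g : G) = (φ b ^ i) g := by
        intro i g
        induction i with
        | zero => rfl
        | succ i ihi =>
          rw [pow_succ', MulAut.mul_apply, pow_succ', MulAut.mul_apply, ← ihi]
          rfl
      refine MulEquiv.ext fun g => Subtype.ext ?_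
      rw [this, ← map_pow, hexp, map_one]; rfl
    · intro h
      obtain ⟨g, hg⟩ := exists_ne (1 : K)
      exact hg (hσfpf g (DFunLike.congr_fun h g))
  -- the nilpotent residual of `H`
  have hHφ : ∃ φH : A →* MulAut H, ∀ h, (∀ a, φH a h = h) → h = 1 := by
    have hmem : ∀ a, ∀ h : H, ρ a * h * (ρ a)⁻¹ ∈ H := fun a h =>
      (Subgroup.mem_normalizer_iff.mp (hBH ⟨a, rfl⟩) h).mp h.2
    let f : A → H →* H := fun a => MonoidHom.mk' (fun h => ⟨_, hmem a h⟩)
      (fun x y => Subtype.ext (by show ρ a * (x * y : MulAut V) * (ρ a)⁻¹ = (ρ a * x * (ρ a)⁻¹) * (ρ a * y * (ρ a)⁻¹); group))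
    refine ⟨MonoidHom.mk' (fun a => MulEquiv.ofBijective (f a) (Finite.injective_iff_bijective.mp fun x y h =>
      Subtype.ext (mul_left_cancel (mul_right_cancel (congrArg Subtype.val h))))) (fun a b => MulEquiv.ext fun h =>
        Subtype.ext (by
          show ρ (a * b) * h * (ρ (a * b))⁻¹ = ρ a * (ρ b * h * (ρ b)⁻¹) * (ρ a)⁻¹
          rw [map_mul]; group)), fun h hh => Subtype.ext (Subgroup.mem_bot.mp (hrfix ▸ ⟨h.2, ?_⟩))⟩
    rintro _ ⟨a, rfl⟩
    have := congrArg Subtype.val (hh a)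
    exact mul_inv_eq_iff_eq_mul.mp this
  have hcardH : Nat.card H ≤ n := by
    have h1 : Nat.card H * Nat.card C = Nat.card G := by
      rw [hHdef, hC, ← Nat.card_congr (QuotientGroup.quotientKerEquivRange ψ).toEquiv,
        ← Subgroup.card_eq_card_quotient_mul_card_subgroup]
    have hVC : V ≤ C := fun v hv => MonoidHom.mem_ker.mpr (MulEquiv.ext fun w => Subtype.ext (by
      show v * (w : G) * v⁻¹ = w
      rw [show v * (w : G) = w * v from congrArg Subtype.val (hVa.is_comm.comm ⟨v, hv⟩ w), mul_inv_cancel_right]))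
    haveI : Nontrivial C := (Subgroup.nontrivial_iff_ne_bot C).mpr fun he => hVne (le_bot_iff.mp (he ▸ hVC))
    have h2 : 1 < Nat.card C := Finite.one_lt_card
    have := (Nat.card_pos (α := H))
    nlinarith
  haveI hsolH : Group.IsSolvable H := Group.isSolvable_of_surjective ψ.rangeRestrict_surjective
  obtain ⟨φH, hφH⟩ := hHφ
  obtain ⟨j, hj⟩ := ih H hcardH hsolH φH hφH
  set F0 := (⊤ : Subgroup H).lowerCentralSeries j
  haveI := hj
  have hsolB : Group.IsSolvable B := Group.isSolvable_of_comm fun x y => Subtype.ext (hBcomm x x.2 y y.2)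
  suffices hsyl : ∀ s : ℕ, Fact s.Prime → ∀ S : Sylow s H, (S : Subgroup H).Normal from
    ((Group.isNilpotent_of_finite_tfae (G := H)).out 0 3).mpr hsyl
  intro s hs S'
  obtain ⟨⟨S, hS, hSB⟩, -⟩ := Coprime.invariant_sylow hBH hcopB (Or.inr hsolB) s
  obtain ⟨T, hT⟩ := hS.exists_sylow
  suffices hTn : (T : Subgroup H).Normal by
    letI := Sylow.unique_of_normal T hTn
    rwa [Subsingleton.elim S' T]
  have hSsyl : (T : Subgroup H).map H.subtype = S := hT
  have hSH : S ≤ H := hSsyl ▸ Subgroup.map_subtype_le _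
  have hTF : F0 ≤ Subgroup.normalizer ((T : Subgroup H) : Set H) := by
    refine inf_eq_left.mp (Subgroup.eq_of_le_of_card_ge inf_le_left (Nat.le_of_dvd Nat.card_pos ?_))
    refine (Nat.factorization_prime_le_iff_dvd Nat.card_pos.ne' Nat.card_pos.ne').mp fun r hr => ?_
    haveI := Fact.mk hr
    obtain ⟨Q⟩ : Nonempty (Sylow r F0) := inferInstance
    have h03 : Group.IsNilpotent F0 ↔ ∀ (r : ℕ), Fact r.Prime → ∀ P : Sylow r F0, (P : Subgroup F0).Normal :=
      (Group.isNilpotent_of_finite_tfae (G := F0)).out 0 3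
    have hQn : (Q : Subgroup F0).Normal := h03.mp hj r inferInstance Q
    haveI := Sylow.characteristic_of_normal Q hQn
    set R0 := (Q : Subgroup F0).map F0.subtype with hR0
    have hR0F : R0 ≤ F0 := Subgroup.map_subtype_le _
    refine (hr.pow_dvd_iff_le_factorization Nat.card_pos.ne').mp ?_
    rw [← Q.card_eq_multiplicity, ← Subgroup.card_map_of_injective F0.subtype_injective]
    refine Subgroup.card_dvd_of_le (le_inf hR0F ?_)
    have hR0char : ∀ e : H ≃* H, R0.map e.toMonoidHom ≤ R0 := by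
      rintro e _ ⟨_, ⟨x, hx, rfl⟩, rfl⟩
      have hF : F0.map e.toMonoidHom = F0 :=
        Subgroup.characteristic_iff_map_eq.mp (inferInstance : F0.Characteristic) e
      let e' : F0 ≃* F0 := (e.subgroupMap F0).trans (MulEquiv.subgroupCongr hF)
      exact ⟨e' x, Subgroup.characteristic_iff_map_le.mp (inferInstance : (Q : Subgroup F0).Characteristic) e' ⟨x, hx, rfl⟩, rfl⟩
    haveI hR0n : R0.Normal := ⟨fun x hx g => hR0char (MulAut.conj g) ⟨x, hx, rfl⟩⟩
    have hR0r : IsPGroup r R0 := Q.isPGroup'.map _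
    by_cases hrs : r = s
    · subst hrs
      intro x hx
      have hle := CfsgLib.Core.sylow_inf_le T hR0r (N := R0)
      exact Subgroup.le_normalizer (hle hx)
    -- `R` is centralised by `S`
    set R := R0.map H.subtype with hRdef
    have hRH : R ≤ H := Subgroup.map_subtype_le _
    have hHR : H ≤ Subgroup.normalizer (R : Set (MulAut V)) := by
      refine Coprime.le_normalizer_of_conj_mem fun g hg x hx => ?_
      obtain ⟨y, hy, rfl⟩ := hx
      exact ⟨_, hR0n.conj_mem y hy ⟨g, hg⟩, rfl⟩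
    have hBR : B ≤ Subgroup.normalizer (R : Set (MulAut V)) := by
      refine Coprime.le_normalizer_of_conj_mem fun b hb x hx => ?_
      obtain ⟨y, hy, rfl⟩ := hx
      have hmem : ∀ h : H, b * h * b⁻¹ ∈ H := fun h => (Subgroup.mem_normalizer_iff.mp (hBH hb) h).mp h.2
      let e : H ≃* H := MulEquiv.ofBijective
        (MonoidHom.mk' (fun h : H => (⟨_, hmem h⟩ : H)) fun x y => Subtype.ext (by
          show b * (x * y : MulAut V) * b⁻¹ = (b * x * b⁻¹) * (b * y * b⁻¹); group))
        (Finite.injective_iff_bijective.mp fun x y h =>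
          Subtype.ext (mul_left_cancel (mul_right_cancel (congrArg Subtype.val h))))
      exact ⟨_, hR0char e ⟨y, hy, rfl⟩, rfl⟩
    have hRr : IsPGroup r R := hR0r.map _
    have hTR : ∀ x ∈ R, ∀ t ∈ S, x * t = t * x := by
      by_cases hrq : r = q
      · -- a normal `q`-subgroup of `H` acts trivially
        subst hrq
        intro x hx t ht
        suffices hx1 : x = 1 by rw [hx1, one_mul, mul_one]
        letI : MulAction R V := MulAction.compHom V R.subtype
        haveI : Nontrivial V := (Subgroup.nontrivial_iff_ne_bot V).mpr hVne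
        have hdvd : r ∣ Nat.card V := by
          obtain ⟨i, hi⟩ := IsPGroup.iff_card.mp hVq
          rw [hi]
          refine dvd_pow_self r fun h => ?_
          rw [h, pow_zero] at hi
          exact (Finite.one_lt_card (α := V)).ne' hi
        obtain ⟨v, hv, hvne⟩ := hRr.exists_fixed_point_of_prime_dvd_card_of_fixed_point V hdvd (a := 1) fun g => map_one (g : MulAut V)
        let W : Subgroup G :=
          { carrier := {y | ∃ hy : y ∈ V, ∀ z ∈ R, z ⟨y, hy⟩ = ⟨y, hy⟩}
            one_mem' := ⟨V.one_mem, fun z _ => map_one z⟩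
            mul_mem' := fun {a b} ⟨ha, ha'⟩ ⟨hb, hb'⟩ => ⟨V.mul_mem ha hb, fun z hz => by
              rw [show (⟨a * b, V.mul_mem ha hb⟩ : V) = ⟨a, ha⟩ * ⟨b, hb⟩ from rfl, map_mul, ha' z hz, hb' z hz]⟩
            inv_mem' := fun {a} ⟨ha, ha'⟩ => ⟨V.inv_mem ha, fun z hz => by
              rw [show (⟨a⁻¹, V.inv_mem ha⟩ : V) = (⟨a, ha⟩ : V)⁻¹ from rfl, map_inv, ha' z hz]⟩ }
        have hWn : W.Normal := ⟨fun y hy g => by
          obtain ⟨hy, hy'⟩ := hy
          exact ⟨hVn.conj_mem y hy g, smul_mem_fix (hHR ⟨g, rfl⟩) (v := ⟨y, hy⟩) hy'⟩⟩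
        have hWφ : ∀ a, ∀ y ∈ W, φ a y ∈ W := fun a y hy => by
          obtain ⟨hy, hy'⟩ := hy
          exact ⟨hVφ a y hy, smul_mem_fix (hBR ⟨a, rfl⟩) (v := ⟨y, hy⟩) hy'⟩
        have hVW : V ≤ W := hVmin ⟨fun h => hvne (Subtype.ext (Subgroup.mem_bot.mp (h ▸
          (⟨v.2, fun z hz => hv ⟨z, hz⟩⟩ : (v : G) ∈ W))).symm), hWn, hWφ⟩ fun y hy => hy.1
        exact MulEquiv.ext fun w => (hVW w.2).2 x hx
      have hcopRV : (Nat.card R).Coprime (Nat.card V) := IsPGroup.coprime_card_of_ne r q hrq R V hRr hVq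
      have hSs : IsPGroup s S := hS.isPGroup
      have hcopSR : (Nat.card S).Coprime (Nat.card R) := IsPGroup.coprime_card_of_ne s r (Ne.symm hrs) S R hSs hRr
      have hnilK : ∀ b ∈ B, b ≠ 1 → ∃ K : Subgroup G, ∃ a : A, Group.IsNilpotent K ∧ ρ a = b ∧
          ∀ g, g ∈ K ↔ φ a g = g := by
        rintro b ⟨a, rfl⟩ hb
        obtain ⟨K, hK, hK'⟩ := hKnil a (fun h => hb (by rw [h, map_one]))
        exact ⟨K, a, hK, rfl, hK'⟩
      have hliftK : ∀ (K : Subgroup G) (a : A), (∀ g, g ∈ K ↔ φ a g = g) → ∀ x ∈ H, ρ a * x = x * ρ a → x ∈ K.map ψ := by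
        intro K a hK x hx hax
        obtain ⟨y, hy, rfl⟩ := hlift (Subgroup.zpowers a) x hx (fun c hc => by
          obtain ⟨i, rfl⟩ := Subgroup.mem_zpowers_iff.mp hc
          rw [map_zpow]
          exact ((show Commute _ _ from hax).zpow_left i).eq)
        exact ⟨y, (hK y).mpr (hy a (Subgroup.mem_zpowers a)), rfl⟩
      haveI : Group.IsNilpotent R := hRr.isNilpotent
      refine FpfMain.commute_of_acts (B := B) (S := S) (p := p) (Nat.card R) R le_rfl
        { hp := hp
          comm := hBcomm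
          expo := by rintro _ ⟨a, rfl⟩; rw [← map_pow, hexp, map_one]
          card := hBcard
          nR := hBR
          nS := hSB
          SR := hSH.trans hHR
          copR := hcopRV
          copBR := hcopB.coprime_dvd_right (Subgroup.card_dvd_of_le hRH)
          copBS := hcopB.coprime_dvd_right (Subgroup.card_dvd_of_le hSH)
          vfix := hvfix
          rfix := le_bot_iff.mp ((inf_le_inf_right _ hRH).trans hrfix.le)
          cent := ?_ } inferInstance hcopSR ?_
      · intro b hb hb1 t ht hbt x hx hbx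
        obtain ⟨K, a, hK, rfl, hKa⟩ := hnilK b hb hb1
        haveI : Group.IsNilpotent (K.map ψ) :=
          haveI := hK
          Group.nilpotent_of_surjective (ψ.subgroupMap K) (ψ.subgroupMap_surjective K)
        obtain ⟨i, hi⟩ := IsPGroup.iff_orderOf.mp hSs ⟨t, ht⟩
        obtain ⟨i', hi'⟩ := IsPGroup.iff_orderOf.mp hRr ⟨x, hx⟩
        rw [Subgroup.orderOf_mk] at hi hi'
        have hc : Commute (⟨t, hliftK K a hKa t (hSH ht) hbt⟩ : K.map ψ) ⟨x, hliftK K a hKa x (hRH hx) hbx⟩ := by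
          refine FrobBasic.commute_of_coprime ?_
          rw [Subgroup.orderOf_mk, Subgroup.orderOf_mk, hi, hi']
          exact Nat.Coprime.pow _ _ ((Nat.coprime_primes hs.out hr).mpr (Ne.symm hrs))
        exact congrArg Subtype.val hc.eq
      · intro b hb hb1 x hx hbx w hw
        obtain ⟨K, a, hK, rfl, hKa⟩ := hnilK b hb hb1
        haveI := hK
        obtain ⟨g, hg, rfl⟩ := hliftK K a hKa x (hRH hx) hbx
        have hwK : (w : G) ∈ K := (hKa w).mpr (congrArg Subtype.val hw)
        obtain ⟨e, m, hm, hem⟩ := Nat.exists_eq_pow_mul_and_not_dvd (Nat.card_pos (α := G)).ne' q hq.ne_one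
        have hgo : (orderOf (g ^ q ^ e)).Coprime q := by
          refine Nat.Coprime.coprime_dvd_left (orderOf_dvd_of_pow_eq_one ?_) ((hq.coprime_iff_not_dvd).mpr hm).symm
          rw [← pow_mul, ← hem, pow_card_eq_one']
        obtain ⟨i, hi⟩ := IsPGroup.iff_orderOf.mp hVq w
        have hc : Commute (⟨g ^ q ^ e, K.pow_mem hg _⟩ : K) ⟨w, hwK⟩ := by
          refine FrobBasic.commute_of_coprime ?_
          rw [Subgroup.orderOf_mk, Subgroup.orderOf_mk, show orderOf (w : G) = q ^ i by rw [← hi, Subgroup.orderOf_coe]]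
          exact hgo.pow_right i
        have hc' : g ^ q ^ e * (w : G) = w * g ^ q ^ e := congrArg Subtype.val hc.eq
        have hfix : ψ g ^ q ^ e ∈ MulAction.stabilizer (MulAut V) w := by
          rw [← map_pow]
          exact Subtype.ext (show g ^ q ^ e * (w : G) * (g ^ q ^ e)⁻¹ = w by rw [hc', mul_inv_cancel_right])
        obtain ⟨i', hi'⟩ := IsPGroup.iff_orderOf.mp hRr ⟨ψ g, hx⟩
        rw [Subgroup.orderOf_mk] at hi'
        obtain ⟨l, hl⟩ := exists_pow_eq_self_of_coprime (n := q ^ e) (x := ψ g)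
          (hi' ▸ Nat.Coprime.pow _ _ ((Nat.coprime_primes hq hr).mpr (Ne.symm hrq)))
        exact hl ▸ Subgroup.pow_mem _ hfix l
    intro x hx
    refine Subgroup.mem_normalizer_iff.mpr fun t => ?_
    have key : ∀ t : H, t ∈ (T : Subgroup H) → x * t * x⁻¹ = t := fun t ht => Subtype.ext (by
      show (x : MulAut V) * t * (x : MulAut V)⁻¹ = t
      rw [hTR x ⟨x, hx, rfl⟩ t (hSsyl ▸ Subgroup.mem_map_of_mem _ ht), mul_inv_cancel_right])
    refine ⟨fun ht => (key t ht).symm ▸ ht, fun ht => ?_⟩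
    have := (MulAut.conj x).injective (key _ ht)
    rwa [show x * t * x⁻¹ = t from this] at ht
  -- conclude: `T F0` is normal
  haveI hF0n : F0.Normal := inferInstance
  set π0 := QuotientGroup.mk' F0
  haveI hQnil : Group.IsNilpotent (H ⧸ F0) := by
    refine Subgroup.nilpotent_iff_lowerCentralSeries.mpr ⟨j, ?_⟩
    rw [← Subgroup.map_top_of_surjective _ (QuotientGroup.mk'_surjective F0), ← Subgroup.map_lowerCentralSeries,
      QuotientGroup.map_mk'_self]
  have h03 : Group.IsNilpotent (H ⧸ F0) ↔ ∀ (r : ℕ), Fact r.Prime → ∀ P : Sylow r (H ⧸ F0), (P : Subgroup (H ⧸ F0)).Normal :=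
    (Group.isNilpotent_of_finite_tfae (G := H ⧸ F0)).out 0 3
  have hnT : ((T : Subgroup H).map π0).Normal :=
    h03.mp hQnil s hs
      (T.mapSurjective (QuotientGroup.mk'_surjective F0))
  haveI hsupn : ((T : Subgroup H) ⊔ F0).Normal := by
    have := hnT.comap π0
    rwa [Subgroup.comap_map_eq, QuotientGroup.ker_mk'] at this
  have := Sylow.normalizer_sup_eq_top' (N := (T : Subgroup H) ⊔ F0) T le_sup_left
  exact Subgroup.normalizer_eq_top_iff.mp (top_le_iff.mp (this.ge.trans (sup_le le_rfl (sup_le Subgroup.le_normalizer hTF))))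

end CfsgLib.GroupB.FpfHeight
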