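import Cfsg.Agent.Lib.GroupB.FpfAbelian
import Cfsg.Agent.Lib.GroupB.CoprimeAbelian

/-! Fixed-point-free pairs of automorphisms: a nilpotent group of operators is centralised. -/

set_option autoImplicit false

namespace CfsgLib.GroupB.FpfMain

open scoped commutatorElement
open CfsgLib.GroupB.FpfRestrict CfsgLib.GroupB.FpfAbelian

attribute [local instance] finite_mulAut

variable {V : Type*} [CommGroup V] [Finite V] {p : ℕ} {B R S : Subgroup (MulAut V)}

theorem le_normalizer_commutator_of_le {G : Type*} [Group G] {K L B : Subgroup G}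
    (hK : B ≤ Subgroup.normalizer (K : Set G)) (hL : B ≤ Subgroup.normalizer (L : Set G)) :
    B ≤ Subgroup.normalizer ((⁅K, L⁆ : Subgroup G) : Set G) := fun b hb => by
  rw [Coprime.mem_normalizer_iff_map_conj_eq, Subgroup.map_commutator,
    Coprime.mem_normalizer_iff_map_conj_eq.mp (hK hb), Coprime.mem_normalizer_iff_map_conj_eq.mp (hL hb)]

theorem le_normalizer_zpowers {G : Type*} [Group G] {B : Subgroup G} {c : G} (h : ∀ b ∈ B, b * c = c * b) :
    B ≤ Subgroup.normalizer (Subgroup.zpowers c : Set G) := fun b hb => by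
  rw [Coprime.mem_normalizer_iff_map_conj_eq, MonoidHom.map_zpowers]
  congr 1
  show b * c * b⁻¹ = c
  rw [h b hb, mul_inv_cancel_right]

theorem mono (h : Acts p B R S) {R₁ : Subgroup (MulAut V)} (hle : R₁ ≤ R)
    (hnR : B ≤ Subgroup.normalizer (R₁ : Set (MulAut V))) (hSR : S ≤ Subgroup.normalizer (R₁ : Set (MulAut V))) :
    Acts p B R₁ S where
  hp := h.hp
  comm := h.comm
  expo := h.expo
  card := h.card
  nR := hnR
  nS := h.nS
  SR := hSR
  copR := h.copR.coprime_dvd_left (Subgroup.card_dvd_of_le hle)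
  copBR := h.copBR.coprime_dvd_right (Subgroup.card_dvd_of_le hle)
  copBS := h.copBS
  vfix := h.vfix
  rfix := le_bot_iff.mp ((inf_le_inf_right _ hle).trans h.rfix.le)
  cent := fun b hb hb1 s hs hbs x hx => h.cent b hb hb1 s hs hbs x (hle hx)

theorem lift_zpowers (h : Acts p B R S) {U : Subgroup V} {K : Subgroup (MulAut V)} (hK : K ≤ stab U)
    (hBK : B ≤ Subgroup.normalizer (K : Set (MulAut V))) (hcop : (Nat.card B).Coprime (Nat.card K)) (hB : B ≤ stab U)
    {b : MulAut V} (hb : b ∈ B) {x : MulAut V} (hx : x ∈ K)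
    (hfix : res U ⟨b, hB hb⟩ * res U ⟨x, hK hx⟩ = res U ⟨x, hK hx⟩ * res U ⟨b, hB hb⟩) :
    ∃ y, ∃ hy : y ∈ K, b * y = y * b ∧ res U ⟨y, hK hy⟩ = res U ⟨x, hK hx⟩ := by
  have hle := Subgroup.zpowers_le.mpr hb
  obtain ⟨y, hy, hc, he⟩ := exists_lift_fixed hK (hle.trans hB) (hle.trans hBK) (h.copZ hb hcop)
    (solvable_zpowers b) hx (fun c hc => by
      obtain ⟨n, rfl⟩ := Subgroup.mem_zpowers_iff.mp hc
      rw [show (⟨b ^ n, _⟩ : stab U) = ⟨b, hB hb⟩ ^ n from Subtype.ext (by simp [SubgroupClass.coe_zpow]), map_zpow]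
      exact ((show Commute _ _ from hfix).zpow_left n).eq)
  exact ⟨y, hy, hc b (Subgroup.mem_zpowers b), he⟩

theorem restrict (h : Acts p B R S) (U : Subgroup V) (hB : B ≤ stab U) (hR : R ≤ stab U) (hS : S ≤ stab U) :
    Acts p (img U B) (img U R) (img U S) where
  hp := h.hp
  comm := commute_img hB hB h.comm
  expo := by
    intro x hx
    obtain ⟨b, hb, rfl⟩ := (mem_img hB).mp hx
    rw [← map_pow, show (⟨b, hB hb⟩ : stab U) ^ p = 1 from Subtype.ext (h.expo b hb), map_one]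
  card := (card_img_dvd U hB).trans h.card
  nR := img_le_normalizer hR hB h.nR
  nS := img_le_normalizer hS hB h.nS
  SR := img_le_normalizer hR hS h.SR
  copR := (h.copR.coprime_dvd_left (card_img_dvd U hR)).coprime_dvd_right (Subgroup.card_subgroup_dvd_card U)
  copBR := (h.copBR.coprime_dvd_left (card_img_dvd U hB)).coprime_dvd_right (card_img_dvd U hR)
  copBS := (h.copBS.coprime_dvd_left (card_img_dvd U hB)).coprime_dvd_right (card_img_dvd U hS)
  vfix := by
    refine (Subgroup.eq_bot_iff_forall _).mpr fun u hu => Subtype.ext ?_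
    exact Subgroup.mem_bot.mp (h.vfix ▸ (show (u : V) ∈ fix B from fun b hb =>
      congrArg Subtype.val (hu (res U ⟨b, hB hb⟩) ((mem_img hB).mpr ⟨b, hb, rfl⟩))))
  rfix := by
    refine (Subgroup.eq_bot_iff_forall _).mpr fun y hy => ?_
    obtain ⟨x, hx, rfl⟩ := (mem_img hR).mp hy.1
    obtain ⟨z, hz, hzc, hze⟩ := exists_lift_fixed hR hB h.nR h.copBR h.isSolvable hx
      (fun b hb => Subgroup.mem_centralizer_iff.mp hy.2 _ ((mem_img hB).mpr ⟨b, hb, rfl⟩))
    have hz1 : z = 1 := Subgroup.mem_bot.mp (h.rfix ▸ (⟨hz, Subgroup.mem_centralizer_iff.mpr hzc⟩ :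
      z ∈ R ⊓ Subgroup.centralizer (B : Set (MulAut V))))
    subst hz1
    rw [← hze]
    exact map_one _
  cent := by
    intro b' hb' hb1 s' hs' hbs x' hx' hbx
    obtain ⟨b, hb, rfl⟩ := (mem_img hB).mp hb'
    obtain ⟨s, hs, rfl⟩ := (mem_img hS).mp hs'
    obtain ⟨x, hx, rfl⟩ := (mem_img hR).mp hx'
    obtain ⟨s₀, hs₀, hs₀b, hs₀e⟩ := lift_zpowers h hS h.nS h.copBS hB hb hs hbs
    obtain ⟨x₀, hx₀, hx₀b, hx₀e⟩ := lift_zpowers h hR h.nR h.copBR hB hb hx hbx
    rw [← hs₀e, ← hx₀e, ← map_mul, ← map_mul]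
    refine congrArg (res U) (Subtype.ext (h.cent b hb (fun he => hb1 ?_) s₀ hs₀ hs₀b x₀ hx₀ hx₀b))
    subst he
    exact map_one _

/-- A nilpotent group of operators is centralised. -/
theorem commute_of_acts (n : ℕ) : ∀ R : Subgroup (MulAut V), Nat.card R ≤ n → Acts p B R S → Group.IsNilpotent R →
    (Nat.card S).Coprime (Nat.card R) →
    (∀ b ∈ B, b ≠ 1 → ∀ x ∈ R, b * x = x * b → ∀ v, b v = v → x v = v) → ∀ x ∈ R, ∀ s ∈ S, x * s = s * x := by
  induction n with
  | zero => intro R hR _ _ _ _; exact absurd hR (by simpa using (Nat.card_pos (α := R)).ne')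
  | succ n ih =>
  intro R hn h hnil hSR hcentV
  haveI := hnil
  have hsolR : Group.IsSolvable R := inferInstance
  have hsolB := h.isSolvable
  have hIH : ∀ R₁ : Subgroup (MulAut V), R₁ < R → B ≤ Subgroup.normalizer (R₁ : Set (MulAut V)) →
      S ≤ Subgroup.normalizer (R₁ : Set (MulAut V)) → ∀ x ∈ R₁, ∀ s ∈ S, x * s = s * x := by
    intro R₁ hlt hnR₁ hSR₁
    refine ih R₁ ?_ (mono h hlt.le hnR₁ hSR₁) ?_ (hSR.coprime_dvd_right (Subgroup.card_dvd_of_le hlt.le))
      fun b hb hb1 x hx => hcentV b hb hb1 x (hlt.le hx)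
    · have := Set.ncard_lt_ncard (SetLike.coe_ssubset_coe.mpr hlt) (Set.toFinite _)
      rw [← Nat.card_coe_set_eq, ← Nat.card_coe_set_eq] at this
      change Nat.card R₁ < Nat.card R at this
      omega
    · exact Group.nilpotent_of_mulEquiv (Subgroup.subgroupOfEquivOfLe hlt.le)
  by_cases hRS : ⁅R, S⁆ = R
  swap
  · have hlt : ⁅R, S⁆ < R := lt_of_le_of_ne (Coprime.commutator_le_of_le_normalizer h.SR) hRS
    have h1 := hIH _ hlt (le_normalizer_commutator_of_le h.nR h.nS) (le_sup_right.trans (Coprime.le_normalizer_commutator R S))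
    have h2 : ⁅⁅R, S⁆, S⁆ = ⊥ := Subgroup.commutator_eq_bot_iff_le_centralizer.mpr fun x hx =>
      Subgroup.mem_centralizer_iff.mpr fun s hs => (h1 x hx s hs).symm
    rw [Coprime.commutator_commutator_eq h.SR hSR (Or.inl hsolR)] at h2
    exact fun x hx s hs => (Subgroup.mem_centralizer_iff.mp (Subgroup.commutator_eq_bot_iff_le_centralizer.mp h2 hx) s hs).symm
  set R' := ⁅R, R⁆ with hR'
  have hR'le : R' ≤ R := Subgroup.commutator_le.mpr fun a ha b hb =>
    R.mul_mem (R.mul_mem (R.mul_mem ha hb) (R.inv_mem ha)) (R.inv_mem hb)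
  have hnR' : B ≤ Subgroup.normalizer (R' : Set (MulAut V)) := le_normalizer_commutator_of_le h.nR h.nR
  have hSR' : S ≤ Subgroup.normalizer (R' : Set (MulAut V)) := le_normalizer_commutator_of_le h.SR h.SR
  by_cases hbot : R' = ⊥
  · exact FpfAbelian.commute_of_acts h fun x hx y hy => commutatorElement_eq_one_iff_mul_comm.mp
      (Subgroup.mem_bot.mp (hbot ▸ Subgroup.commutator_mem_commutator hx hy))
  exfalso
  have hRne : R ≠ ⊥ := by rintro rfl; exact hbot (Subgroup.commutator_bot_left _)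
  have hlt : R' < R := by
    haveI : Nontrivial R := (Subgroup.nontrivial_iff_ne_bot R).mpr hRne
    rw [hR', ← R.range_subtype, MonoidHom.range_eq_map, ← Subgroup.map_commutator, Subgroup.map_subtype_lt_map_subtype]
    exact Group.IsSolvable.commutator_lt_top_of_nontrivial R
  have hR'S : ∀ z ∈ R', ∀ s ∈ S, z * s = s * z := hIH R' hlt hnR' hSR'
  have hzero : ⁅R', S⁆ = ⊥ := Subgroup.commutator_eq_bot_iff_le_centralizer.mpr fun x hx =>
    Subgroup.mem_centralizer_iff.mpr fun s hs => (hR'S x hx s hs).symm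
  have hcen : ∀ z ∈ R', ∀ x ∈ R, z * x = x * z := by
    have h1 : ⁅⁅S, R'⁆, R⁆ = ⊥ := by rw [Subgroup.commutator_comm S R', hzero, Subgroup.commutator_bot_left]
    have h2 : ⁅⁅R', R⁆, S⁆ = ⊥ := le_bot_iff.mp ((Subgroup.commutator_mono
      (Subgroup.commutator_le.mpr fun z hz x hx => Subgroup.commutator_mem_commutator (hR'le hz) hx) le_rfl).trans hzero.le)
    have h3 := Subgroup.commutator_commutator_eq_bot_of_rotate h1 h2
    rw [hRS, Subgroup.commutator_comm] at h3
    exact fun z hz x hx => (Subgroup.mem_centralizer_iff.mp (Subgroup.commutator_eq_bot_iff_le_centralizer.mp h3 hz) x hx).symm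
  -- an invariant subgroup on which `R` and `S` commute is fixed by `R`
  have htriv : ∀ (U : Subgroup V) (hR : R ≤ stab U) (hS : S ≤ stab U),
      (∀ x ∈ img U R, ∀ s ∈ img U S, x * s = s * x) → U ≤ fix R := by
    intro U hR hS hc u hu
    refine mem_fix.mpr (hRS ▸ Subgroup.commutator_le.mpr fun x hx s hs => ?_)
    show ⁅x, s⁆ u = u
    have e : res U (⟨x, hR hx⟩ * ⟨s, hS hs⟩ * ⟨x, hR hx⟩⁻¹ * ⟨s, hS hs⟩⁻¹) = 1 := by
      rw [map_mul, map_mul, map_mul, map_inv, map_inv, hc _ ((mem_img hR).mpr ⟨x, hx, rfl⟩) _ ((mem_img hS).mpr ⟨s, hs, rfl⟩)]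
      group
    exact congrArg Subtype.val (DFunLike.congr_fun e ⟨u, hu⟩)
  have hnR'R : R ≤ Subgroup.normalizer (R' : Set (MulAut V)) :=
    Coprime.le_normalizer_of_conj_mem fun x hx z hz => by rwa [← hcen z hz x hx, mul_inv_cancel_right]
  have hfixR' : fix R' ≤ fix R := by
    have hRU : R ≤ stab (fix R') := fix_le_stab hnR'R
    have hSU : S ≤ stab (fix R') := fix_le_stab hSR'
    have hBU : B ≤ stab (fix R') := fix_le_stab hnR'
    refine htriv _ hRU hSU (FpfAbelian.commute_of_acts (restrict h _ hBU hRU hSU) ?_)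
    intro a' ha' b' hb'
    obtain ⟨a, ha, rfl⟩ := (mem_img hRU).mp ha'
    obtain ⟨b, hb, rfl⟩ := (mem_img hRU).mp hb'
    refine commutatorElement_eq_one_iff_mul_comm.mp ?_
    rw [← map_commutatorElement]
    exact MulEquiv.ext fun u => Subtype.ext (u.2 ⁅a, b⁆ (Subgroup.commutator_mem_commutator ha hb))
  have hR'comm : ∀ a ∈ R', ∀ b ∈ R', a * b = b * a := fun a ha b hb => hcen a ha b (hR'le hb)
  have hcopR' : (Nat.card R').Coprime (Nat.card V) := h.copR.coprime_dvd_left (Subgroup.card_dvd_of_le hR'le)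
  have hcopBR' : (Nat.card B).Coprime (Nat.card R') := h.copBR.coprime_dvd_right (Subgroup.card_dvd_of_le hR'le)
  suffices htop : fix R = ⊤ by
    refine hRne ((Subgroup.eq_bot_iff_forall _).mpr fun x hx => MulEquiv.ext fun v => ?_)
    exact (htop ▸ Subgroup.mem_top v : v ∈ fix R) x hx
  refine eq_top_iff.mpr ((iSup_fix_commutator hR'comm hnR' hcopR' h.vfix).symm.le.trans
    (iSup₂_le fun c hc => iSup_le fun hc1 => ?_))
  set U := fix ⁅R', Subgroup.zpowers c⁆ with hUdef
  have hzc : Subgroup.zpowers c ≤ B := Subgroup.zpowers_le.mpr hc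
  have hdec : (R' ⊓ Subgroup.centralizer (Subgroup.zpowers c : Set (MulAut V))) ⊔ ⁅R', Subgroup.zpowers c⁆ = R' :=
    Coprime.centralizer_sup_commutator (hzc.trans hnR') (h.copZ hc hcopBR') (Or.inr (solvable_zpowers c))
  by_cases hC : R' ⊓ Subgroup.centralizer (Subgroup.zpowers c : Set (MulAut V)) = ⊥
  · rw [hC, bot_sup_eq] at hdec
    rw [hUdef, hdec]; exact hfixR'
  have hD : ⁅R', Subgroup.zpowers c⁆ ≤ R' := Coprime.commutator_le_of_le_normalizer (hzc.trans hnR')
  have hnD : ∀ K : Subgroup (MulAut V), (∀ z ∈ R', ∀ x ∈ K, z * x = x * z) →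
      K ≤ Subgroup.normalizer ((⁅R', Subgroup.zpowers c⁆ : Subgroup (MulAut V)) : Set (MulAut V)) := fun K hK =>
    Coprime.le_normalizer_of_conj_mem fun x hx z hz => by rwa [← hK z (hD hz) x hx, mul_inv_cancel_right]
  let U' : Subgroup V := U ⊓ (nrm R').ker
  have hst : ∀ K : Subgroup (MulAut V), K ≤ Subgroup.normalizer (R' : Set (MulAut V)) →
      K ≤ Subgroup.normalizer ((⁅R', Subgroup.zpowers c⁆ : Subgroup (MulAut V)) : Set (MulAut V)) → K ≤ stab U' := by
    intro K hK hKD k hk u hu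
    refine ⟨smul_mem_fix (hKD hk) hu.1, MonoidHom.mem_ker.mpr ?_⟩
    rw [← apply_nrm (hK hk), MonoidHom.mem_ker.mp hu.2, map_one]
  have hBU : B ≤ stab U' := hst B hnR' (le_normalizer_commutator_of_le hnR'
    (le_normalizer_zpowers fun b hb => h.comm b hb c hc))
  have hRU : R ≤ stab U' := hst R hnR'R (hnD R hcen)
  have hSU : S ≤ stab U' := hst S hSR' (hnD S hR'S)
  have hU'R : U' ≤ fix R := by
    refine htriv U' hRU hSU ?_
    set c' := res U' ⟨c, hBU hc⟩ with hc'
    -- `c` has no fixed points on `U'`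
    have hcfix : ∀ u : U', c' u = u → u = 1 := by
      intro u hu
      have hu' : c (u : V) = u := congrArg Subtype.val hu
      have h1 : (u : V) ∈ fix R' := by
        refine mem_fix.mpr (hdec ▸ sup_le (fun z hz => ?_) (mem_fix.mp u.2.1))
        exact hcentV c hc hc1 z (hR'le hz.1) (Subgroup.mem_centralizer_iff.mp hz.2 c (Subgroup.mem_zpowers c)) _ hu'
      refine Subtype.ext (Subgroup.mem_bot.mp (mem_of_pow_mem hcopR' ?_))
      rw [← nrm_of_mem_fix h1, MonoidHom.mem_ker.mp u.2.2]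
      exact one_mem _
    -- centralisers of other elements act trivially
    have hd0 : ∀ d ∈ B, d ≠ 1 → d ∉ Subgroup.zpowers c → ∀ x, ∀ hx : x ∈ R, d * x = x * d → res U' ⟨x, hRU hx⟩ = 1 := by
      intro d hd hd1 hdc
      have hgen : ∀ x, ∀ hx : x ∈ R, (res U' ⟨d, hBU hd⟩) * res U' ⟨x, hRU hx⟩ = res U' ⟨x, hRU hx⟩ * (res U' ⟨d, hBU hd⟩) →
          c' * res U' ⟨x, hRU hx⟩ = res U' ⟨x, hRU hx⟩ * c' → res U' ⟨x, hRU hx⟩ = 1 := by
        intro x hx hxd hxc
        obtain ⟨y, hy, hyc, hye⟩ := exists_lift_fixed hRU hBU h.nR h.copBR hsolB hx (fun b hb => by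
          have hle : B.subgroupOf (stab U') ≤ (Subgroup.centralizer {res U' ⟨x, hRU hx⟩}).comap (res U') := by
            intro b' hb'
            have hb2 : (b' : MulAut V) ∈ Subgroup.zpowers c ⊔ Subgroup.zpowers d := h.eq_sup hc hd hc1 hdc ▸ hb'
            have : Subgroup.zpowers c ⊔ Subgroup.zpowers d ≤
                ((Subgroup.centralizer {res U' ⟨x, hRU hx⟩}).comap (res U')).map (stab U').subtype :=
              sup_le (Subgroup.zpowers_le.mpr ⟨⟨c, hBU hc⟩, Subgroup.mem_centralizer_iff.mpr (fun g hg => by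
                  rw [Set.mem_singleton_iff.mp hg]; exact hxc.symm), rfl⟩)
                (Subgroup.zpowers_le.mpr ⟨⟨d, hBU hd⟩, Subgroup.mem_centralizer_iff.mpr (fun g hg => by
                  rw [Set.mem_singleton_iff.mp hg]; exact hxd.symm), rfl⟩)
            obtain ⟨q, hq, hqb⟩ := this hb2
            rwa [show b' = q from Subtype.ext hqb.symm]
          exact (Subgroup.mem_centralizer_iff.mp (hle (x := ⟨b, hBU hb⟩) hb) _ rfl).symm)
        have hy1 : y = 1 := Subgroup.mem_bot.mp (h.rfix ▸ (⟨hy, Subgroup.mem_centralizer_iff.mpr hyc⟩ :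
          y ∈ R ⊓ Subgroup.centralizer (B : Set (MulAut V))))
        subst hy1
        rw [← hye]
        exact map_one _
      let T := R ⊓ Subgroup.centralizer ({d} : Set (MulAut V))
      have hTU : T ≤ stab U' := inf_le_left.trans hRU
      have hTd : ∀ x, ∀ hx : x ∈ T, res U' ⟨d, hBU hd⟩ * res U' ⟨x, hTU hx⟩ = res U' ⟨x, hTU hx⟩ * res U' ⟨d, hBU hd⟩ := by
        intro x hx
        rw [← map_mul, ← map_mul]
        exact congrArg (res U') (Subtype.ext (Subgroup.mem_centralizer_iff.mp hx.2 d rfl))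
      have hTc : c ∈ Subgroup.normalizer (T : Set (MulAut V)) := by
        rw [Coprime.mem_normalizer_iff_map_conj_eq, Subgroup.map_inf _ _ _ (MulAut.conj c).injective,
          Coprime.mem_normalizer_iff_map_conj_eq.mp (h.nR hc), Coprime.mem_normalizer_iff_map_conj_eq.mp
            (Subgroup.le_normalizer (Subgroup.mem_centralizer_iff.mpr fun g hg => by
              rw [Set.mem_singleton_iff.mp hg]; exact h.comm d hd c hc))]
      let K := img U' T
      have hcK : Subgroup.zpowers c' ≤ Subgroup.normalizer (K : Set (MulAut U')) :=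
        Subgroup.zpowers_le.mpr (img_le_normalizer hTU ((Subgroup.zpowers_le.mpr hc).trans hBU)
          (Subgroup.zpowers_le.mpr hTc) ((mem_img ((Subgroup.zpowers_le.mpr hc).trans hBU)).mpr ⟨c, Subgroup.mem_zpowers c, rfl⟩))
      have hKcomm : ∀ a ∈ K, ∀ b ∈ K, a * b = b * a := by
        intro a' ha' b' hb'
        obtain ⟨a, ha, rfl⟩ := (mem_img hTU).mp ha'
        obtain ⟨b, hb, rfl⟩ := (mem_img hTU).mp hb'
        refine commutatorElement_eq_one_iff_mul_comm.mp ?_
        rw [← map_commutatorElement]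
        have hab : ⁅a, b⁆ ∈ R' := Subgroup.commutator_mem_commutator ha.1 hb.1
        refine hgen ⁅a, b⁆ (hR'le hab) ?_ ?_
        · exact hTd ⁅a, b⁆ (T.mul_mem (T.mul_mem (T.mul_mem ha hb) (T.inv_mem ha)) (T.inv_mem hb))
        · obtain ⟨z, hz, w, hw, hzw⟩ := Coprime.exists_mul_eq (hzc.trans hnR') (h.copZ hc hcopBR') (Or.inr (solvable_zpowers c)) hab
          have hw1 : res U' ⟨w, hRU (hR'le (hD hw))⟩ = 1 := MulEquiv.ext fun u => Subtype.ext (u.2.1 w hw)
          rw [show (⟨⁅a, b⁆, hRU (hR'le hab)⟩ : stab U') = ⟨z, hRU (hR'le hz.1)⟩ * ⟨w, hRU (hR'le (hD hw))⟩ from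
            Subtype.ext hzw.symm, map_mul, hw1, mul_one, hc', ← map_mul, ← map_mul]
          exact congrArg (res U') (Subtype.ext (Subgroup.mem_centralizer_iff.mp hz.2 c (Subgroup.mem_zpowers c)))
      have hK1 : ∀ y ∈ K, c' * y = y * c' → y = 1 := by
        intro y hy hyc
        obtain ⟨x, hx, rfl⟩ := (mem_img hTU).mp hy
        exact hgen x hx.1 (hTd x hx) hyc
      have hcfix' : fix (Subgroup.zpowers c') = ⊥ :=
        (Subgroup.eq_bot_iff_forall _).mpr fun u hu => hcfix u (hu c' (Subgroup.mem_zpowers c'))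
      have hcopK : (Nat.card K).Coprime (Nat.card U') :=
        (h.copR.coprime_dvd_left ((card_img_dvd U' hTU).trans (Subgroup.card_dvd_of_le inf_le_left))).coprime_dvd_right
          (Subgroup.card_subgroup_dvd_card U')
      have hcopcK : (Nat.card (Subgroup.zpowers c')).Coprime (Nat.card K) := by
        refine ((h.copZ hc h.copBR).coprime_dvd_left ?_).coprime_dvd_right
          ((card_img_dvd U' hTU).trans (Subgroup.card_dvd_of_le inf_le_left))
        rw [Nat.card_zpowers, Nat.card_zpowers]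
        exact (orderOf_map_dvd (res U') _).trans (Subgroup.orderOf_mk _ _).dvd
      have hKfix : fix K = ⊤ := by
        refine eq_top_iff.mpr ((iSup_fix_commutator hKcomm hcK hcopK hcfix').symm.le.trans
          (iSup₂_le fun b hb => iSup_le fun hb1 => fix_antitone ?_))
        obtain ⟨m, rfl⟩ := Subgroup.mem_zpowers_iff.mp hb
        have hmem : c' ∈ Subgroup.zpowers (c' ^ m) := by
          have hcm : c ^ m ≠ 1 := fun he => hb1 (by
            rw [hc', ← map_zpow, show (⟨c, hBU hc⟩ : stab U') ^ m = 1 from Subtype.ext (by simpa [SubgroupClass.coe_zpow] using he), map_one])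
          obtain ⟨k, hk⟩ := Subgroup.mem_zpowers_iff.mp (h.mem_zpowers_symm hc hcm (Subgroup.zpow_mem _ (Subgroup.mem_zpowers c) m))
          refine Subgroup.mem_zpowers_iff.mpr ⟨k, ?_⟩
          rw [hc', ← map_zpow, ← map_zpow]
          exact congrArg (res U') (Subtype.ext (by simpa [SubgroupClass.coe_zpow] using hk))
        have heq : Subgroup.zpowers (c' ^ m) = Subgroup.zpowers c' :=
          le_antisymm (Subgroup.zpowers_le.mpr hb) (Subgroup.zpowers_le.mpr hmem)
        have hCK : K ⊓ Subgroup.centralizer (Subgroup.zpowers c' : Set (MulAut U')) = ⊥ :=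
          (Subgroup.eq_bot_iff_forall _).mpr fun y hy => hK1 y hy.1 (Subgroup.mem_centralizer_iff.mp hy.2 c' (Subgroup.mem_zpowers c'))
        have h2 := Coprime.centralizer_sup_commutator hcK hcopcK (Or.inr (solvable_zpowers c'))
        rw [hCK, bot_sup_eq] at h2
        rw [heq, h2]
      intro x hx hdx
      refine MulEquiv.ext fun u => ?_
      exact (hKfix ▸ Subgroup.mem_top u : u ∈ fix K) _ ((mem_img hTU).mpr
        ⟨x, ⟨hx, Subgroup.mem_centralizer_iff.mpr (fun g hg => by rw [Set.mem_singleton_iff.mp hg]; exact hdx)⟩, rfl⟩)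
    -- `c` centralises the image of `R`
    have hRc : ∀ x, ∀ hx : x ∈ R, c' * res U' ⟨x, hRU hx⟩ = res U' ⟨x, hRU hx⟩ * c' := by
      have hle : R ≤ ((Subgroup.centralizer {c'}).comap (res U')).map (stab U').subtype := by
        rw [← CoprimeAbelian.iSup_centralizer_eq (A := B) (G := R) ⟨⟨fun a b => Subtype.ext (h.comm a a.2 b b.2)⟩⟩ h.nR h.copBR]
        refine iSup₂_le fun B' hB' x hx => ⟨⟨x, hRU hx.1⟩, Subgroup.mem_centralizer_iff.mpr fun g hg => ?_, rfl⟩
        rw [Set.mem_singleton_iff.mp hg]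
        by_cases hcB : c ∈ B'
        · rw [hc', ← map_mul, ← map_mul]
          exact congrArg (res U') (Subtype.ext (Subgroup.mem_centralizer_iff.mp hx.2 c hcB))
        rcases Subgroup.bot_or_exists_ne_one B' with hb' | ⟨d, hd, hd1⟩
        · exfalso
          obtain ⟨a, ha, hsup⟩ := hB'.2
          rw [hb', bot_sup_eq] at hsup
          refine hC (le_bot_iff.mp ((inf_le_inf hR'le (Subgroup.centralizer_le ?_)).trans h.rfix.le))
          show B ≤ Subgroup.zpowers c
          rw [← hsup]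
          exact Subgroup.zpowers_le.mpr (h.mem_zpowers_symm ha hc1 (hsup ▸ hc))
        · have hdc : d ∉ Subgroup.zpowers c := fun hd' =>
            hcB (Subgroup.zpowers_le.mpr hd (h.mem_zpowers_symm hc hd1 hd'))
          rw [hd0 d (hB'.1 hd) hd1 hdc x hx.1 (Subgroup.mem_centralizer_iff.mp hx.2 d hd), mul_one, one_mul]
      intro x hx
      obtain ⟨q, hq, hqx⟩ := hle hx
      rw [show (⟨x, hRU hx⟩ : stab U') = q from Subtype.ext hqx.symm]
      exact Subgroup.mem_centralizer_iff.mp hq c' rfl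
    intro x' hx' s' hs'
    obtain ⟨x, hx, rfl⟩ := (mem_img hRU).mp hx'
    obtain ⟨s, hs, rfl⟩ := (mem_img hSU).mp hs'
    obtain ⟨y, hy, hyc, hye⟩ := lift_zpowers h hRU h.nR h.copBR hBU hc hx (hRc x hx)
    obtain ⟨s0, hs0, t, ht, hst'⟩ := Coprime.exists_mul_eq (hzc.trans h.nS) (h.copZ hc h.copBS) (Or.inr (solvable_zpowers c)) hs
    have hcen' : ⁅S, Subgroup.zpowers c⁆ ≤
        ((Subgroup.centralizer (img U' R : Set (MulAut U'))).comap (res U')).map (stab U').subtype := by
      refine Subgroup.commutator_le.mpr fun r hr b hb => ?_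
      obtain ⟨i, rfl⟩ := Subgroup.mem_zpowers_iff.mp hb
      refine ⟨⁅(⟨r, hSU hr⟩ : stab U'), ⟨c, hBU hc⟩ ^ i⁆, Subgroup.mem_comap.mpr (Subgroup.mem_centralizer_iff.mpr fun z hz => ?_),
        by simp [commutatorElement_def, SubgroupClass.coe_zpow]⟩
      obtain ⟨w, hw, rfl⟩ := (mem_img hRU).mp hz
      have hw' : r⁻¹ * w * r ∈ R := by simpa using (Subgroup.mem_normalizer_iff.mp (h.SR (S.inv_mem hr)) w).mp hw
      have e1 : res U' ⟨w, hRU hw⟩ * c' ^ i = c' ^ i * res U' ⟨w, hRU hw⟩ :=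
        ((show Commute _ _ from hRc w hw).zpow_left i).eq.symm
      have e2 : res U' ⟨_, hRU hw'⟩ * c' ^ i = c' ^ i * res U' ⟨_, hRU hw'⟩ :=
        ((show Commute _ _ from hRc _ hw').zpow_left i).eq.symm
      have e3 : res U' ⟨_, hRU hw'⟩ = (res U' ⟨r, hSU hr⟩)⁻¹ * res U' ⟨w, hRU hw⟩ * res U' ⟨r, hSU hr⟩ := by
        rw [← map_inv, ← map_mul, ← map_mul]; rfl
      rw [map_commutatorElement, map_zpow, ← hc', commutatorElement_def]
      generalize res U' ⟨w, hRU hw⟩ = W at *
      generalize res U' ⟨r, hSU hr⟩ = P at *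
      generalize c' ^ i = C at *
      rw [e3] at e2
      have e4 : W * (P * C * P⁻¹) = P * C * P⁻¹ * W := by
        calc W * (P * C * P⁻¹) = P * (P⁻¹ * W * P * C) * P⁻¹ := by group
          _ = P * (C * (P⁻¹ * W * P)) * P⁻¹ := by rw [e2]
          _ = P * C * P⁻¹ * W := by group
      calc W * (P * C * P⁻¹ * C⁻¹) = W * (P * C * P⁻¹) * C⁻¹ := by group
        _ = P * C * P⁻¹ * (W * C⁻¹) := by rw [e4]; group
        _ = P * C * P⁻¹ * (C⁻¹ * W) := by rw [(show Commute W C from e1).inv_right.eq]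
        _ = P * C * P⁻¹ * C⁻¹ * W := by group
    obtain ⟨tt, htt, rfl⟩ := hcen' ht
    have hcomm0 : res U' ⟨y, hRU hy⟩ * res U' ⟨s0, hSU hs0.1⟩ = res U' ⟨s0, hSU hs0.1⟩ * res U' ⟨y, hRU hy⟩ := by
      rw [← map_mul, ← map_mul]
      exact congrArg (res U') (Subtype.ext (h.cent c hc hc1 s0 hs0.1
        (Subgroup.mem_centralizer_iff.mp hs0.2 c (Subgroup.mem_zpowers c)) y hy hyc).symm)
    rw [← hye, show (⟨s, hSU hs⟩ : stab U') = ⟨s0, hSU hs0.1⟩ * tt from Subtype.ext hst'.symm, map_mul,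
      ← mul_assoc, hcomm0, mul_assoc, Subgroup.mem_centralizer_iff.mp htt _ ((mem_img hRU).mpr ⟨y, hy, rfl⟩), ← mul_assoc]
  intro v hv
  refine mem_of_pow_mem hcopR' ?_
  have hfixle : fix R' ≤ U := fix_antitone hD
  have hw : v ^ Nat.card R' * (nrm R' v)⁻¹ ∈ U' := by
    refine ⟨U.mul_mem (U.pow_mem hv _) (U.inv_mem (hfixle (nrm_mem_fix R' v))), MonoidHom.mem_ker.mpr ?_⟩
    rw [map_mul, map_pow, map_inv, nrm_of_mem_fix (nrm_mem_fix R' v), mul_inv_cancel]
  have := (fix R).mul_mem (hU'R hw) (hfixR' (nrm_mem_fix R' v))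
  rwa [inv_mul_cancel_right] at this

end CfsgLib.GroupB.FpfMain
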