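import Cfsg.Agent.Lib.GroupB.FpfAbelian
import Mathlib.Tactic.Group

/-! An automorphism of order three without fixed points on a module centralises class two groups of coprime operators. -/

set_option autoImplicit false

namespace CfsgLib.GroupB.FpfQuadratic

open scoped commutatorElement
open CfsgLib.GroupB.FpfRestrict CfsgLib.GroupB.FpfAbelian

attribute [local instance] finite_mulAut

variable {V : Type*} [CommGroup V] [Finite V]

theorem prime_of_mem_zpowers {G : Type*} [Group G] {b c : G} {l : ℕ} (hl : l.Prime) (hb : b ^ l = 1)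
    (hc : c ∈ Subgroup.zpowers b) (hc1 : c ≠ 1) : Subgroup.zpowers c = Subgroup.zpowers b := by
  haveI := Fact.mk hl
  have hb1 : b ≠ 1 := fun h => hc1 (by rw [h, Subgroup.zpowers_one_eq_bot] at hc; exact Subgroup.mem_bot.mp hc)
  obtain ⟨n, rfl⟩ := Subgroup.mem_zpowers_iff.mp hc
  haveI : Finite (Subgroup.zpowers b) := Nat.finite_of_card_ne_zero (by
    rw [Nat.card_zpowers, orderOf_eq_prime hb hb1]; exact hl.ne_zero)
  refine Subgroup.eq_of_le_of_card_ge (Subgroup.zpowers_le.mpr hc) ?_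
  have hn : (b ^ n) ^ l = 1 := by rw [← zpow_natCast, ← zpow_mul, mul_comm, zpow_mul, zpow_natCast, hb, one_zpow]
  rw [Nat.card_zpowers, Nat.card_zpowers, orderOf_eq_prime hb hb1, orderOf_eq_prime hn hc1]

/-- An automorphism of prime order without fixed points centralises every abelian group of coprime operators. -/
theorem commute_abelian {K : Subgroup (MulAut V)} {b : MulAut V} {l : ℕ} (hl : l.Prime) (hb : b ^ l = 1)
    (hK : ∀ x ∈ K, ∀ y ∈ K, x * y = y * x) (hbK : b ∈ Subgroup.normalizer (K : Set (MulAut V)))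
    (hcop : (Nat.card K).Coprime (Nat.card V)) (hfix : fix (Subgroup.zpowers b) = ⊥) :
    ∀ x ∈ K, b * x = x * b := by
  have h := iSup_fix_commutator hK (Subgroup.zpowers_le.mpr hbK) hcop hfix
  have htop : fix ⁅K, Subgroup.zpowers b⁆ = ⊤ := eq_top_iff.mpr (h.symm.le.trans
    (iSup₂_le fun c hc => iSup_le fun hc1 => by rw [prime_of_mem_zpowers hl hb hc hc1]))
  intro x hx
  have h1 : ⁅x, b⁆ = 1 := MulEquiv.ext fun v =>
    (htop ▸ Subgroup.mem_top v : v ∈ fix ⁅K, Subgroup.zpowers b⁆) _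
      (Subgroup.commutator_mem_commutator hx (Subgroup.mem_zpowers b))
  exact (commutatorElement_eq_one_iff_mul_comm.mp h1).symm

/-- If two automorphisms of order three have no fixed points, `e + e⁻¹` commutes with the first, for `e` their quotient. -/
theorem apply_add_inv {a b : MulAut V} (ha : ∀ v, v * a v * a (a v) = 1) (hb : ∀ v, v * b v * b (b v) = 1) (v : V) :
    a (b (a (a v)) * a (b (b v))) = b (a (a (a v))) * a (b (b (a v))) := by
  have hA : ∀ w, a (a w) = (w * a w)⁻¹ := fun w => eq_inv_of_mul_eq_one_right (ha w)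
  have hB : ∀ w, b (b w) = (w * b w)⁻¹ := fun w => eq_inv_of_mul_eq_one_right (hb w)
  simp only [hA, hB, map_inv, map_mul, mul_inv_rev, inv_inv]
  simp only [mul_assoc, mul_comm, mul_left_comm, mul_inv_cancel_left, inv_mul_cancel_left, mul_inv_rev,
    mul_inv_cancel, inv_mul_cancel, mul_one, one_mul]

/-- An automorphism of order three without fixed points centralises groups of class two with centralised derived group. -/
theorem commute_class_two {D : Subgroup (MulAut V)} {a : MulAut V} (ha3 : a ^ 3 = 1)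
    (haD : a ∈ Subgroup.normalizer (D : Set (MulAut V))) (hD2 : (Nat.card D).Coprime 6)
    (hcop : (Nat.card D).Coprime (Nat.card V)) (hfix : fix (Subgroup.zpowers a) = ⊥)
    (hcen : ∀ x ∈ D, ∀ y ∈ D, ∀ z ∈ D, z * ⁅x, y⁆ = ⁅x, y⁆ * z)
    (hacen : ∀ x ∈ D, ∀ y ∈ D, a * ⁅x, y⁆ = ⁅x, y⁆ * a) : ∀ x ∈ D, a * x = x * a := by
  have hconj : ∀ x ∈ D, a * x * a⁻¹ ∈ D := fun x hx => (Subgroup.mem_normalizer_iff.mp haD x).mp hx
  have hcd : ∀ x ∈ D, ∀ y ∈ D, ⁅x, y⁆ ∈ D := fun x hx y hy =>
    D.mul_mem (D.mul_mem (D.mul_mem hx hy) (D.inv_mem hx)) (D.inv_mem hy)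
  have ha3' : ∀ v, a (a (a v)) = v := fun v => DFunLike.congr_fun ha3 v
  have hnorm : ∀ v, v * a v * a (a v) = 1 := fun v => Subgroup.mem_bot.mp (hfix ▸ (show _ ∈ fix (Subgroup.zpowers a) from
    mem_fix.mpr (Subgroup.zpowers_le.mpr (show a (v * a v * a (a v)) = v * a v * a (a v) by
      rw [map_mul, map_mul, ha3', mul_comm, mul_assoc]))))
  -- each commutator with `a` commutes with its conjugate
  have key : ∀ f ∈ D, ⁅a * ⁅f, a⁆ * a⁻¹, ⁅f, a⁆⁆ = 1 := by
    intro f hf
    set b := f * a * f⁻¹ with hbdef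
    set e := ⁅f, a⁆ with hedef
    have heD : e ∈ D := by
      rw [hedef, commutatorElement_def, show f * a * f⁻¹ * a⁻¹ = f * (a * f⁻¹ * a⁻¹) by group]
      exact D.mul_mem hf (hconj _ (D.inv_mem hf))
    set e' := a * e * a⁻¹ with he'def
    have he'D : e' ∈ D := hconj e heD
    have hbn : ∀ v, v * b v * b (b v) = 1 := by
      intro v
      have h := congrArg f (hnorm (f⁻¹ v))
      simp only [map_mul, map_one, MulAut.apply_inv_self] at h
      simpa [hbdef, MulAut.mul_apply, MulAut.inv_apply_self] using h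
    have hainv : ∀ w, a⁻¹ w = a (a w) := fun w => a.injective (by rw [MulAut.apply_inv_self, ha3'])
    have hbinv : ∀ w, b⁻¹ w = b (b w) := fun w => b.injective (by
      rw [MulAut.apply_inv_self]
      simp only [hbdef, MulAut.mul_apply, MulAut.inv_apply_self, ha3', MulAut.apply_inv_self])
    have he : ∀ v, e v = b (a (a v)) := fun v => by
      rw [← hainv, show e = b * a⁻¹ from by rw [hedef, hbdef, commutatorElement_def], MulAut.mul_apply]
    have hei : ∀ v, e⁻¹ v = a (b (b v)) := fun v => by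
      rw [← hbinv, show e⁻¹ = a * b⁻¹ from by rw [hedef, hbdef, commutatorElement_def]; group, MulAut.mul_apply]
    let T : V → V := fun v => e v * e⁻¹ v
    have hTa : ∀ v, a (T v) = T (a v) := fun v => by
      simp only [T, he, hei]
      exact apply_add_inv hnorm hbn v
    have hTe : ∀ v, e (T v) = T (e v) := fun v => by
      simp only [T, map_mul, MulAut.apply_inv_self, MulAut.inv_apply_self]
    have hTai : ∀ v, a⁻¹ (T v) = T (a⁻¹ v) := fun v => a.injective (by
      rw [MulAut.apply_inv_self, hTa, MulAut.apply_inv_self])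
    have hTe' : ∀ v, e' (T v) = T (e' v) := fun v => by
      simp only [he'def, MulAut.mul_apply]
      rw [hTai, hTe, hTa]
    set z := ⁅e', e⁆ with hzdef
    have hzD : z ∈ D := hcd _ he'D _ heD
    have hze : z * e = e * z := (hcen _ he'D _ heD e heD).symm
    have hze' : z * e' = e' * z := (hcen _ he'D _ heD e' he'D).symm
    have hza : z * a = a * z := (hacen _ he'D _ heD).symm
    have e1 : e' * e = z * (e * e') := by rw [hzdef, commutatorElement_def]; group
    have e2 : e' * e⁻¹ = z⁻¹ * (e⁻¹ * e') := by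
      have hzei : Commute z e⁻¹ := (show Commute z e from hze).inv_right
      rw [← mul_assoc z⁻¹, ← (show Commute z⁻¹ e⁻¹ from hzei.inv_left).eq.symm, eq_comm]
      calc e⁻¹ * z⁻¹ * e' = e⁻¹ * z⁻¹ * (e' * e) * e⁻¹ := by group
        _ = e⁻¹ * z⁻¹ * (z * (e * e')) * e⁻¹ := by rw [e1]
        _ = e' * e⁻¹ := by group
    -- `z u / u` is fixed by `z⁻¹ e⁻²`
    let d : V → V := fun u => z u * u⁻¹
    have hd : ∀ u, d u = d ((z⁻¹ * e⁻¹ * e⁻¹) u) := by
      intro u
      have h := hTe' (e'⁻¹ (e⁻¹ u))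
      simp only [T, map_mul] at h
      rw [← MulAut.mul_apply, ← MulAut.mul_apply V e' e⁻¹, e1, e2] at h
      simp only [MulAut.mul_apply, MulAut.apply_inv_self] at h
      -- `h : z u * z⁻¹ (e⁻² u) = u * e⁻² u`
      simp only [d, MulAut.mul_apply, MulAut.apply_inv_self]
      rw [mul_inv_eq_iff_eq_mul, mul_comm (e⁻¹ (e⁻¹ u)) _, mul_assoc]
      rw [eq_comm, inv_mul_eq_iff_eq_mul, mul_comm (z⁻¹ _) (z u), h, mul_comm]
    have hdfix : ∀ g : MulAut V, g * z = z * g → ∀ u, g (d u) = d (g u) := fun g hg u => by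
      simp only [d, map_mul, map_inv]
      rw [← MulAut.mul_apply V g z, hg, MulAut.mul_apply]
    have hg1 : ∀ u, (z⁻¹ * e⁻¹ * e⁻¹) (d u) = d u := fun u => by
      have hc : Commute z e := hze
      rw [hdfix _ (((Commute.refl z).inv_left.mul_left hc.symm.inv_left).mul_left hc.symm.inv_left).eq, ← hd]
    have hg2 : ∀ u, (z⁻¹ * e'⁻¹ * e'⁻¹) (d u) = d u := fun u => by
      have hc : z⁻¹ * e'⁻¹ * e'⁻¹ = a * (z⁻¹ * e⁻¹ * e⁻¹) * a⁻¹ := by
        rw [he'def]
        have h := (show Commute z a from hza).inv_left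
        calc z⁻¹ * (a * e * a⁻¹)⁻¹ * (a * e * a⁻¹)⁻¹ = z⁻¹ * a * (e⁻¹ * e⁻¹) * a⁻¹ := by group
          _ = a * z⁻¹ * (e⁻¹ * e⁻¹) * a⁻¹ := by rw [h.eq]
          _ = _ := by group
      have hc2 : a⁻¹ (d u) = d (a⁻¹ u) := hdfix _ (show Commute a⁻¹ z from (show Commute z a from hza).symm.inv_left).eq u
      rw [hc, MulAut.mul_apply, MulAut.mul_apply, hc2, hg1, ← hc2, MulAut.apply_inv_self]
    have hz4 : ∀ u, (z ^ 4) (d u) = d u := by
      intro u
      have h1 : ∀ w, (z⁻¹ * e⁻¹ * e⁻¹) w = w → (e * e * z) w = w := fun w hw => by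
        conv_lhs => rw [← hw]
        rw [← MulAut.mul_apply, show e * e * z * (z⁻¹ * e⁻¹ * e⁻¹) = 1 by group]
        rfl
      have h2 : ∀ w, (z⁻¹ * e'⁻¹ * e'⁻¹) w = w → (e' * e' * z) w = w := fun w hw => by
        conv_lhs => rw [← hw]
        rw [← MulAut.mul_apply, show e' * e' * z * (z⁻¹ * e'⁻¹ * e'⁻¹) = 1 by group]
        rfl
      have key2 : e' * e' * z * (e * e * z) = z ^ 4 * (e * e * z * (e' * e' * z)) := by
        have hc : Commute z e := hze
        have hc' : Commute z e' := hze'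
        have hA : e' * (e * e) = z ^ 2 * (e * e * e') := by
          calc e' * (e * e) = e' * e * e := by group
            _ = z * (e * e') * e := by rw [e1]
            _ = z * e * (e' * e) := by group
            _ = z * e * (z * (e * e')) := by rw [e1]
            _ = z * (e * z) * (e * e') := by group
            _ = z * (z * e) * (e * e') := by rw [hc.eq]
            _ = _ := by rw [pow_two]; group
        have hB : e' * e' * (e * e) = z ^ 4 * (e * e * (e' * e')) := by
          calc e' * e' * (e * e) = e' * (e' * (e * e)) := by group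
            _ = e' * (z ^ 2 * (e * e * e')) := by rw [hA]
            _ = e' * z ^ 2 * (e * e * e') := by group
            _ = z ^ 2 * e' * (e * e * e') := by rw [(hc'.pow_left 2).eq]
            _ = z ^ 2 * (e' * (e * e)) * e' := by group
            _ = z ^ 2 * (z ^ 2 * (e * e * e')) * e' := by rw [hA]
            _ = _ := by rw [show z ^ 4 = z ^ 2 * z ^ 2 from pow_add z 2 2]; group
        calc e' * e' * z * (e * e * z) = e' * e' * (z * (e * e)) * z := by group
          _ = e' * e' * (e * e * z) * z := by rw [(hc.mul_right hc).eq]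
          _ = z ^ 4 * (e * e * (e' * e')) * z * z := by rw [← hB]; group
          _ = z ^ 4 * (e * e) * (e' * e' * z) * z := by group
          _ = z ^ 4 * (e * e) * (z * (e' * e')) * z := by rw [(hc'.mul_right hc').eq]
          _ = _ := by group
      have h3 := congrArg (fun g : MulAut V => g (d u)) key2
      simp only [MulAut.mul_apply] at h3 h1 h2
      rw [h1 _ (hg1 u), h2 _ (hg2 u), h1 _ (hg1 u)] at h3
      exact h3.symm
    have hzd : ∀ u, z (d u) = d u := by
      intro u
      obtain ⟨m, hm⟩ := exists_pow_eq_self_of_coprime (n := 4) (x := z) ((hD2.coprime_dvd_left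
        (D.orderOf_dvd_natCard hzD)).symm.coprime_dvd_left (by norm_num : 2 ∣ 6) |>.pow_left 2)
      have : z ^ 4 ∈ MulAction.stabilizer (MulAut V) (d u) := hz4 u
      exact hm ▸ Subgroup.pow_mem _ this m
    refine MulEquiv.ext fun u => ?_
    have hn : ∀ n : ℕ, (z ^ n) u = u * d u ^ n := by
      intro n
      induction n with
      | zero => simp
      | succ n ih =>
        rw [pow_succ', MulAut.mul_apply, ih, map_mul, map_pow, hzd, pow_succ']
        show z u * d u ^ n = u * (d u * d u ^ n)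
        rw [show z u = u * d u by simp [d], mul_assoc]
    have h1 : d u ^ Nat.card D = 1 := by
      have := hn (Nat.card D)
      rw [orderOf_dvd_iff_pow_eq_one.mp (D.orderOf_dvd_natCard hzD)] at this
      simpa using this
    have h2 : d u = 1 := by
      have := mem_of_pow_mem hcop (W := (⊥ : Subgroup V)) (Subgroup.mem_bot.mpr h1)
      exact Subgroup.mem_bot.mp this
    exact mul_inv_eq_one.mp h2
  -- polarisation
  letI : CommGroup (Subgroup.center D) := { (inferInstance : Group (Subgroup.center D)) with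
    mul_comm := fun x y => Subtype.ext (Subgroup.mem_center_iff.mp y.2 x) }
  have hmem : ∀ x y : D, ⁅x, y⁆ ∈ Subgroup.center D := fun x y =>
    Subgroup.mem_center_iff.mpr fun w => Subtype.ext (hcen x x.2 y y.2 w w.2)
  let β : D → D → Subgroup.center D := fun x y => ⟨⁅x, y⁆, hmem x y⟩
  have mulL : ∀ x x' y, β (x * x') y = β x y * β x' y := fun x x' y => Subtype.ext (by
    show ⁅x * x', y⁆ = ⁅x, y⁆ * ⁅x', y⁆
    have h := Subgroup.mem_center_iff.mp (hmem x' y) x
    calc ⁅x * x', y⁆ = x * ⁅x', y⁆ * (y * x⁻¹ * y⁻¹) := by simp only [commutatorElement_def]; group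
      _ = ⁅x', y⁆ * x * (y * x⁻¹ * y⁻¹) := by rw [h]
      _ = ⁅x', y⁆ * ⁅x, y⁆ := by simp only [commutatorElement_def]; group
      _ = _ := (Subgroup.mem_center_iff.mp (hmem x' y) _).symm)
  have swap : ∀ x y, β y x = (β x y)⁻¹ := fun x y => Subtype.ext (commutatorElement_inv x y).symm
  have mulR : ∀ x y y', β x (y * y') = β x y * β x y' := fun x y y' => by
    rw [swap (y * y') x, mulL, mul_inv, ← swap, ← swap]
  have invL : ∀ x y, β x⁻¹ y = (β x y)⁻¹ := fun x y => eq_inv_of_mul_eq_one_left (by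
    rw [← mulL, inv_mul_cancel]; exact Subtype.ext (commutatorElement_one_left y))
  have invR : ∀ x y, β x y⁻¹ = (β x y)⁻¹ := fun x y => by rw [swap y⁻¹ x, invL, ← swap]
  let σ : D → D := fun x => ⟨a * x * a⁻¹, hconj x x.2⟩
  have hσ : ∀ x y, β (σ x) (σ y) = β x y := fun x y => Subtype.ext (Subtype.ext (by
    show ⁅a * (x : MulAut V) * a⁻¹, a * y * a⁻¹⁆ = ⁅(x : MulAut V), (y : MulAut V)⁆
    rw [show ⁅a * (x : MulAut V) * a⁻¹, a * y * a⁻¹⁆ = a * ⁅(x : MulAut V), (y : MulAut V)⁆ * a⁻¹ by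
      simp only [commutatorElement_def]; group, hacen x x.2 y y.2, mul_inv_cancel_right]))
  have hσ3 : ∀ x, σ (σ (σ x)) = x := fun x => Subtype.ext (by
    show a * (a * (a * (x : MulAut V) * a⁻¹) * a⁻¹) * a⁻¹ = x
    calc _ = a ^ 3 * x * (a ^ 3)⁻¹ := by rw [pow_three]; group
      _ = x := by rw [ha3]; group)
  have hσmul : ∀ x y, σ (x * y) = σ x * σ y := fun x y => Subtype.ext (by
    show a * ((x : MulAut V) * y) * a⁻¹ = (a * x * a⁻¹) * (a * y * a⁻¹); group)
  have hσinv : ∀ x, σ x⁻¹ = (σ x)⁻¹ := fun x => Subtype.ext (by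
    show a * (x : MulAut V)⁻¹ * a⁻¹ = (a * x * a⁻¹)⁻¹; group)
  have hcube : ∀ f, β f (σ f) = 1 := by
    intro f
    set c := β f (σ f) with hc
    have h0 : β (σ (f * (σ f)⁻¹)) (f * (σ f)⁻¹) = 1 := Subtype.ext (Subtype.ext (by
      show ⁅a * ((f : MulAut V) * (a * f * a⁻¹)⁻¹) * a⁻¹, (f : MulAut V) * (a * f * a⁻¹)⁻¹⁆ = 1
      rw [show (f : MulAut V) * (a * f * a⁻¹)⁻¹ = ⁅(f : MulAut V), a⁆ by simp only [commutatorElement_def]; group]
      exact key f f.2))
    rw [hσmul, hσinv, mulL, invL, mulR, mulR, invR, invR, swap (σ f) (σ f)] at h0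
    have e1 : β (σ f) f = c⁻¹ := swap f (σ f)
    have e2 : β (σ (σ f)) f = c := by rw [← hσ (σ (σ f)) f, hσ3]
    have e3 : β (σ (σ f)) (σ f) = c⁻¹ := by rw [hσ, e1]
    have e4 : β (σ f) (σ f) = 1 := Subtype.ext (commutatorElement_self _)
    rw [e1, e2, e3, e4, inv_one, inv_one, mul_one, inv_inv] at h0
    have h3 : c ^ 3 = 1 := by
      calc c ^ 3 = (c⁻¹ * (c * c)⁻¹)⁻¹ := by simp [pow_succ, mul_comm, mul_assoc]
        _ = 1 := by rw [h0, inv_one]
    have hdvd : orderOf c ∣ Nat.card D :=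
      (orderOf_dvd_natCard c).trans (Subgroup.card_subgroup_dvd_card _)
    rw [← orderOf_eq_one_iff]
    exact Nat.eq_one_of_dvd_coprimes (hD2.coprime_dvd_right (by norm_num : 3 ∣ 6)) hdvd (orderOf_dvd_of_pow_eq_one h3)
  have hsym : ∀ f g, β f (σ g) = β (σ f) g := by
    intro f g
    have h := hcube (f * g)
    rw [hσmul, mulL, mulR, mulR, hcube, hcube, one_mul, mul_one] at h
    rw [swap g (σ f), eq_comm, inv_eq_iff_mul_eq_one, mul_comm]
    exact h
  set E := ⁅D, Subgroup.zpowers a⁆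
  have hzD : Subgroup.zpowers a ≤ Subgroup.normalizer (D : Set (MulAut V)) := Subgroup.zpowers_le.mpr haD
  have hED : E ≤ D := Coprime.commutator_le_of_le_normalizer hzD
  have hEc : ∀ x ∈ E, ∀ y ∈ D, x * y = y * x := by
    suffices h : E ≤ Subgroup.centralizer (D : Set (MulAut V)) from
      fun x hx y hy => (Subgroup.mem_centralizer_iff.mp (h hx) y hy).symm
    have hgen : ∀ g ∈ D, ⁅g, a⁆ ∈ Subgroup.centralizer (D : Set (MulAut V)) := by
      intro g hg
      refine Subgroup.mem_centralizer_iff.mpr fun f hf => ?_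
      have h : β ⟨f, hf⟩ (⟨g, hg⟩ * (σ ⟨g, hg⟩)⁻¹) = 1 := by
        rw [mulR, invR, mul_inv_eq_one]
        have h2 : ∀ g', β ⟨f, hf⟩ (σ (σ g')) = β ⟨f, hf⟩ g' := fun g' => (hsym _ _).trans (hσ _ _)
        rw [← h2 (σ ⟨g, hg⟩), hσ3]
      have h' := congrArg (fun t : Subgroup.center D => ((t : D) : MulAut V)) h
      refine commutatorElement_eq_one_iff_mul_comm.mp ?_
      rw [show ⁅g, a⁆ = g * (a * g * a⁻¹)⁻¹ by simp only [commutatorElement_def]; group]
      exact h'
    refine Subgroup.commutator_le.mpr fun g hg y hy => ?_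
    obtain ⟨n, rfl⟩ := mem_powers_iff_mem_zpowers.mpr hy
    show ⁅g, a ^ n⁆ ∈ _
    induction n generalizing g with
    | zero => rw [pow_zero, commutatorElement_one_right]; exact one_mem _
    | succ n ih =>
      rw [show ⁅g, a ^ (n + 1)⁆ = ⁅g, a⁆ * ⁅a * g * a⁻¹, a ^ n⁆ by rw [pow_succ']; simp only [commutatorElement_def]; group]
      exact Subgroup.mul_mem _ (hgen g hg) (ih _ (hconj g hg) (Subgroup.pow_mem _ (Subgroup.mem_zpowers a) n))
  have haE : a ∈ Subgroup.normalizer (E : Set (MulAut V)) :=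
    le_sup_right.trans (Coprime.le_normalizer_commutator D (Subgroup.zpowers a)) (Subgroup.mem_zpowers a)
  have hcomm := commute_abelian Nat.prime_three ha3 (fun x hx y hy => hEc x hx y (hED hy)) haE
    (hcop.coprime_dvd_left (Subgroup.card_dvd_of_le hED)) hfix
  have hcopaD : (Nat.card (Subgroup.zpowers a)).Coprime (Nat.card D) := by
    rw [Nat.card_zpowers]
    exact Nat.Coprime.coprime_dvd_left (orderOf_dvd_of_pow_eq_one ha3)
      ((hD2.coprime_dvd_right (by norm_num : 3 ∣ 6)).symm)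
  have hE2 : ⁅E, Subgroup.zpowers a⁆ = ⊥ := Subgroup.commutator_eq_bot_iff_le_centralizer.mpr fun x hx =>
    Subgroup.mem_centralizer_iff.mpr fun y hy => by
      obtain ⟨n, rfl⟩ := Subgroup.mem_zpowers_iff.mp hy
      exact ((show Commute a x from hcomm x hx).zpow_left n).eq
  rw [Coprime.commutator_commutator_eq hzD hcopaD (Or.inr (solvable_zpowers a))] at hE2
  exact fun x hx => Subgroup.mem_centralizer_iff.mp
    (Subgroup.commutator_eq_bot_iff_le_centralizer.mp hE2 hx) a (Subgroup.mem_zpowers a)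

end CfsgLib.GroupB.FpfQuadratic
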