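import Cfsg.Agent.Lib.GroupB.Coprime
import Mathlib.Algebra.BigOperators.Group.Finset.Basic

/-! Restriction of groups of automorphisms to invariant subgroups. -/

set_option autoImplicit false

namespace CfsgLib.GroupB.FpfRestrict

variable {V : Type*} [CommGroup V]

theorem finite_mulAut [Finite V] : Finite (MulAut V) := Finite.of_injective DFunLike.coe DFunLike.coe_injective

attribute [local instance] finite_mulAut

/-- The points fixed by a set of automorphisms. -/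
def fix (M : Subgroup (MulAut V)) : Subgroup V where
  carrier := {v | ∀ m ∈ M, m v = v}
  one_mem' := fun m _ => map_one m
  mul_mem' := fun ha hb m hm => by rw [map_mul, ha m hm, hb m hm]
  inv_mem' := fun ha m hm => by rw [map_inv, ha m hm]

theorem fix_antitone {M N : Subgroup (MulAut V)} (h : M ≤ N) : fix N ≤ fix M := fun _ hv m hm => hv m (h hm)

theorem smul_mem_fix {M : Subgroup (MulAut V)} {g : MulAut V} (hg : g ∈ Subgroup.normalizer (M : Set (MulAut V)))
    {v : V} (hv : v ∈ fix M) : g v ∈ fix M := fun m hm => by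
  have h := hv _ ((Subgroup.mem_normalizer_iff''.mp hg m).mp hm)
  rw [MulAut.mul_apply, MulAut.mul_apply] at h
  have h2 := congrArg g h
  rwa [MulAut.apply_inv_self] at h2

/-- The automorphisms leaving `U` invariant. -/
def stab [Finite V] (U : Subgroup V) : Subgroup (MulAut V) where
  carrier := {g | ∀ u ∈ U, g u ∈ U}
  one_mem' := fun _ hu => hu
  mul_mem' := fun ha hb u hu => ha _ (hb u hu)
  inv_mem' := fun {a} ha u hu => by
    obtain ⟨w, hw⟩ := ((Finite.injective_iff_surjective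
      (f := fun w : U => (⟨a w, ha w w.2⟩ : U))).mp fun x y h => Subtype.ext (a.injective (congrArg Subtype.val h))) ⟨u, hu⟩
    rw [← show a w = u from congrArg Subtype.val hw, MulAut.inv_apply_self]
    exact w.2

/-- Restriction to an invariant subgroup. -/
def res [Finite V] (U : Subgroup V) : stab U →* MulAut U :=
  MonoidHom.mk' (fun g =>
    { toFun := fun u => ⟨(g : MulAut V) u, g.2 u u.2⟩
      invFun := fun u => ⟨((g⁻¹ : stab U) : MulAut V) u, (g⁻¹).2 u u.2⟩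
      left_inv := fun u => Subtype.ext (MulAut.inv_apply_self _ _ _)
      right_inv := fun u => Subtype.ext (MulAut.apply_inv_self _ _ _)
      map_mul' := fun u w => Subtype.ext (map_mul (g : MulAut V) (u : V) w) })
    fun _ _ => MulEquiv.ext fun _ => Subtype.ext rfl

theorem res_apply [Finite V] (U : Subgroup V) (g : stab U) (u : U) : ((res U g u : U) : V) = (g : MulAut V) u := rfl

theorem fix_le_stab [Finite V] {M : Subgroup (MulAut V)} {S : Subgroup (MulAut V)}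
    (h : S ≤ Subgroup.normalizer (M : Set (MulAut V))) : S ≤ stab (fix M) :=
  fun _ hs _ hu => smul_mem_fix (h hs) hu

/-- The image of a subgroup of `stab U` in `MulAut U`. -/
abbrev img [Finite V] (U : Subgroup V) (R : Subgroup (MulAut V)) : Subgroup (MulAut U) :=
  (R.subgroupOf (stab U)).map (res U)

theorem mem_img [Finite V] {U : Subgroup V} {R : Subgroup (MulAut V)} (hR : R ≤ stab U) {y : MulAut U} :
    y ∈ img U R ↔ ∃ x, ∃ hx : x ∈ R, res U ⟨x, hR hx⟩ = y := by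
  constructor
  · rintro ⟨⟨x, hx'⟩, hx, rfl⟩
    exact ⟨x, hx, rfl⟩
  · rintro ⟨x, hx, rfl⟩
    exact ⟨⟨x, hR hx⟩, hx, rfl⟩

theorem card_img_dvd [Finite V] (U : Subgroup V) {R : Subgroup (MulAut V)} (hR : R ≤ stab U) :
    Nat.card (img U R) ∣ Nat.card R :=
  (Subgroup.card_map_dvd _ _).trans (Nat.card_congr (Subgroup.subgroupOfEquivOfLe hR).toEquiv).dvd

theorem img_le_normalizer [Finite V] {U : Subgroup V} {R S : Subgroup (MulAut V)} (hR : R ≤ stab U) (hS : S ≤ stab U)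
    (h : S ≤ Subgroup.normalizer (R : Set (MulAut V))) :
    img U S ≤ Subgroup.normalizer (img U R : Set (MulAut U)) := by
  refine CfsgLib.GroupB.Coprime.le_normalizer_of_conj_mem fun s hs x hx => ?_
  obtain ⟨s, hs', rfl⟩ := (mem_img hS).mp hs
  obtain ⟨x, hx', rfl⟩ := (mem_img hR).mp hx
  rw [← map_inv, ← map_mul, ← map_mul]
  exact (mem_img hR).mpr ⟨s * x * s⁻¹, (Subgroup.mem_normalizer_iff.mp (h hs') x).mp hx', rfl⟩

theorem commute_img [Finite V] {U : Subgroup V} {R S : Subgroup (MulAut V)} (hR : R ≤ stab U) (hS : S ≤ stab U)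
    (h : ∀ x ∈ R, ∀ s ∈ S, x * s = s * x) : ∀ x ∈ img U R, ∀ s ∈ img U S, x * s = s * x := by
  intro x hx s hs
  obtain ⟨x, hx', rfl⟩ := (mem_img hR).mp hx
  obtain ⟨s, hs', rfl⟩ := (mem_img hS).mp hs
  rw [← map_mul, ← map_mul]
  exact congrArg (res U) (Subtype.ext (h x hx' s hs'))

/-- Coprime fixed points lift from the image. -/
theorem exists_lift_fixed [Finite V] {U : Subgroup V} {R B : Subgroup (MulAut V)} (hR : R ≤ stab U) (hB : B ≤ stab U)
    (hBR : B ≤ Subgroup.normalizer (R : Set (MulAut V))) (hcop : (Nat.card B).Coprime (Nat.card R))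
    (hsol : Group.IsSolvable B) {x : MulAut V} (hx : x ∈ R)
    (hfix : ∀ b, ∀ hb : b ∈ B, res U ⟨b, hB hb⟩ * res U ⟨x, hR hx⟩ = res U ⟨x, hR hx⟩ * res U ⟨b, hB hb⟩) :
    ∃ y, ∃ hy : y ∈ R, (∀ b ∈ B, b * y = y * b) ∧ res U ⟨y, hR hy⟩ = res U ⟨x, hR hx⟩ := by
  set N : Subgroup (MulAut V) := R ⊓ (res U).ker.map (stab U).subtype with hN
  have hmem : ∀ y ∈ R, ∀ hy : y ∈ stab U, y ∈ N ↔ res U ⟨y, hy⟩ = 1 := by
    intro y hyR hy
    refine ⟨fun h => ?_, fun h => ⟨hyR, ⟨⟨y, hy⟩, h, rfl⟩⟩⟩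
    obtain ⟨z, hz, hzy⟩ := h.2
    rw [show (⟨y, hy⟩ : stab U) = z from Subtype.ext hzy.symm]
    exact hz
  have hBN : B ≤ Subgroup.normalizer (N : Set (MulAut V)) := by
    refine CfsgLib.GroupB.Coprime.le_normalizer_of_conj_mem fun b hb y hy => ?_
    have hyR := hy.1
    have hbR : b * y * b⁻¹ ∈ R := (Subgroup.mem_normalizer_iff.mp (hBR hb) y).mp hyR
    refine (hmem _ hbR (hR hbR)).mpr ?_
    rw [show (⟨b * y * b⁻¹, hR hbR⟩ : stab U) = ⟨b, hB hb⟩ * ⟨y, hR hyR⟩ * ⟨b, hB hb⟩⁻¹ from rfl, map_mul, map_mul,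
      (hmem y hyR (hR hyR)).mp hy, mul_one, ← map_mul, mul_inv_cancel, map_one]
  obtain ⟨y, hy⟩ := CfsgLib.GroupB.Coprime.exists_fixed_of_coset (N := N) (A := B) hBN
    (hcop.coprime_dvd_right (Subgroup.card_dvd_of_le inf_le_left)) (Or.inr hsol) hBR hcop inf_le_left hx (fun b hb => by
      have hbR : x⁻¹ * b * x * b⁻¹ ∈ R := by
        rw [show x⁻¹ * b * x * b⁻¹ = x⁻¹ * (b * x * b⁻¹) by group]
        exact R.mul_mem (R.inv_mem hx) ((Subgroup.mem_normalizer_iff.mp (hBR hb) x).mp hx)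
      refine (hmem _ hbR (hR hbR)).mpr ?_
      rw [show (⟨x⁻¹ * b * x * b⁻¹, hR hbR⟩ : stab U) = ⟨x, hR hx⟩⁻¹ * ⟨b, hB hb⟩ * ⟨x, hR hx⟩ * ⟨b, hB hb⟩⁻¹ from rfl,
        map_mul, map_mul, map_mul, map_inv, map_inv, mul_assoc _ (res U ⟨b, hB hb⟩), hfix b hb, ← mul_assoc,
        inv_mul_cancel, one_mul, mul_inv_cancel])
  obtain ⟨⟨hyR, hyc⟩, hyN⟩ := hy
  refine ⟨y, hyR, fun b hb => Subgroup.mem_centralizer_iff.mp hyc b hb, ?_⟩
  have hm : x⁻¹ * y ∈ R := R.mul_mem (R.inv_mem hx) hyR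
  have := (hmem _ hm (hR hm)).mp hyN
  rw [show (⟨x⁻¹ * y, hR hm⟩ : stab U) = ⟨x, hR hx⟩⁻¹ * ⟨y, hR hyR⟩ from rfl, map_mul, map_inv, inv_mul_eq_one] at this
  exact this.symm

end CfsgLib.GroupB.FpfRestrict
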