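import Cfsg.Agent.Lib.GroupB.FpfQuadratic
import Cfsg.Agent.Lib.GroupB.CoprimeAbelian
import Mathlib.GroupTheory.FixedPointFree

/-! The symmetric group of degree three acting without fixed points: nilpotent groups of operators are abelian. -/

set_option autoImplicit false

namespace CfsgLib.GroupB.FpfS3

open scoped commutatorElement
open CfsgLib.GroupB.FpfRestrict CfsgLib.GroupB.FpfAbelian CfsgLib.GroupB.FpfQuadratic

attribute [local instance] finite_mulAut

/-- An image of the symmetric group of degree three, by generators. -/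
structure Pair {X : Type*} [Group X] (B : Subgroup X) (π t : X) : Prop where
  πB : π ∈ B
  tB : t ∈ B
  π3 : π ^ 3 = 1
  t2 : t * t = 1
  conj : t * π * t⁻¹ = π⁻¹
  top : B ≤ Subgroup.zpowers π ⊔ Subgroup.zpowers t
  card : Nat.card B ∣ 6
  solv : Group.IsSolvable B

namespace Pair

variable {X : Type*} [Group X] {B : Subgroup X} {π t : X}

theorem map (h : Pair B π t) {Y : Type*} [Group Y] (f : X →* Y) : Pair (B.map f) (f π) (f t) where
  πB := ⟨π, h.πB, rfl⟩
  tB := ⟨t, h.tB, rfl⟩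
  π3 := by rw [← map_pow, h.π3, map_one]
  t2 := by rw [← map_mul, h.t2, map_one]
  conj := by rw [← map_inv, ← map_mul, ← map_mul, h.conj, map_inv]
  top := (Subgroup.map_mono h.top).trans (by rw [Subgroup.map_sup, MonoidHom.map_zpowers, MonoidHom.map_zpowers])
  card := (Subgroup.card_map_dvd _ _).trans h.card
  solv := haveI := h.solv; Group.isSolvable_of_surjective (f.subgroupMap_surjective B)

theorem le_normalizer (h : Pair B π t) : B ≤ Subgroup.normalizer (Subgroup.zpowers π : Set X) := by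
  refine h.top.trans (sup_le Subgroup.le_normalizer (Subgroup.zpowers_le.mpr ?_))
  rw [Coprime.mem_normalizer_iff_map_conj_eq, MonoidHom.map_zpowers,
    show (MulAut.conj t).toMonoidHom π = π⁻¹ from h.conj, Subgroup.zpowers_inv]

theorem zpowers_le (h : Pair B π t) : Subgroup.zpowers π ≤ B := Subgroup.zpowers_le.mpr h.πB

theorem cases (h : Pair B π t) {a : X} (ha : a ∈ B) :
    a ∈ Subgroup.zpowers π ∨ (a * a = 1 ∧ a * π * a⁻¹ = π⁻¹ ∧ B = Subgroup.zpowers π ⊔ Subgroup.zpowers a) := by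
  obtain ⟨n, hn, k, hk, rfl⟩ := (Coprime.mem_sup_of_le_normalizer
    ((Subgroup.zpowers_le.mpr h.tB).trans h.le_normalizer)).mp (h.top ha)
  obtain ⟨i, rfl⟩ := Subgroup.mem_zpowers_iff.mp hk
  have ht2 : t ^ (2 : ℤ) = 1 := by rw [show (2 : ℤ) = ((2 : ℕ) : ℤ) from rfl, zpow_natCast, pow_two, h.t2]
  rcases Int.even_or_odd i with ⟨j, rfl⟩ | ⟨j, rfl⟩
  · left
    rw [← two_mul, zpow_mul, ht2, one_zpow, mul_one]
    exact hn
  · right
    rw [zpow_add, zpow_mul, ht2, one_zpow, one_mul, zpow_one]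
    obtain ⟨m, rfl⟩ := Subgroup.mem_zpowers_iff.mp hn
    have hc : t * π ^ m * t⁻¹ = (π ^ m)⁻¹ := by rw [← conj_zpow, h.conj, inv_zpow]
    have ht : t⁻¹ = t := inv_eq_of_mul_eq_one_right h.t2
    refine ⟨?_, ?_, le_antisymm ?_ (sup_le h.zpowers_le (Subgroup.zpowers_le.mpr (B.mul_mem (B.zpow_mem h.πB m) h.tB)))⟩
    · calc π ^ m * t * (π ^ m * t) = π ^ m * (t * π ^ m * t) := by group
        _ = π ^ m * (t * π ^ m * t⁻¹) := by rw [ht]
        _ = 1 := by rw [hc, mul_inv_cancel]
    · calc π ^ m * t * π * (π ^ m * t)⁻¹ = π ^ m * (t * π * t⁻¹) * (π ^ m)⁻¹ := by group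
        _ = π⁻¹ := by rw [h.conj]; group
    · refine h.top.trans (sup_le le_sup_left (Subgroup.zpowers_le.mpr ?_))
      have e : (π ^ m)⁻¹ * (π ^ m * t) ∈ Subgroup.zpowers π ⊔ Subgroup.zpowers (π ^ m * t) :=
        Subgroup.mul_mem _ (Subgroup.inv_mem _ (Subgroup.mem_sup_left (Subgroup.zpow_mem _ (Subgroup.mem_zpowers π) m)))
          (Subgroup.mem_sup_right (Subgroup.mem_zpowers _))
      rwa [inv_mul_cancel_left] at e

theorem orderOf_dvd (h : Pair B π t) {a : X} (ha : a ∈ B) : orderOf a ∣ 6 :=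
  (B.orderOf_dvd_natCard ha).trans h.card

theorem prime_pow (h : Pair B π t) {a : X} (ha : a ∈ B) : ∃ l : ℕ, l.Prime ∧ a ^ l = 1 := by
  rcases h.cases ha with h' | ⟨h', -, -⟩
  · obtain ⟨i, rfl⟩ := Subgroup.mem_zpowers_iff.mp h'
    exact ⟨3, Nat.prime_three, by rw [← zpow_natCast, ← zpow_mul, mul_comm, zpow_mul, zpow_natCast, h.π3, one_zpow]⟩
  · exact ⟨2, Nat.prime_two, by rw [pow_two, h']⟩

theorem mem_zpowers_symm (h : Pair B π t) {a c : X} (ha : a ∈ B) (hc1 : c ≠ 1)
    (hc : c ∈ Subgroup.zpowers a) : a ∈ Subgroup.zpowers c := by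
  obtain ⟨l, hl, hal⟩ := h.prime_pow ha
  rw [prime_of_mem_zpowers hl hal hc hc1]
  exact Subgroup.mem_zpowers a

theorem le_sup (h : Pair B π t) {a c : X} (ha : a ∈ B) (hc : c ∈ B) (ha1 : a ≠ 1) (hca : c ∉ Subgroup.zpowers a) :
    B ≤ Subgroup.zpowers a ⊔ Subgroup.zpowers c := by
  rcases h.cases ha with ha' | ⟨ha2, -, htop⟩
  · have hπ : Subgroup.zpowers a = Subgroup.zpowers π := prime_of_mem_zpowers Nat.prime_three h.π3 ha' ha1
    rcases h.cases hc with hc' | ⟨-, -, htop⟩
    · exact absurd (hπ ▸ hc') hca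
    · rw [hπ, htop]
  · rw [htop]
    refine sup_le (Subgroup.zpowers_le.mpr ?_) le_sup_left
    have hc' : c ∈ Subgroup.zpowers π ⊔ Subgroup.zpowers a := htop ▸ hc
    obtain ⟨n, hn, k, hk, rfl⟩ := (Coprime.mem_sup_of_le_normalizer
      ((Subgroup.zpowers_le.mpr ha).trans h.le_normalizer)).mp hc'
    have hn1 : n ≠ 1 := fun he => hca (by rw [he, one_mul]; exact hk)
    have hnmem : n ∈ Subgroup.zpowers a ⊔ Subgroup.zpowers (n * k) := by
      rw [show n = n * k * k⁻¹ by group]
      exact Subgroup.mul_mem _ (Subgroup.mem_sup_right (by rw [show n * k * k⁻¹ * k = n * k by group]; exact Subgroup.mem_zpowers _))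
        (Subgroup.inv_mem _ (Subgroup.mem_sup_left hk))
    exact Subgroup.zpowers_le.mpr hnmem (h.mem_zpowers_symm h.πB hn1 hn)

end Pair

variable {V : Type*} [CommGroup V] [Finite V] {B R : Subgroup (MulAut V)} {π t : MulAut V}

theorem img_eq_map {U : Subgroup V} (B : Subgroup (MulAut V)) : img U B = (B.subgroupOf (stab U)).map (res U) := rfl

theorem Pair.img (h : Pair B π t) {U : Subgroup V} (hB : B ≤ stab U) :
    Pair (FpfRestrict.img U B) (res U ⟨π, hB h.πB⟩) (res U ⟨t, hB h.tB⟩) := by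
  refine Pair.map (B := B.subgroupOf (stab U)) (π := (⟨π, hB h.πB⟩ : stab U)) (t := (⟨t, hB h.tB⟩ : stab U)) ?_ (res U)
  have e := Subgroup.subgroupOfEquivOfLe hB
  exact
    { πB := h.πB
      tB := h.tB
      π3 := Subtype.ext h.π3
      t2 := Subtype.ext h.t2
      conj := Subtype.ext h.conj
      top := by
        intro x hx
        have : Subgroup.zpowers π ⊔ Subgroup.zpowers t ≤
            (Subgroup.zpowers (⟨π, hB h.πB⟩ : stab U) ⊔ Subgroup.zpowers (⟨t, hB h.tB⟩ : stab U)).map (stab U).subtype := by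
          rw [Subgroup.map_sup, MonoidHom.map_zpowers, MonoidHom.map_zpowers]; rfl
        obtain ⟨q, hq, hqx⟩ := this (h.top hx)
        rwa [show x = q from Subtype.ext hqx.symm]
      card := (Nat.card_congr e.toEquiv).dvd.trans h.card
      solv := haveI := h.solv; Group.isSolvable_of_surjective (f := e.symm.toMonoidHom) e.symm.surjective }

theorem lift_mem {U : Subgroup V} {K : Subgroup (MulAut V)} (hK : K ≤ stab U) {b : MulAut V}
    (hbK : b ∈ Subgroup.normalizer (K : Set (MulAut V))) (hcop : (orderOf b).Coprime (Nat.card K)) (hb : b ∈ stab U)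
    {x : MulAut V} (hx : x ∈ K)
    (hfix : res U ⟨b, hb⟩ * res U ⟨x, hK hx⟩ = res U ⟨x, hK hx⟩ * res U ⟨b, hb⟩) :
    ∃ y, ∃ hy : y ∈ K, b * y = y * b ∧ res U ⟨y, hK hy⟩ = res U ⟨x, hK hx⟩ := by
  obtain ⟨y, hy, hc, he⟩ := exists_lift_fixed hK (Subgroup.zpowers_le.mpr hb) (Subgroup.zpowers_le.mpr hbK)
    (by rwa [Nat.card_zpowers]) (solvable_zpowers b) hx (fun c hc => by
      obtain ⟨n, rfl⟩ := Subgroup.mem_zpowers_iff.mp hc
      rw [show (⟨b ^ n, _⟩ : stab U) = ⟨b, hb⟩ ^ n from Subtype.ext (by simp [SubgroupClass.coe_zpow]), map_zpow]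
      exact ((show Commute _ _ from hfix).zpow_left n).eq)
  exact ⟨y, hy, hc b (Subgroup.mem_zpowers b), he⟩

/-- In a fixed-point-free automorphism of order three, `x * σ x * σ² x = 1`. -/
theorem prod_three {G : Type*} [Group G] [Finite G] (σ : G →* G) (hσ : MonoidHom.FixedPointFree σ)
    (h3 : ∀ g, σ (σ (σ g)) = g) (x : G) : x * σ x * σ (σ x) = 1 := by
  obtain ⟨g, rfl⟩ := hσ.commutatorMap_surjective x
  simp only [MonoidHom.commutatorMap_apply, map_div, h3]
  simp [div_eq_mul_inv, mul_assoc]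

/-- The fixed points of the element of order three in a fixed-point-free group are inverted by the involution. -/
theorem inverted (h : Pair B π t) (hnR : B ≤ Subgroup.normalizer (R : Set (MulAut V)))
    (hrfix : R ⊓ Subgroup.centralizer (B : Set (MulAut V)) = ⊥) {a : MulAut V} (ha : a ∈ B) (hap : a ∉ Subgroup.zpowers π) :
    ∀ y ∈ R, π * y = y * π → a * y * a⁻¹ = y⁻¹ ∧ ∀ z ∈ R, π * z = z * π → y * z = z * y := by
  obtain ⟨ha2, haπ, hsup⟩ := (h.cases ha).resolve_left hap
  let T : Subgroup (MulAut V) := R ⊓ Subgroup.centralizer {π}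
  have hT : ∀ y, y ∈ T ↔ y ∈ R ∧ π * y = y * π := fun y =>
    ⟨fun hy => ⟨hy.1, Subgroup.mem_centralizer_iff.mp hy.2 π rfl⟩, fun hy => ⟨hy.1,
      Subgroup.mem_centralizer_iff.mpr fun g hg => by rw [Set.mem_singleton_iff.mp hg]; exact hy.2⟩⟩
  have hmem : ∀ y ∈ T, a * y * a⁻¹ ∈ T := by
    intro y hy
    refine (hT _).mpr ⟨(Subgroup.mem_normalizer_iff.mp (hnR ha) y).mp hy.1, ?_⟩
    have hc : Commute π⁻¹ y := (show Commute π y from ((hT y).mp hy).2).inv_left
    have hπ : π = a * π⁻¹ * a⁻¹ := by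
      rw [show a * π⁻¹ * a⁻¹ = (a * π * a⁻¹)⁻¹ by group, haπ, inv_inv]
    calc π * (a * y * a⁻¹) = a * π⁻¹ * a⁻¹ * (a * y * a⁻¹) := by rw [← hπ]
      _ = a * (π⁻¹ * y) * a⁻¹ := by group
      _ = a * (y * π⁻¹) * a⁻¹ := by rw [hc.eq]
      _ = a * y * a⁻¹ * (a * π⁻¹ * a⁻¹) := by group
      _ = a * y * a⁻¹ * π := by rw [← hπ]
  let σ : T →* T := MonoidHom.mk' (fun y => ⟨a * y * a⁻¹, hmem y y.2⟩)
    (fun x y => Subtype.ext (show a * ((x : MulAut V) * y) * a⁻¹ = (a * x * a⁻¹) * (a * y * a⁻¹) by group))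
  have hfpf : MonoidHom.FixedPointFree σ := by
    intro y hy
    refine Subtype.ext (Subgroup.mem_bot.mp (hrfix ▸ ⟨y.2.1, ?_⟩))
    rw [hsup]
    refine Subgroup.mem_centralizer_iff.mpr fun b hb => ?_
    have hle : Subgroup.zpowers π ⊔ Subgroup.zpowers a ≤ Subgroup.centralizer {(y : MulAut V)} := by
      refine sup_le (Subgroup.zpowers_le.mpr ?_) (Subgroup.zpowers_le.mpr ?_)
      · exact Subgroup.mem_centralizer_iff.mpr fun g hg => by
          rw [Set.mem_singleton_iff.mp hg]; exact ((hT _).mp y.2).2.symm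
      · exact Subgroup.mem_centralizer_iff.mpr fun g hg => by
          rw [Set.mem_singleton_iff.mp hg]
          exact (mul_inv_eq_iff_eq_mul.mp (congrArg Subtype.val hy : a * (y : MulAut V) * a⁻¹ = y)).symm
    exact (Subgroup.mem_centralizer_iff.mp (hle hb) _ rfl).symm
  have hinv : Function.Involutive σ := fun y => Subtype.ext (show a * (a * (y : MulAut V) * a⁻¹) * a⁻¹ = y by
    calc _ = a * a * y * (a * a)⁻¹ := by group
      _ = y := by rw [ha2]; group)
  intro y hy hπy
  refine ⟨?_, fun z hz hπz => congrArg Subtype.val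
    (hfpf.commute_all_of_involutive hinv ⟨y, (hT y).mpr ⟨hy, hπy⟩⟩ ⟨z, (hT z).mpr ⟨hz, hπz⟩⟩).eq⟩
  exact congrArg Subtype.val (congrFun (MonoidHom.FixedPointFree.coe_eq_inv_of_involutive hfpf hinv) ⟨y, (hT y).mpr ⟨hy, hπy⟩⟩)

set_option maxHeartbeats 2000000 in
/-- The main result: a nilpotent group of operators of order prime to six is abelian. -/
theorem comm_of_nilpotent (h : Pair B π t) (hvfix : fix B = ⊥) (hV : (Nat.card V).Coprime 6) (n : ℕ) :
    ∀ R : Subgroup (MulAut V), Nat.card R ≤ n → Group.IsNilpotent R → B ≤ Subgroup.normalizer (R : Set (MulAut V)) →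
      (Nat.card R).Coprime 6 → (Nat.card R).Coprime (Nat.card V) →
      R ⊓ Subgroup.centralizer (B : Set (MulAut V)) = ⊥ →
      (π ≠ 1 → ∀ x ∈ R, π * x = x * π → ∀ v, π v = v → x v = v) → ∀ x ∈ R, ∀ y ∈ R, x * y = y * x := by
  induction n generalizing V B π t with
  | zero => intro R hR; exact absurd hR (by simpa using (Nat.card_pos (α := R)).ne')
  | succ n ih =>
  intro R hn hnil hnR hR6 hcop hrfix hcentV
  haveI := hnil
  set R' := ⁅R, R⁆ with hR'
  have hR'le : R' ≤ R := Subgroup.commutator_le.mpr fun a ha b hb =>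
    R.mul_mem (R.mul_mem (R.mul_mem ha hb) (R.inv_mem ha)) (R.inv_mem hb)
  by_cases hbot : R' = ⊥
  · exact fun x hx y hy => commutatorElement_eq_one_iff_mul_comm.mp
      (Subgroup.mem_bot.mp (hbot ▸ Subgroup.commutator_mem_commutator hx hy))
  exfalso
  have hcopB : (Nat.card B).Coprime (Nat.card R) := hR6.symm.coprime_dvd_left h.card
  have hord : ∀ b ∈ B, ∀ K : Subgroup (MulAut V), K ≤ R → (orderOf b).Coprime (Nat.card K) := fun b hb K hK =>
    (hR6.symm.coprime_dvd_left (h.orderOf_dvd hb)).coprime_dvd_right (Subgroup.card_dvd_of_le hK)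
  have hRne : R ≠ ⊥ := by rintro rfl; exact hbot (Subgroup.commutator_bot_left _)
  have hlt : R' < R := by
    haveI : Nontrivial R := (Subgroup.nontrivial_iff_ne_bot R).mpr hRne
    rw [hR', ← R.range_subtype, MonoidHom.range_eq_map, ← Subgroup.map_commutator, Subgroup.map_subtype_lt_map_subtype]
    exact Group.IsSolvable.commutator_lt_top_of_nontrivial R
  have hnR' : B ≤ Subgroup.normalizer (R' : Set (MulAut V)) := fun b hb => by
    rw [Coprime.mem_normalizer_iff_map_conj_eq, hR', Subgroup.map_commutator, Coprime.mem_normalizer_iff_map_conj_eq.mp (hnR hb)]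
  have hR'comm : ∀ x ∈ R', ∀ y ∈ R', x * y = y * x := by
    refine ih h hvfix hV R' ?_ (Group.nilpotent_of_mulEquiv (Subgroup.subgroupOfEquivOfLe hR'le)) hnR'
      (hR6.coprime_dvd_left (Subgroup.card_dvd_of_le hR'le)) (hcop.coprime_dvd_left (Subgroup.card_dvd_of_le hR'le))
      (le_bot_iff.mp ((inf_le_inf_right _ hR'le).trans hrfix.le)) fun h1 x hx => hcentV h1 x (hR'le hx)
    have := Set.ncard_lt_ncard (SetLike.coe_ssubset_coe.mpr hlt) (Set.toFinite _)
    rw [← Nat.card_coe_set_eq, ← Nat.card_coe_set_eq] at this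
    change Nat.card R' < Nat.card R at this
    omega
  -- a central subgroup inside the derived group
  obtain ⟨Z, hZR', hZne, hZnB, hZc⟩ : ∃ Z : Subgroup (MulAut V), Z ≤ R' ∧ Z ≠ ⊥ ∧
      B ≤ Subgroup.normalizer (Z : Set (MulAut V)) ∧ ∀ z ∈ Z, ∀ x ∈ R, z * x = x * z := by
    classical
    have hex := (Subgroup.isNilpotent_iff_lowerCentralSeries R).mp hnil
    have h2 : 2 ≤ Nat.find hex := by
      by_contra hlt2
      have h1 : R.lowerCentralSeries 1 ≤ ⊥ :=
        (Subgroup.lowerCentralSeries_antitone R (show Nat.find hex ≤ 1 by omega)).trans (Nat.find_spec hex).le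
      exact hbot (le_bot_iff.mp h1)
    obtain ⟨m, hm⟩ : ∃ m, Nat.find hex = m + 1 := ⟨Nat.find hex - 1, by omega⟩
    refine ⟨R.lowerCentralSeries m, Subgroup.lowerCentralSeries_antitone R (show 1 ≤ m by omega),
      Nat.find_min hex (by omega), fun b hb => ?_, fun z hz x hx => ?_⟩
    · rw [Coprime.mem_normalizer_iff_map_conj_eq, Subgroup.map_lowerCentralSeries,
        Coprime.mem_normalizer_iff_map_conj_eq.mp (hnR hb)]
    · refine commutatorElement_eq_one_iff_mul_comm.mp ?_
      have := Nat.find_spec hex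
      rw [hm, Subgroup.lowerCentralSeries_succ] at this
      exact Subgroup.mem_bot.mp (this ▸ Subgroup.commutator_mem_commutator hz hx)
  have hZR : Z ≤ R := hZR'.trans hR'le
  have hcopZ : (Nat.card Z).Coprime (Nat.card V) := hcop.coprime_dvd_left (Subgroup.card_dvd_of_le hZR)
  have hZcomm : ∀ x ∈ Z, ∀ y ∈ Z, x * y = y * x := fun x hx y hy => hZc x hx y (hZR hy)
  -- operators acting commutatively on a subspace fix it
  have htriv : ∀ (U : Subgroup V) (hU : R ≤ stab U), (∀ x ∈ img U R, ∀ y ∈ img U R, x * y = y * x) → U ≤ fix R' := by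
    intro U hU hc u hu
    refine mem_fix.mpr (Subgroup.commutator_le.mpr fun x hx y hy => ?_)
    show ⁅x, y⁆ u = u
    have e : res U ⁅(⟨x, hU hx⟩ : stab U), ⟨y, hU hy⟩⁆ = 1 := by
      rw [map_commutatorElement, commutatorElement_eq_one_iff_mul_comm]
      exact hc _ ((mem_img hU).mpr ⟨x, hx, rfl⟩) _ ((mem_img hU).mpr ⟨y, hy, rfl⟩)
    exact congrArg Subtype.val (DFunLike.congr_fun e ⟨u, hu⟩)
  have hnZR : ∀ K : Subgroup (MulAut V), K ≤ Z → R ≤ Subgroup.normalizer (K : Set (MulAut V)) := fun K hK =>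
    Coprime.le_normalizer_of_conj_mem fun x hx z hz => by rwa [← hZc z (hK hz) x hx, mul_inv_cancel_right]
  have hfixZ : fix Z ≤ fix R' := by
    have hRU : R ≤ stab (fix Z) := fix_le_stab (hnZR Z le_rfl)
    have hBU : B ≤ stab (fix Z) := fix_le_stab hZnB
    refine htriv _ hRU (ih (h.img hBU) ?_ (hV.coprime_dvd_left (Subgroup.card_subgroup_dvd_card _)) _ ?_ ?_
      (img_le_normalizer hRU hBU hnR) (hR6.coprime_dvd_left (card_img_dvd _ hRU))
      ((hcop.coprime_dvd_left (card_img_dvd _ hRU)).coprime_dvd_right (Subgroup.card_subgroup_dvd_card _)) ?_ ?_)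
    · refine (Subgroup.eq_bot_iff_forall _).mpr fun u hu => Subtype.ext ?_
      exact Subgroup.mem_bot.mp (hvfix ▸ (show (u : V) ∈ fix B from fun b hb =>
        congrArg Subtype.val (hu (res _ ⟨b, hBU hb⟩) ((mem_img hBU).mpr ⟨b, hb, rfl⟩))))
    · have hsur := (res (fix Z)).subgroupMap_surjective (R.subgroupOf (stab (fix Z)))
      obtain ⟨z, hz, hz1⟩ := Z.bot_or_exists_ne_one.resolve_left hZne
      have hninj : ¬ Function.Injective ((res (fix Z)).subgroupMap (R.subgroupOf (stab (fix Z)))) := fun hinj => by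
        have e : (⟨⟨z, hRU (hZR hz)⟩, hZR hz⟩ : R.subgroupOf (stab (fix Z))) = 1 := by
          refine hinj ?_
          rw [map_one]
          exact Subtype.ext (MulEquiv.ext fun u => Subtype.ext (u.2 z hz))
        exact hz1 (congrArg (fun s : R.subgroupOf (stab (fix Z)) => ((s : stab (fix Z)) : MulAut V)) e)
      haveI := Fintype.ofFinite (R.subgroupOf (stab (fix Z)))
      haveI := Fintype.ofFinite (img (fix Z) R)
      have := Fintype.card_lt_of_surjective_not_injective _ hsur hninj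
      rw [← Nat.card_eq_fintype_card, ← Nat.card_eq_fintype_card,
        Nat.card_congr (Subgroup.subgroupOfEquivOfLe hRU).toEquiv] at this
      exact Nat.lt_succ_iff.mp (this.trans_le hn)
    · haveI := Group.nilpotent_of_mulEquiv (Subgroup.subgroupOfEquivOfLe hRU).symm
      exact Group.nilpotent_of_surjective _ ((res (fix Z)).subgroupMap_surjective (R.subgroupOf (stab (fix Z))))
    · refine (Subgroup.eq_bot_iff_forall _).mpr fun y hy => ?_
      obtain ⟨x, hx, rfl⟩ := (mem_img hRU).mp hy.1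
      obtain ⟨z, hz, hzc, hze⟩ := exists_lift_fixed hRU hBU hnR hcopB h.solv hx
        (fun b hb => Subgroup.mem_centralizer_iff.mp hy.2 _ ((mem_img hBU).mpr ⟨b, hb, rfl⟩))
      have hz1 : z = 1 := Subgroup.mem_bot.mp (hrfix ▸ (⟨hz, Subgroup.mem_centralizer_iff.mpr hzc⟩ :
        z ∈ R ⊓ Subgroup.centralizer (B : Set (MulAut V))))
      subst hz1
      rw [← hze]
      exact map_one _
    · intro hπ1 x' hx' hπx v hv
      obtain ⟨x, hx, rfl⟩ := (mem_img hRU).mp hx'
      obtain ⟨y, hy, hyc, hye⟩ := lift_mem hRU (hnR h.πB) (hord π h.πB R le_rfl) (hBU h.πB) hx hπx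
      rw [← hye]
      refine Subtype.ext (hcentV (fun he => hπ1 ?_) y hy hyc v (congrArg Subtype.val hv))
      rw [show (⟨π, hBU h.πB⟩ : stab (fix Z)) = 1 from Subtype.ext he, map_one]
  suffices htop : fix R' = ⊤ by
    exact hbot ((Subgroup.eq_bot_iff_forall _).mpr fun x hx => MulEquiv.ext fun v => (htop ▸ Subgroup.mem_top v : v ∈ fix R') x hx)
  refine eq_top_iff.mpr ((iSup_fix_commutator hZcomm hZnB hcopZ hvfix).symm.le.trans
    (iSup₂_le fun c hc => iSup_le fun hc1 => ?_))
  set D := ⁅Z, Subgroup.zpowers c⁆ with hDdef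
  have hzc : Subgroup.zpowers c ≤ B := Subgroup.zpowers_le.mpr hc
  have hDZ : D ≤ Z := Coprime.commutator_le_of_le_normalizer (hzc.trans hZnB)
  have hcD : c ∈ Subgroup.normalizer (D : Set (MulAut V)) :=
    le_sup_right.trans (Coprime.le_normalizer_commutator Z (Subgroup.zpowers c)) (Subgroup.mem_zpowers c)
  let U' : Subgroup V := fix D ⊓ (nrm Z).ker
  have hst : ∀ g, g ∈ Subgroup.normalizer (Z : Set (MulAut V)) → g ∈ Subgroup.normalizer (D : Set (MulAut V)) →
      g ∈ stab U' := by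
    intro g hgZ hgD u hu
    refine ⟨smul_mem_fix hgD hu.1, MonoidHom.mem_ker.mpr ?_⟩
    rw [← apply_nrm hgZ, MonoidHom.mem_ker.mp hu.2, map_one]
  have hRU : R ≤ stab U' := fun x hx => hst x (hnZR Z le_rfl hx) (hnZR D hDZ hx)
  have hcU : c ∈ stab U' := hst c (hZnB hc) hcD
  -- it is enough that the image on `U'` is abelian
  suffices hX : ∀ x ∈ img U' R, ∀ y ∈ img U' R, x * y = y * x by
    intro v hv
    refine mem_of_pow_mem hcopZ ?_
    have hw : v ^ Nat.card Z * (nrm Z v)⁻¹ ∈ U' := by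
      refine ⟨(fix D).mul_mem ((fix D).pow_mem hv _) ((fix D).inv_mem (fix_antitone hDZ (nrm_mem_fix Z v))), MonoidHom.mem_ker.mpr ?_⟩
      rw [map_mul, map_pow, map_inv, nrm_of_mem_fix (nrm_mem_fix Z v), mul_inv_cancel]
    have := (fix R').mul_mem (htriv U' hRU hX hw) (hfixZ (nrm_mem_fix Z v))
    rwa [inv_mul_cancel_right] at this
  have hker : ∀ u ∈ U', u ∈ fix Z → u = 1 := by
    intro u hu huZ
    refine Subgroup.mem_bot.mp (mem_of_pow_mem hcopZ ?_)
    rw [← nrm_of_mem_fix huZ, MonoidHom.mem_ker.mp hu.2]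
    exact one_mem _
  rcases h.cases hc with hcπ | ⟨hc2, hcπi, hsup⟩
  · -- an element of order three
    have hzeq : Subgroup.zpowers c = Subgroup.zpowers π := prime_of_mem_zpowers Nat.prime_three h.π3 hcπ hc1
    have hπ1 : π ≠ 1 := fun he => hc1 (by
      rw [he, Subgroup.zpowers_one_eq_bot] at hcπ; exact Subgroup.mem_bot.mp hcπ)
    have hBU : B ≤ stab U' := fun b hb => hst b (hZnB hb) (by
      rw [Coprime.mem_normalizer_iff_map_conj_eq, hDdef, Subgroup.map_commutator, hzeq,
        Coprime.mem_normalizer_iff_map_conj_eq.mp (hZnB hb), Coprime.mem_normalizer_iff_map_conj_eq.mp (h.le_normalizer hb)])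
    set π' := res U' ⟨π, hBU h.πB⟩ with hπ'
    have hπ'3 : π' ^ 3 = 1 := by
      rw [hπ', ← map_pow, show (⟨π, hBU h.πB⟩ : stab U') ^ 3 = 1 from Subtype.ext h.π3, map_one]
    have hfix' : fix (Subgroup.zpowers π') = ⊥ := by
      refine (Subgroup.eq_bot_iff_forall _).mpr fun u hu => Subtype.ext (hker u u.2 ?_)
      have hu' : π (u : V) = u := congrArg Subtype.val (hu π' (Subgroup.mem_zpowers π'))
      have hdec := Coprime.centralizer_sup_commutator (hzc.trans hZnB)
        (by rw [Nat.card_zpowers]; exact hord c hc Z hZR) (Or.inr (solvable_zpowers c))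
      refine mem_fix.mpr (hdec ▸ sup_le (fun z hz => ?_) (mem_fix.mp u.2.1))
      exact hcentV hπ1 z (hZR hz.1) (Subgroup.mem_centralizer_iff.mp hz.2 π (by
        rw [hzeq]; exact Subgroup.mem_zpowers π)) _ hu'
    set X := img U' R with hXdef
    have hπX : π' ∈ Subgroup.normalizer (X : Set (MulAut U')) :=
      img_le_normalizer hRU hBU hnR ((mem_img hBU).mpr ⟨π, h.πB, rfl⟩)
    have hX6 : (Nat.card X).Coprime 6 := hR6.coprime_dvd_left (card_img_dvd U' hRU)
    have hXV : (Nat.card X).Coprime (Nat.card U') :=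
      (hcop.coprime_dvd_left (card_img_dvd U' hRU)).coprime_dvd_right (Subgroup.card_subgroup_dvd_card _)
    set X' := ⁅X, X⁆ with hX'
    have hX'R : X' ≤ img U' R' := by
      refine Subgroup.commutator_le.mpr fun a ha b hb => ?_
      obtain ⟨a, ha', rfl⟩ := (mem_img hRU).mp ha
      obtain ⟨b, hb', rfl⟩ := (mem_img hRU).mp hb
      rw [← map_commutatorElement]
      exact (mem_img (hR'le.trans hRU)).mpr ⟨⁅a, b⁆, Subgroup.commutator_mem_commutator ha' hb', rfl⟩
    have hX'le : X' ≤ X := Subgroup.commutator_le.mpr fun a ha b hb =>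
      X.mul_mem (X.mul_mem (X.mul_mem ha hb) (X.inv_mem ha)) (X.inv_mem hb)
    have hπX' : π' ∈ Subgroup.normalizer (X' : Set (MulAut U')) := by
      rw [Coprime.mem_normalizer_iff_map_conj_eq, hX', Subgroup.map_commutator, Coprime.mem_normalizer_iff_map_conj_eq.mp hπX]
    have hc' := commute_abelian Nat.prime_three hπ'3
      (fun a ha b hb => commute_img (hR'le.trans hRU) (hR'le.trans hRU) hR'comm a (hX'R ha) b (hX'R hb)) hπX'
      (hXV.coprime_dvd_left (Subgroup.card_dvd_of_le hX'le)) hfix'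
    have hzX : Subgroup.zpowers π' ≤ Subgroup.normalizer (X : Set (MulAut U')) := Subgroup.zpowers_le.mpr hπX
    set E := ⁅X, Subgroup.zpowers π'⁆
    have hEX : E ≤ X := Coprime.commutator_le_of_le_normalizer hzX
    have hX'π : ⁅X', Subgroup.zpowers π'⁆ = ⊥ := Subgroup.commutator_eq_bot_iff_le_centralizer.mpr fun a ha =>
      Subgroup.mem_centralizer_iff.mpr fun g hg => by
        obtain ⟨i, rfl⟩ := Subgroup.mem_zpowers_iff.mp hg
        exact ((show Commute π' a from hc' a ha).zpow_left i).eq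
    -- the commutator group centralises the derived group
    have hEX' : ⁅E, X'⁆ = ⊥ := by
      have h1 : ⁅⁅X', X⁆, Subgroup.zpowers π'⁆ = ⊥ := le_bot_iff.mp ((Subgroup.commutator_mono
        (Subgroup.commutator_le.mpr fun a ha b hb => Subgroup.commutator_mem_commutator (hX'le ha) hb) le_rfl).trans hX'π.le)
      have h2 : ⁅⁅Subgroup.zpowers π', X'⁆, X⁆ = ⊥ := by
        rw [Subgroup.commutator_comm (Subgroup.zpowers π') X', hX'π, Subgroup.commutator_bot_left]
      exact Subgroup.commutator_commutator_eq_bot_of_rotate (H₁ := X) (H₂ := Subgroup.zpowers π') (H₃ := X') h2 h1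
    have hEc := Subgroup.commutator_eq_bot_iff_le_centralizer.mp hEX'
    have hE := commute_class_two hπ'3
      (le_sup_right.trans (Coprime.le_normalizer_commutator X (Subgroup.zpowers π')) (Subgroup.mem_zpowers π'))
      (hX6.coprime_dvd_left (Subgroup.card_dvd_of_le hEX)) (hXV.coprime_dvd_left (Subgroup.card_dvd_of_le hEX)) hfix'
      (fun a ha b hb e he => (Subgroup.mem_centralizer_iff.mp (hEc he) _
        (Subgroup.commutator_mem_commutator (hEX ha) (hEX hb))).symm)
      (fun a ha b hb => hc' _ (Subgroup.commutator_mem_commutator (hEX ha) (hEX hb)))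
    have hE2 : ⁅E, Subgroup.zpowers π'⁆ = ⊥ := Subgroup.commutator_eq_bot_iff_le_centralizer.mpr fun a ha =>
      Subgroup.mem_centralizer_iff.mpr fun g hg => by
        obtain ⟨i, rfl⟩ := Subgroup.mem_zpowers_iff.mp hg
        exact ((show Commute π' a from hE a ha).zpow_left i).eq
    have hcopπX : (Nat.card (Subgroup.zpowers π')).Coprime (Nat.card X) := by
      rw [Nat.card_zpowers]
      exact (hX6.coprime_dvd_right (by norm_num : 3 ∣ 6)).symm.coprime_dvd_left (orderOf_dvd_of_pow_eq_one hπ'3)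
    rw [Coprime.commutator_commutator_eq hzX hcopπX (Or.inr (solvable_zpowers π'))] at hE2
    intro a ha b hb
    have hπa : ∀ x ∈ X, π' * x = x * π' := fun x hx => Subgroup.mem_centralizer_iff.mp
      (Subgroup.commutator_eq_bot_iff_le_centralizer.mp hE2 hx) π' (Subgroup.mem_zpowers π')
    obtain ⟨x, hx, rfl⟩ := (mem_img hRU).mp ha
    obtain ⟨y, hy, rfl⟩ := (mem_img hRU).mp hb
    obtain ⟨x₀, hx₀, hx₀c, hx₀e⟩ := lift_mem hRU (hnR h.πB) (hord π h.πB R le_rfl) (hBU h.πB) hx (hπa _ ha)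
    obtain ⟨y₀, hy₀, hy₀c, hy₀e⟩ := lift_mem hRU (hnR h.πB) (hord π h.πB R le_rfl) (hBU h.πB) hy (hπa _ hb)
    rw [← hx₀e, ← hy₀e, ← map_mul, ← map_mul]
    refine congrArg (res U') (Subtype.ext ?_)
    by_cases htπ : t ∈ Subgroup.zpowers π
    · -- then `B` is generated by `π`
      have h1 : x₀ = 1 := Subgroup.mem_bot.mp (hrfix ▸ (⟨hx₀, Subgroup.centralizer_le
        (h.top.trans (sup_le le_rfl (Subgroup.zpowers_le.mpr htπ))) (Subgroup.mem_centralizer_iff.mpr fun g hg => by
          obtain ⟨i, rfl⟩ := Subgroup.mem_zpowers_iff.mp hg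
          exact ((show Commute π x₀ from hx₀c).zpow_left i).eq)⟩ : x₀ ∈ R ⊓ Subgroup.centralizer (B : Set (MulAut V))))
      show x₀ * y₀ = y₀ * x₀
      rw [h1, one_mul, mul_one]
    · exact (inverted h hnR hrfix h.tB htπ x₀ hx₀ hx₀c).2 y₀ hy₀ hy₀c
  · -- an involution
    have hcπ : c ∉ Subgroup.zpowers π := fun hcπ => by
      obtain ⟨i, hi⟩ := Subgroup.mem_zpowers_iff.mp hcπ
      have h3 : c ^ 3 = 1 := by
        rw [← hi, ← zpow_natCast, ← zpow_mul, mul_comm, zpow_mul, zpow_natCast, h.π3, one_zpow]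
      refine hc1 ?_
      rw [pow_three, hc2, mul_one] at h3
      exact h3
    have hcc : c⁻¹ = c := inv_eq_of_mul_eq_one_right hc2
    have hππ : π⁻¹ = π * π := by
      refine inv_eq_of_mul_eq_one_right ?_
      rw [← pow_three, h.π3]
    have hπi : c * π = π⁻¹ * c := by rw [← hcπi]; group
    have hπinv : c * π⁻¹ = π * c := by
      calc c * π⁻¹ = (π * c)⁻¹ * (π * c) * (c * π⁻¹) := by group
        _ = c⁻¹ * π⁻¹ * π * (c * c) * π⁻¹ := by group
        _ = c * π⁻¹ := by rw [hc2, hcc]; group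
      calc c * π⁻¹ = π * (π⁻¹ * c) * π⁻¹ := by group
        _ = π * (c * π) * π⁻¹ := by rw [hπi]
        _ = π * c := by group
    -- `c` has no fixed points on `U'`
    have hcinv : ∀ u ∈ U', c u = u⁻¹ := by
      have hc0 : ∀ v ∈ U', c v = v → v = 1 := by
        intro v hv hcv
        have hπ3 : ∀ w, π (π (π w)) = w := fun w => DFunLike.congr_fun h.π3 w
        have hcπv : c (π v) = π (π v) := by
          rw [← MulAut.mul_apply, hπi, MulAut.mul_apply, hcv, hππ, MulAut.mul_apply]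
        have hcππv : c (π (π v)) = π v := by
          rw [← MulAut.mul_apply V π π, ← MulAut.mul_apply, ← hππ, hπinv, MulAut.mul_apply, hcv]
        have hw : v * π v * π (π v) = 1 := Subgroup.mem_bot.mp (hvfix ▸ (show v * π v * π (π v) ∈ fix B from
          mem_fix.mpr (hsup.le.trans (sup_le (Subgroup.zpowers_le.mpr (by
            show π (v * π v * π (π v)) = v * π v * π (π v)
            rw [map_mul, map_mul, hπ3]
            ac_rfl)) (Subgroup.zpowers_le.mpr (by
            show c (v * π v * π (π v)) = v * π v * π (π v)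
            rw [map_mul, map_mul, hcv, hcπv, hcππv]
            ac_rfl))))))
        -- the norm over `D` of a translate is fixed by `Z`
        have hgenZ : ∀ g : MulAut V, g ∈ Subgroup.zpowers π → g ≠ 1 → ∀ u ∈ fix D, nrm D (g u) ∈ fix Z := by
          intro g hg hg1 u hu
          have hgB : g ∈ B := h.zpowers_le hg
          set D₁ := D.map (MulAut.conj g).toMonoidHom with hD₁
          have hD₁Z : D₁ ≤ Z := (Subgroup.map_mono hDZ).trans (Coprime.mem_normalizer_iff_map_conj_eq.mp (hZnB hgB)).le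
          have hgu : g u ∈ fix D₁ := by
            rintro _ ⟨d, hd, rfl⟩
            show (g * d * g⁻¹) (g u) = g u
            simp only [MulAut.mul_apply, MulAut.inv_apply_self, hu d hd]
          have h1 : nrm D (g u) ∈ fix D₁ := by
            intro d hd
            have hdN : d ∈ Subgroup.normalizer (D : Set (MulAut V)) :=
              hnZR D hDZ (hZR (hD₁Z hd))
            rw [apply_nrm hdN, hgu d hd]
          let K := D ⊔ D₁
          have hKZ : K ≤ Z := sup_le hDZ hD₁Z
          have hK : nrm D (g u) ∈ fix K := mem_fix.mpr (sup_le (mem_fix.mp (nrm_mem_fix D (g u))) (mem_fix.mp h1))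
          refine fix_antitone ?_ hK
          let S : Subgroup (MulAut V) :=
            { carrier := {b | b ∈ B ∧ ∀ k ∈ Z, ⁅k, b⁆ ∈ K}
              one_mem' := ⟨B.one_mem, fun k _ => by rw [commutatorElement_one_right]; exact one_mem _⟩
              mul_mem' := fun {a b} ⟨ha, ha'⟩ ⟨hb, hb'⟩ => ⟨B.mul_mem ha hb, fun k hk => by
                rw [show ⁅k, a * b⁆ = ⁅k, a⁆ * (⁅⁅k, b⁆, a⁆)⁻¹ * ⁅k, b⁆ by simp only [commutatorElement_def]; group]
                exact K.mul_mem (K.mul_mem (ha' k hk) (K.inv_mem (ha' _ (hKZ (hb' k hk))))) (hb' k hk)⟩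
              inv_mem' := fun {a} ⟨ha, ha'⟩ => ⟨B.inv_mem ha, fun k hk => by
                rw [show ⁅k, a⁻¹⁆ = (⁅a⁻¹ * k * a, a⁆)⁻¹ by simp only [commutatorElement_def]; group]
                exact K.inv_mem (ha' _ (by simpa using (Subgroup.mem_normalizer_iff.mp (hZnB (B.inv_mem ha)) k).mp hk))⟩ }
          have hcS : c ∈ S := ⟨hc, fun k hk => Subgroup.mem_sup_left (Subgroup.commutator_mem_commutator hk (Subgroup.mem_zpowers c))⟩
          have hc'S : g * c * g⁻¹ ∈ S := by
            refine ⟨B.mul_mem (B.mul_mem hgB hc) (B.inv_mem hgB), fun k hk => Subgroup.mem_sup_right ?_⟩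
            refine ⟨⁅g⁻¹ * k * g, c⁆, Subgroup.commutator_mem_commutator (by
              simpa using (Subgroup.mem_normalizer_iff.mp (hZnB (B.inv_mem hgB)) k).mp hk) (Subgroup.mem_zpowers c), ?_⟩
            show g * ⁅g⁻¹ * k * g, c⁆ * g⁻¹ = _
            simp only [commutatorElement_def]; group
          have hπS : π ∈ S := by
            have hgg : g * g ∈ S := by
              have e : g * c * g⁻¹ * c = g * g := by
                obtain ⟨i, rfl⟩ := Subgroup.mem_zpowers_iff.mp hg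
                have : c * π ^ i * c⁻¹ = (π ^ i)⁻¹ := by rw [← conj_zpow, hcπi, inv_zpow]
                calc π ^ i * c * (π ^ i)⁻¹ * c = π ^ i * c * (c * π ^ i * c⁻¹) * c := by rw [this]
                  _ = π ^ i * (c * c) * π ^ i := by group
                  _ = π ^ i * π ^ i := by rw [hc2, mul_one]
              exact e ▸ S.mul_mem hc'S hcS
            have hgg1 : g * g ≠ 1 := fun he => hg1 (by
              have h3 : g ^ 3 = 1 := by
                obtain ⟨i, rfl⟩ := Subgroup.mem_zpowers_iff.mp hg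
                rw [← zpow_natCast, ← zpow_mul, mul_comm, zpow_mul, zpow_natCast, h.π3, one_zpow]
              rw [pow_three, he, mul_one] at h3
              exact h3)
            exact Subgroup.zpowers_le.mpr hgg (h.mem_zpowers_symm h.πB hgg1
              (Subgroup.mul_mem _ hg hg))
          have hBS : B ≤ S := hsup.le.trans (sup_le (Subgroup.zpowers_le.mpr hπS) (Subgroup.zpowers_le.mpr hcS))
          calc Z = (Z ⊓ Subgroup.centralizer (B : Set (MulAut V))) ⊔ ⁅Z, B⁆ :=
                (Coprime.centralizer_sup_commutator hZnB (hcopB.coprime_dvd_right (Subgroup.card_dvd_of_le hZR))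
                  (Or.inr h.solv)).symm
            _ ≤ K := sup_le ((inf_le_inf_right _ hZR).trans (hrfix.le.trans bot_le))
                (Subgroup.commutator_le.mpr fun k hk b hb => (hBS hb).2 k hk)
        refine hker v hv ?_
        by_cases hπ1 : π = 1
        · rw [hπ1] at hw
          have hv1 : v = 1 := by
            refine Subgroup.mem_bot.mp (mem_of_pow_mem (k := 3) (hV.symm.coprime_dvd_left (by norm_num)) (Subgroup.mem_bot.mpr ?_))
            simpa [pow_three, mul_assoc] using hw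
          rw [hv1]
          exact one_mem _
        refine mem_of_pow_mem ((hcop.coprime_dvd_left (Subgroup.card_dvd_of_le (hDZ.trans hZR)))) ?_
        have e := congrArg (nrm D) hw
        rw [map_mul, map_mul, map_one, nrm_of_mem_fix hv.1, mul_assoc] at e
        rw [eq_inv_of_mul_eq_one_left e]
        refine (fix Z).inv_mem ((fix Z).mul_mem (hgenZ π (Subgroup.mem_zpowers π) hπ1 v hv.1) ?_)
        rw [← MulAut.mul_apply]
        refine hgenZ (π * π) (Subgroup.mul_mem _ (Subgroup.mem_zpowers π) (Subgroup.mem_zpowers π)) ?_ v hv.1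
        rw [← hππ]; simpa using hπ1
      intro u hu
      refine eq_inv_of_mul_eq_one_left (hc0 _ (U'.mul_mem (hcU u hu) hu) ?_)
      rw [map_mul, ← MulAut.mul_apply, hc2, MulAut.one_apply, mul_comm]
    set c' := res U' ⟨c, hcU⟩
    have hc'app : ∀ u : U', c' u = u⁻¹ := fun u => Subtype.ext (hcinv u u.2)
    have hcen : ∀ g : MulAut U', c' * g = g * c' := fun g => MulEquiv.ext fun u => by
      rw [MulAut.mul_apply, MulAut.mul_apply, hc'app, hc'app, map_inv]
    have hRlift : ∀ x, ∀ hx : x ∈ R, ∃ y, ∃ hy : y ∈ R, c * y = y * c ∧ res U' ⟨y, hRU hy⟩ = res U' ⟨x, hRU hx⟩ :=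
      fun x hx => lift_mem hRU (hnR hc) (hord c hc R le_rfl) hcU hx (hcen _)
    have hodd : ∀ g : R, g * g = 1 → g = 1 := by
      intro g hg
      rw [← orderOf_eq_one_iff]
      exact Nat.eq_one_of_dvd_coprimes (hR6.coprime_dvd_right (by norm_num : 2 ∣ 6)) (orderOf_dvd_natCard g)
        (orderOf_dvd_of_pow_eq_one (by rw [pow_two, hg]))
    have hπR : π ∈ Subgroup.normalizer (R : Set (MulAut V)) := hnR h.πB
    have hπRi : ∀ x ∈ R, π⁻¹ * x * π ∈ R := fun x hx => by
      simpa using (Subgroup.mem_normalizer_iff.mp (Subgroup.inv_mem _ hπR) x).mp hx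
    let W : Subgroup V := U' ⊔ (U'.map (π : V ≃* V).toMonoidHom ⊔ U'.map ((π * π : MulAut V) : V ≃* V).toMonoidHom)
    have hW1 : U' ≤ W := le_sup_left
    have hπW : π ∈ stab W := by
      have : W ≤ W.comap (π : V ≃* V).toMonoidHom := by
        refine sup_le (fun u hu => Subgroup.mem_sup_right (Subgroup.mem_sup_left ⟨u, hu, rfl⟩)) (sup_le ?_ ?_)
        · rintro _ ⟨u, hu, rfl⟩
          exact Subgroup.mem_sup_right (Subgroup.mem_sup_right ⟨u, hu, rfl⟩)
        · rintro _ ⟨u, hu, rfl⟩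
          refine Subgroup.mem_sup_left ?_
          show π (π (π u)) ∈ U'
          rw [show π (π (π u)) = u from DFunLike.congr_fun h.π3 u]
          exact hu
      exact fun w hw => this hw
    have hRW : R ≤ stab W := by
      intro x hx
      have hmap : ∀ (g : MulAut V), g⁻¹ * x * g ∈ R → U'.map (g : V ≃* V).toMonoidHom ≤
          (U'.map (g : V ≃* V).toMonoidHom).comap (x : V ≃* V).toMonoidHom := by
        rintro g hg _ ⟨u, hu, rfl⟩
        refine ⟨(g⁻¹ * x * g) u, hRU hg u hu, ?_⟩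
        show g ((g⁻¹ * x * g) u) = x (g u)
        simp only [MulAut.mul_apply, MulAut.apply_inv_self]
      have : W ≤ W.comap (x : V ≃* V).toMonoidHom := by
        refine sup_le (fun u hu => hW1 (hRU hx u hu)) (sup_le ?_ ?_)
        · exact (hmap π (hπRi x hx)).trans (Subgroup.comap_mono (le_sup_left.trans le_sup_right))
        · refine (hmap (π * π) ?_).trans (Subgroup.comap_mono (le_sup_right.trans le_sup_right))
          rw [show (π * π)⁻¹ * x * (π * π) = π⁻¹ * (π⁻¹ * x * π) * π by group]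
          exact hπRi _ (hπRi x hx)
      exact fun w hw => this hw
    -- fixed points of `π` in `R` act trivially on `W`
    have hCW : ∀ y, ∀ hy : y ∈ R, π * y = y * π → res W ⟨y, hRW hy⟩ = 1 := by
      intro y hy hπy
      have hy' := (inverted h hnR hrfix hc hcπ y hy hπy).1
      have h2 : res U' ⟨y, hRU hy⟩ * res U' ⟨y, hRU hy⟩ = 1 := by
        have e : res U' ⟨y, hRU hy⟩⁻¹ = c' * res U' ⟨y, hRU hy⟩ * c'⁻¹ := by
          rw [← map_inv, ← map_mul, ← map_mul]
          exact congrArg (res U') (Subtype.ext hy'.symm)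
        rw [hcen, mul_inv_cancel_right, map_inv, inv_eq_iff_mul_eq_one] at e
        exact e
      have h1 : res U' ⟨y, hRU hy⟩ = 1 := by
        obtain ⟨m, hm⟩ := exists_pow_eq_self_of_coprime (n := 2) (x := res U' ⟨y, hRU hy⟩)
          (((hR6.coprime_dvd_right (by norm_num : 2 ∣ 6)).coprime_dvd_left
            ((orderOf_dvd_natCard (⟨⟨y, hRU hy⟩, hy⟩ : R.subgroupOf (stab U'))).trans
              (Nat.card_congr (Subgroup.subgroupOfEquivOfLe hRU).toEquiv).dvd)).symm.coprime_dvd_right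
            (by rw [← Subgroup.orderOf_coe]; exact orderOf_map_dvd _ _))
        rw [← hm, pow_two, h2, one_pow]
      have hu : ∀ u ∈ U', y u = u := fun u hu => congrArg Subtype.val (DFunLike.congr_fun h1 (⟨u, hu⟩ : U'))
      refine MulEquiv.ext fun w => Subtype.ext ?_
      have : W ≤ fix (Subgroup.zpowers y) := by
        refine sup_le (fun u hu' => mem_fix.mpr (Subgroup.zpowers_le.mpr (hu u hu'))) (sup_le ?_ ?_)
        · rintro _ ⟨u, hu', rfl⟩
          refine mem_fix.mpr (Subgroup.zpowers_le.mpr ?_)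
          show y (π u) = π u
          rw [← MulAut.mul_apply, ← hπy, MulAut.mul_apply, hu u hu']
        · rintro _ ⟨u, hu', rfl⟩
          refine mem_fix.mpr (Subgroup.zpowers_le.mpr ?_)
          show y ((π * π) u) = (π * π) u
          rw [← MulAut.mul_apply, ← ((show Commute π y from hπy).mul_left hπy).eq, MulAut.mul_apply, hu u hu']
      exact this w.2 y (Subgroup.mem_zpowers y)
    have hmemσ : ∀ g : img W R, res W ⟨π, hπW⟩ * g * (res W ⟨π, hπW⟩)⁻¹ ∈ img W R := fun g => by
      obtain ⟨x, hx, hxg⟩ := (mem_img hRW).mp g.2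
      rw [← hxg, ← map_inv, ← map_mul, ← map_mul]
      exact (mem_img hRW).mpr ⟨π * x * π⁻¹, (Subgroup.mem_normalizer_iff.mp hπR x).mp hx, rfl⟩
    let σ : img W R →* img W R := MonoidHom.mk' (fun g => ⟨_, hmemσ g⟩) (fun g g' => Subtype.ext (by
      show res W ⟨π, hπW⟩ * ((g : MulAut W) * g') * (res W ⟨π, hπW⟩)⁻¹ = _ * _ * _ * (_ * _ * _)
      group))
    have hπ'3 : res W ⟨π, hπW⟩ ^ 3 = 1 := by
      rw [← map_pow, show (⟨π, hπW⟩ : stab W) ^ 3 = 1 from Subtype.ext h.π3, map_one]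
    have hσ : MonoidHom.FixedPointFree σ := by
      intro g hg
      obtain ⟨x, hx, hxg⟩ := (mem_img hRW).mp g.2
      have e : res W ⟨π, hπW⟩ * res W ⟨x, hRW hx⟩ = res W ⟨x, hRW hx⟩ * res W ⟨π, hπW⟩ := by
        rw [hxg]; exact mul_inv_eq_iff_eq_mul.mp (congrArg Subtype.val hg)
      obtain ⟨y, hy, hyc, hye⟩ := lift_mem hRW hπR (hord π h.πB R le_rfl) hπW hx e
      exact Subtype.ext (by rw [← hxg, ← hye, hCW y hy hyc]; rfl)
    have hσ3 : ∀ g, σ (σ (σ g)) = g := fun g => Subtype.ext (by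
      set P := res W ⟨π, hπW⟩
      show P * (P * (P * g * P⁻¹) * P⁻¹) * P⁻¹ = g
      calc _ = (P * P * P) * g * (P * P * P)⁻¹ := by group
        _ = g := by rw [show P * P * P = 1 by rw [← hπ'3, pow_three, mul_assoc]]; group)
    -- products over the orbit of `π`
    have hprod : ∀ x, ∀ hx : x ∈ R, c * x = x * c → ∀ hp : π * x * π⁻¹ ∈ R,
        res U' ⟨x, hRU hx⟩ * (res U' ⟨π * x * π⁻¹, hRU hp⟩ * res U' ⟨π * x * π⁻¹, hRU hp⟩) = 1 := by
      intro x hx hcx hp
      have hp2 : π * (π * x * π⁻¹) * π⁻¹ ∈ R := (Subgroup.mem_normalizer_iff.mp hπR _).mp hp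
      have e1 := congrArg Subtype.val (prod_three σ hσ hσ3 ⟨res W ⟨x, hRW hx⟩, (mem_img hRW).mpr ⟨x, hx, rfl⟩⟩)
      change res W ⟨x, hRW hx⟩ * (res W ⟨π, hπW⟩ * res W ⟨x, hRW hx⟩ * (res W ⟨π, hπW⟩)⁻¹) *
        (res W ⟨π, hπW⟩ * (res W ⟨π, hπW⟩ * res W ⟨x, hRW hx⟩ * (res W ⟨π, hπW⟩)⁻¹) * (res W ⟨π, hπW⟩)⁻¹) = 1 at e1
      simp only [← map_inv, ← map_mul] at e1
      have e1' : ∀ u ∈ U', (x * (π * x * π⁻¹) * (π * (π * x * π⁻¹) * π⁻¹)) u = u := by
        intro u hu
        have h := congrArg Subtype.val (DFunLike.congr_fun e1 (⟨u, hW1 hu⟩ : W))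
        simp only [res_apply, Subgroup.coe_mul, Subgroup.coe_inv, MulAut.one_apply] at h
        exact h
      have e2 : res U' (⟨x, hRU hx⟩ * ⟨_, hRU hp⟩ * ⟨_, hRU hp2⟩) = 1 := MulEquiv.ext fun u => Subtype.ext (by
        rw [res_apply, MulAut.one_apply]
        simp only [Subgroup.coe_mul]
        exact e1' u u.2)
      rw [map_mul, map_mul, mul_assoc] at e2
      have e3 : res U' ⟨_, hRU hp2⟩ = res U' ⟨_, hRU hp⟩ := by
        have e4 : res U' ⟨_, hRU hp2⟩ = c' * res U' ⟨_, hRU hp⟩ * c'⁻¹ := by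
          rw [← map_inv, ← map_mul, ← map_mul]
          refine congrArg (res U') (Subtype.ext ?_)
          show π * (π * x * π⁻¹) * π⁻¹ = c * (π * x * π⁻¹) * c⁻¹
          calc π * (π * x * π⁻¹) * π⁻¹ = π * π * x * (π * π)⁻¹ := by group
            _ = π⁻¹ * (c * x * c⁻¹) * π := by rw [← hππ, hcx]; group
            _ = π⁻¹ * c * x * (π⁻¹ * c)⁻¹ := by group
            _ = c * π * x * (c * π)⁻¹ := by rw [hπi]
            _ = _ := by group
        rw [e4, hcen, mul_inv_cancel_right]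
      rwa [e3] at e2
    intro a ha b hb
    obtain ⟨x0, hx0, rfl⟩ := (mem_img hRU).mp ha
    obtain ⟨y0, hy0, rfl⟩ := (mem_img hRU).mp hb
    obtain ⟨x, hx, hxc, hxe⟩ := hRlift x0 hx0
    obtain ⟨y, hy, hyc, hye⟩ := hRlift y0 hy0
    rw [← hxe, ← hye]
    have hpm : ∀ w ∈ R, π * w * π⁻¹ ∈ R := fun w hw => (Subgroup.mem_normalizer_iff.mp hπR w).mp hw
    have ex := hprod x hx hxc (hpm x hx)
    have ey := hprod y hy hyc (hpm y hy)
    have exy := hprod (x * y) (R.mul_mem hx hy) ((show Commute c x from hxc).mul_right hyc).eq (hpm _ (R.mul_mem hx hy))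
    have eyx := hprod (y * x) (R.mul_mem hy hx) ((show Commute c y from hyc).mul_right hxc).eq (hpm _ (R.mul_mem hy hx))
    set A := res U' ⟨π * x * π⁻¹, hRU (hpm x hx)⟩
    set C := res U' ⟨π * y * π⁻¹, hRU (hpm y hy)⟩
    have fx : res U' ⟨π * (x * y) * π⁻¹, hRU (hpm _ (R.mul_mem hx hy))⟩ = A * C := by
      rw [← map_mul]; exact congrArg (res U') (Subtype.ext (by show π * (x * y) * π⁻¹ = π * x * π⁻¹ * (π * y * π⁻¹); group))
    have fy : res U' ⟨π * (y * x) * π⁻¹, hRU (hpm _ (R.mul_mem hy hx))⟩ = C * A := by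
      rw [← map_mul]; exact congrArg (res U') (Subtype.ext (by show π * (y * x) * π⁻¹ = π * y * π⁻¹ * (π * x * π⁻¹); group))
    rw [fx, show (⟨x * y, hRU (R.mul_mem hx hy)⟩ : stab U') = ⟨x, hRU hx⟩ * ⟨y, hRU hy⟩ from rfl, map_mul] at exy
    rw [fy, show (⟨y * x, hRU (R.mul_mem hy hx)⟩ : stab U') = ⟨y, hRU hy⟩ * ⟨x, hRU hx⟩ from rfl, map_mul] at eyx
    rw [eq_inv_of_mul_eq_one_left ex, eq_inv_of_mul_eq_one_left ey] at exy eyx ⊢
    have q1 : A * C * (A * C) = C * C * (A * A) := by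
      rw [← mul_inv_rev] at exy
      exact (inv_mul_eq_one.mp exy).symm
    have q2 : C * A * (C * A) = A * A * (C * C) := by
      rw [← mul_inv_rev] at eyx
      exact (inv_mul_eq_one.mp eyx).symm
    have q3 : C ^ 3 * A ^ 2 = A ^ 2 * C ^ 3 := by
      have e1 : A * C * (A * C * (A * C)) = A * (C ^ 3 * A ^ 2) := by rw [q1]; simp only [pow_succ, pow_zero, one_mul, mul_assoc]
      have e2 : A * C * (A * C * (A * C)) = A * (A ^ 2 * C ^ 3) := by
        rw [show A * C * (A * C * (A * C)) = A * (C * A * (C * A)) * C by group, q2]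
        simp only [pow_succ, pow_zero, one_mul, mul_assoc]
      exact mul_left_cancel (e1.symm.trans e2)
    have hord6 : ∀ z, ∀ hz : z ∈ R, ∀ k : ℕ, k ∣ 6 → k.Coprime (orderOf (res U' ⟨z, hRU hz⟩)) := fun z hz k hk =>
      (((hR6.coprime_dvd_right hk).coprime_dvd_left
        ((orderOf_dvd_natCard (⟨⟨z, hRU hz⟩, hz⟩ : R.subgroupOf (stab U'))).trans
          (Nat.card_congr (Subgroup.subgroupOfEquivOfLe hRU).toEquiv).dvd)).coprime_dvd_left
        (by rw [← Subgroup.orderOf_coe]; exact orderOf_map_dvd _ _)).symm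
    obtain ⟨i, hi⟩ := exists_pow_eq_self_of_coprime (hord6 (π * y * π⁻¹) (hpm y hy) 3 (by norm_num))
    obtain ⟨j, hj⟩ := exists_pow_eq_self_of_coprime (hord6 (π * x * π⁻¹) (hpm x hx) 2 (by norm_num))
    have hAC : Commute A C := by
      change (C ^ 3) ^ i = C at hi
      change (A ^ 2) ^ j = A at hj
      rw [← hi, ← hj]
      exact ((show Commute (C ^ 3) (A ^ 2) from q3).symm.pow_left j).pow_right i
    exact ((hAC.mul_left hAC).mul_right (hAC.mul_left hAC)).inv_inv.eq

end CfsgLib.GroupB.FpfS3
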