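import Cfsg.Agent.Lib.GroupB.FpfS3

/-! The symmetric group of degree three acting without fixed points: an abelian group of operators is centralised. -/

set_option autoImplicit false

namespace CfsgLib.GroupB.FpfS3Commute

open scoped commutatorElement Pointwise
open CfsgLib.GroupB.FpfRestrict CfsgLib.GroupB.FpfAbelian CfsgLib.GroupB.FpfQuadratic CfsgLib.GroupB.FpfS3

attribute [local instance] finite_mulAut

variable {V : Type*} [CommGroup V] [Finite V] {B R S : Subgroup (MulAut V)} {π t : MulAut V}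

/-- The hypotheses for the symmetric group of degree three acting on operators `R` and `S` of `V`. -/
structure Acts (B R S : Subgroup (MulAut V)) (π t : MulAut V) : Prop where
  pair : Pair B π t
  nR : B ≤ Subgroup.normalizer (R : Set (MulAut V))
  nS : B ≤ Subgroup.normalizer (S : Set (MulAut V))
  SR : S ≤ Subgroup.normalizer (R : Set (MulAut V))
  copR : (Nat.card R).Coprime (Nat.card V)
  copR6 : (Nat.card R).Coprime 6
  copS : (Nat.card S).Coprime 6
  copSR : (Nat.card S).Coprime (Nat.card R)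
  vfix : fix B = ⊥
  rfix : R ⊓ Subgroup.centralizer (B : Set (MulAut V)) = ⊥
  sfix : S ⊓ Subgroup.centralizer (B : Set (MulAut V)) = ⊥
  cent : π ≠ 1 → ∀ s ∈ S, π * s = s * π → ∀ x ∈ R, π * x = x * π → s * x = x * s
  scomm : ∀ s ∈ S, ∀ s' ∈ S, ∀ x ∈ R, ⁅s, s'⁆ * x = x * ⁅s, s'⁆

theorem Acts.copB (h : Acts B R S π t) {K : Subgroup (MulAut V)} (hK : (Nat.card K).Coprime 6) :
    (Nat.card B).Coprime (Nat.card K) := hK.symm.coprime_dvd_left h.pair.card

theorem Acts.copZ (h : Acts B R S π t) {a : MulAut V} (ha : a ∈ B) {K : Subgroup (MulAut V)}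
    (hK : (Nat.card K).Coprime 6) : (Nat.card (Subgroup.zpowers a)).Coprime (Nat.card K) :=
  (h.copB hK).coprime_dvd_left (Subgroup.card_dvd_of_le (Subgroup.zpowers_le.mpr ha))

set_option maxHeartbeats 2000000 in
/-- An abelian group of operators is centralised. -/
theorem commute_of_acts (h : Acts B R S π t)
    (hR : ∀ x ∈ R, ∀ y ∈ R, x * y = y * x) : ∀ x ∈ R, ∀ s ∈ S, x * s = s * x := by
  classical
  -- primary subgroups
  let P : Subgroup (MulAut V) → Prop := fun M => M ≤ R ∧ ¬ fix M ≤ ⨆ N, ⨆ (_ : N ≤ R ∧ M < N), fix N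
  have hD : ∀ a ∈ B, ⁅R, Subgroup.zpowers a⁆ ≤ R := fun a ha =>
    Coprime.commutator_le_of_le_normalizer ((Subgroup.zpowers_le.mpr ha).trans h.nR)
  have hprim : ∀ M, P M → M ≠ R → ∃ a ∈ B, a ≠ 1 ∧ ⁅R, Subgroup.zpowers a⁆ ≤ M := by
    rintro M ⟨hMR, hM⟩ -
    by_contra hno
    push Not at hno
    refine hM fun v hv => ?_
    set W := ⨆ N, ⨆ (_ : N ≤ R ∧ M < N), fix N with hW
    have htop : W.comap (nrm M) = ⊤ := by
      refine eq_top_iff.mpr ?_
      rw [← iSup_fix_commutator hR h.nR h.copR h.vfix]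
      refine iSup₂_le fun b hb => iSup_le fun hb1 w hw => Subgroup.mem_comap.mpr ?_
      refine Subgroup.mem_iSup_of_mem (M ⊔ ⁅R, Subgroup.zpowers b⁆) (Subgroup.mem_iSup_of_mem
        ⟨sup_le hMR (hD b hb), lt_of_le_not_ge le_sup_left fun hle => hno b hb hb1 (le_sup_right.trans hle)⟩ ?_)
      refine mem_fix.mpr (sup_le (mem_fix.mp (nrm_mem_fix M w)) fun d hd => ?_)
      show d (nrm M w) = nrm M w
      rw [apply_nrm ((Coprime.le_normalizer_of_conj_mem fun k hk m hm => ?_) hd) w, hw d hd]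
      rwa [hR k (hD b hb hk) m (hMR hm), mul_inv_cancel_right]
    refine mem_of_pow_mem (h.copR.coprime_dvd_left (Subgroup.card_dvd_of_le hMR)) ?_
    rw [← nrm_of_mem_fix hv]
    exact Subgroup.mem_comap.mp (htop ▸ Subgroup.mem_top v)
  -- the action on characters
  let N := Subgroup.normalizer (R : Set (MulAut V))
  letI act : MulAction N (R →* ℂˣ) :=
    { smul := fun g f => MonoidHom.mk'
        (fun x => f ⟨(g : (MulAut V))⁻¹ * x * (g : (MulAut V)), by simpa using (Subgroup.mem_normalizer_iff.mp (N.inv_mem g.2) x).mp x.2⟩)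
        (fun x y => by rw [← map_mul]; exact congrArg f (Subtype.ext (by simp only [Subgroup.coe_mul]; group)))
      one_smul := fun f => MonoidHom.ext fun x => congrArg f (Subtype.ext (by simp))
      mul_smul := fun g g' f => MonoidHom.ext fun x => congrArg f (Subtype.ext (by simp only [Subgroup.coe_mul]; group)) }
  have hsmul : ∀ (g : N) (f : R →* ℂˣ) (x y : R), (g : (MulAut V))⁻¹ * x * (g : (MulAut V)) = y → (g • f) x = f y :=
    fun g f x y hxy => congrArg f (Subtype.ext hxy)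
  let SN := S.subgroupOf N
  let BN := B.subgroupOf N
  have hnone : ∀ f : R →* ℂˣ, (∀ b ∈ BN, b • f = f) → f = 1 := by
    intro f hf
    have hker : R ≤ f.ker.map R.subtype := by
      calc R = (R ⊓ Subgroup.centralizer (B : Set (MulAut V))) ⊔ ⁅R, B⁆ :=
            (Coprime.centralizer_sup_commutator h.nR (h.copB h.copR6) (Or.inr h.pair.solv)).symm
        _ = ⁅R, B⁆ := by rw [h.rfix, bot_sup_eq]
        _ ≤ _ := Subgroup.commutator_le.mpr fun k hk b hb => by
          have hb' : b * k⁻¹ * b⁻¹ ∈ R := (Subgroup.mem_normalizer_iff.mp (h.nR hb) _).mp (R.inv_mem hk)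
          refine ⟨⟨k, hk⟩ * ⟨b * k⁻¹ * b⁻¹, hb'⟩, MonoidHom.mem_ker.mpr ?_, by
            simp [commutatorElement_def, mul_assoc]⟩
          have e := congrArg (fun t : R →* ℂˣ => t ⟨b * k⁻¹ * b⁻¹, hb'⟩) (hf ⟨b, h.nR hb⟩ hb)
          rw [hsmul _ f _ (⟨k, hk⟩⁻¹ : R) (by simp [mul_assoc])] at e
          rw [map_mul, ← e, ← map_mul, mul_inv_cancel, map_one]
    ext x
    obtain ⟨y, hy, hyx⟩ := hker x.2
    rw [show x = y from Subtype.ext hyx.symm, MonoidHom.mem_ker.mp hy]; rfl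
  -- every relevant character is fixed by `S`
  let Λ : Set (R →* ℂˣ) := {f | f ≠ 1 ∧ ∃ M, P M ∧ ∀ x : R, (x : (MulAut V)) ∈ M → f x = 1}
  have hΛfix : ∀ f ∈ Λ, ∃ a, ∃ ha : a ∈ B, a ≠ 1 ∧ (⟨a, h.nR ha⟩ : N) • f = f := by
    rintro f ⟨hf, M, hM, hfM⟩
    have hne : M ≠ R := fun he => hf (MonoidHom.ext fun x => hfM x (he ▸ x.2))
    obtain ⟨a, ha, ha1, hle⟩ := hprim M hM hne
    refine ⟨a, ha, ha1, MonoidHom.ext fun x => ?_⟩
    have hax : a⁻¹ * x * a ∈ R := by simpa using (Subgroup.mem_normalizer_iff.mp (h.nR (B.inv_mem ha)) x).mp x.2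
    rw [hsmul _ f x ⟨_, hax⟩ rfl]
    have h1 := hfM ((⟨_, hax⟩ : R) * x⁻¹) (hle ?_)
    · rwa [map_mul, map_inv, mul_inv_eq_one] at h1
    · show a⁻¹ * (x : (MulAut V)) * a * (x : (MulAut V))⁻¹ ∈ _
      rw [show a⁻¹ * (x : (MulAut V)) * a * (x : (MulAut V))⁻¹ = (⁅(x : (MulAut V)), a⁻¹⁆)⁻¹ by rw [commutatorElement_def]; group]
      exact Subgroup.inv_mem _ (Subgroup.commutator_mem_commutator x.2 (Subgroup.inv_mem _ (Subgroup.mem_zpowers a)))
  have hΛN : ∀ g : N, ∀ f ∈ Λ, g • f ∈ Λ := by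
    rintro g f ⟨hf, M, hM, hfM⟩
    refine ⟨fun he => hf ?_, M.map (MulAut.conj (g : (MulAut V))).toMonoidHom, ⟨?_, ?_⟩, fun x hx => ?_⟩
    · rw [← inv_smul_smul g f, he]
      ext x; rfl
    · exact (Subgroup.map_mono hM.1).trans (Coprime.mem_normalizer_iff_map_conj_eq.mp g.2).le
    · intro hle
      refine hM.2 fun v hv => ?_
      have hgv : (g : (MulAut V)) v ∈ fix (M.map (MulAut.conj (g : (MulAut V))).toMonoidHom) := by
        rintro _ ⟨m, hm, rfl⟩
        show ((g : (MulAut V)) * m * (g : (MulAut V))⁻¹) ((g : (MulAut V)) v) = (g : (MulAut V)) v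
        simp only [MulAut.mul_apply, MulAut.inv_apply_self, hv m hm]
      have hle2 : (⨆ K, ⨆ (_ : K ≤ R ∧ M.map (MulAut.conj (g : (MulAut V))).toMonoidHom < K), fix K) ≤
          (⨆ K, ⨆ (_ : K ≤ R ∧ M < K), fix K).comap (((g : (MulAut V))⁻¹ : (MulAut V)) : V ≃* V).toMonoidHom := by
        refine iSup₂_le fun K hK w hw => Subgroup.mem_comap.mpr ?_
        have hgR : R.map (MulAut.conj ((g : (MulAut V))⁻¹)).toMonoidHom = R :=
          Coprime.mem_normalizer_iff_map_conj_eq.mp (N.inv_mem g.2)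
        refine Subgroup.mem_iSup_of_mem (K.map (MulAut.conj ((g : (MulAut V))⁻¹)).toMonoidHom) (Subgroup.mem_iSup_of_mem
          ⟨(Subgroup.map_mono hK.1).trans hgR.le, ?lt⟩ ?mem)
        case lt =>
          have h2 := Subgroup.map_lt_map_iff_of_injective (f := (MulAut.conj ((g : (MulAut V))⁻¹)).toMonoidHom) (MulAut.conj ((g : (MulAut V))⁻¹)).injective |>.mpr hK.2
          rwa [SchurZassenhaus.map_conj_map_conj, inv_mul_cancel, map_one, show (1 : MulAut (MulAut V)).toMonoidHom = MonoidHom.id (MulAut V) from rfl,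
            Subgroup.map_id] at h2
        case mem =>
          rintro _ ⟨k, hk, rfl⟩
          show ((g : (MulAut V))⁻¹ * k * ((g : (MulAut V))⁻¹)⁻¹) ((g : (MulAut V))⁻¹ w) = (g : (MulAut V))⁻¹ w
          simp only [MulAut.mul_apply, inv_inv, MulAut.apply_inv_self, hw k hk]
      have h3 := Subgroup.mem_comap.mp (hle2 (hle hgv))
      simpa using h3
    · obtain ⟨m, hm, hmx⟩ := hx
      rw [hsmul g f x ⟨m, hM.1 hm⟩]
      · exact hfM _ hm
      · rw [← hmx]; show (g : (MulAut V))⁻¹ * ((g : (MulAut V)) * m * (g : (MulAut V))⁻¹) * g = m; group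
  have hΛS : ∀ g ∈ SN, ∀ f ∈ Λ, g • f ∈ Λ := fun g _ => hΛN g
  have hΛB : ∀ g ∈ BN, ∀ f ∈ Λ, g • f ∈ Λ := fun g _ => hΛN g
  have hsepΛ : ∀ z ∈ R, (∀ f ∈ Λ, ∀ y : R, (y : MulAut V) = z → f y = 1) → z = 1 := by
    intro z hzR hkill
    have hsep : ∀ M, P M → z ∈ M := by
      intro M hM
      by_contra hzM
      letI : CommGroup R := { (inferInstance : Group R) with mul_comm := fun a b => Subtype.ext (hR a a.2 b b.2) }
      obtain ⟨χ, hχ⟩ := CommGroup.exists_apply_ne_one_of_hasEnoughRootsOfUnity (R ⧸ M.subgroupOf R) ℂ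
        (a := (QuotientGroup.mk' (M.subgroupOf R) ⟨z, hzR⟩)) (fun he => hzM ((QuotientGroup.eq_one_iff (⟨z, hzR⟩ : R)).mp he : (⟨z, hzR⟩ : R) ∈ M.subgroupOf R))
      let f : R →* ℂˣ := χ.comp (QuotientGroup.mk' (M.subgroupOf R))
      have hfΛ : f ∈ Λ := ⟨fun he => hχ (DFunLike.congr_fun he ⟨z, hzR⟩), M, hM, fun w hw => by
        show χ (QuotientGroup.mk' _ w) = 1
        rw [show QuotientGroup.mk' (M.subgroupOf R) w = 1 from (QuotientGroup.eq_one_iff w).mpr (show w ∈ M.subgroupOf R from hw), map_one]⟩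
      exact hχ (hkill f hfΛ ⟨z, hzR⟩ rfl)
    have hall : ∀ M : Subgroup (MulAut V), M ≤ R → fix M ≤ fix (Subgroup.zpowers z) := by
      intro M
      induction M using WellFoundedGT.induction with
      | ind M ih =>
        intro hMR
        by_cases hM : P M
        · exact fix_antitone (Subgroup.zpowers_le.mpr (hsep M hM))
        · exact (not_not.mp fun hc => hM ⟨hMR, hc⟩).trans (iSup₂_le fun K hK => ih K hK.2 hK.1)
    exact MulEquiv.ext fun v =>
      hall ⊥ bot_le (show v ∈ fix ⊥ from fun m hm => by rw [Subgroup.mem_bot.mp hm, MulAut.one_apply]) z (Subgroup.mem_zpowers z)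
  have horbit : ∀ f ∈ Λ, ∀ a, ∀ ha : a ∈ B, a ≠ 1 → (⟨a, h.nR ha⟩ : N) • f = f →
      ∀ g ∈ SN, (⟨a, h.nR ha⟩ : N) • (g • f) = g • f := by
    intro f hf a ha ha1 haf
    set aN : N := ⟨a, h.nR ha⟩
    let O : Set (R →* ℂˣ) := {μ | ∃ g ∈ SN, g • f = μ}
    have hconj : ∀ b, ∀ hb : b ∈ B, ∀ g ∈ SN, (⟨b, h.nR hb⟩ : N) * g * (⟨b, h.nR hb⟩ : N)⁻¹ ∈ SN :=
      fun b hb g hg => (Subgroup.mem_normalizer_iff.mp (h.nS hb) _).mp hg
    have hfO : ∀ μ ∈ O, aN • μ = μ := by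
      rintro μ ⟨g0, hg0, rfl⟩
      obtain ⟨c, hc, hc1, hcμ⟩ := hΛfix _ (hΛS g0 hg0 f hf)
      by_cases hca : c ∈ Subgroup.zpowers a
      · obtain ⟨n, hn⟩ := Subgroup.mem_zpowers_iff.mp (h.pair.mem_zpowers_symm ha hc1 hca)
        have hmem : aN ∈ MulAction.stabilizer N (g0 • f) := by
          rw [show aN = (⟨c, h.nR hc⟩ : N) ^ n from Subtype.ext (by rw [SubgroupClass.coe_zpow]; exact hn.symm)]
          exact Subgroup.zpow_mem _ hcμ n
        exact hmem
      exfalso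
      let Q : Subgroup N := MulAction.stabilizer N O
      have hQ : ∀ t : N, (∀ μ ∈ O, t • μ ∈ O) → t ∈ Q := fun t ht =>
        (MulAction.mem_stabilizer_set_iff_smul_set_subset (Set.toFinite O)).mpr (by rintro _ ⟨μ, hμ, rfl⟩; exact ht μ hμ)
      have hAQ : aN ∈ Q := hQ _ (by
        rintro _ ⟨g, hg, rfl⟩
        refine ⟨aN * g * aN⁻¹, hconj a ha g hg, ?_⟩
        rw [mul_smul, mul_smul, inv_smul_eq_iff.mpr haf.symm])
      have hCQ : (⟨c, h.nR hc⟩ : N) ∈ Q := hQ _ (by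
        rintro _ ⟨g, hg, rfl⟩
        refine ⟨(⟨c, h.nR hc⟩ : N) * (g * g0⁻¹) * (⟨c, h.nR hc⟩ : N)⁻¹ * g0,
          SN.mul_mem (hconj c hc _ (SN.mul_mem hg (SN.inv_mem hg0))) hg0, ?_⟩
        rw [mul_smul, mul_smul, inv_smul_eq_iff.mpr hcμ.symm, ← mul_smul, mul_assoc, inv_mul_cancel_right, mul_smul])
      have hBQ : BN ≤ Q := by
        intro b hb
        have hb' : (b : (MulAut V)) ∈ Subgroup.zpowers a ⊔ Subgroup.zpowers c := h.pair.le_sup ha hc ha1 hca hb
        have : Subgroup.zpowers a ⊔ Subgroup.zpowers c ≤ Q.map N.subtype :=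
          sup_le (Subgroup.zpowers_le.mpr ⟨aN, hAQ, rfl⟩) (Subgroup.zpowers_le.mpr ⟨⟨c, h.nR hc⟩, hCQ, rfl⟩)
        obtain ⟨q, hq, hqb⟩ := this hb'
        rwa [show b = q from Subtype.ext hqb.symm]
      obtain ⟨⟨μ, ⟨g, hg, hgμ⟩, hμ⟩, -⟩ := Coprime.glauberman (G := SN) (A := BN) (X := N)
        (Coprime.le_normalizer_of_conj_mem fun b hb g hg => hconj (b : (MulAut V)) hb g hg)
        (by rw [Nat.card_congr (Subgroup.subgroupOfEquivOfLe h.nR).toEquiv,
          Nat.card_congr (Subgroup.subgroupOfEquivOfLe h.SR).toEquiv]; exact (h.copB h.copS))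
        (Or.inr (haveI := h.pair.solv; Group.isSolvable_of_surjective (Subgroup.subgroupOfEquivOfLe h.nR).symm.surjective (f := (Subgroup.subgroupOfEquivOfLe h.nR).symm.toMonoidHom)))
        O ⟨f, 1, SN.one_mem, one_smul _ _⟩
        (by rintro t ht _ ⟨g, hg, rfl⟩; exact ⟨t * g, SN.mul_mem ht hg, mul_smul _ _ _⟩)
        (fun b hb μ hμ => (MulAction.mem_stabilizer_set_iff_smul_set_subset (Set.toFinite O)).mp (hBQ hb) ⟨μ, hμ, rfl⟩)
        (by rintro _ ⟨g, hg, rfl⟩ _ ⟨g', hg', rfl⟩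
            exact ⟨g' * g⁻¹, SN.mul_mem hg' (SN.inv_mem hg), by rw [← mul_smul, inv_mul_cancel_right]⟩)
      exact (hΛS g hg f hf).1 (hgμ ▸ hnone μ hμ)
    exact fun g hg => hfO _ ⟨g, hg, rfl⟩
  -- centralisers of elements of `B`
  have hcent : ∀ a ∈ B, a ≠ 1 → ∀ s ∈ S, a * s = s * a → ∀ x ∈ R, a * x = x * a → s * x = x * s := by
    intro a ha ha1 s hs has x hx hax
    by_cases hπ1 : π = 1
    · have hle : B ≤ Subgroup.zpowers a := by
        rcases h.pair.cases ha with ha' | ⟨-, -, htop⟩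
        · rw [hπ1, Subgroup.zpowers_one_eq_bot] at ha'
          exact absurd (Subgroup.mem_bot.mp ha') ha1
        · rw [htop, hπ1, Subgroup.zpowers_one_eq_bot, bot_sup_eq]
      have hs1 : s = 1 := Subgroup.mem_bot.mp (h.sfix ▸ (⟨hs, Subgroup.centralizer_le hle
        (Subgroup.mem_centralizer_iff.mpr fun b hb => by
          obtain ⟨i, rfl⟩ := Subgroup.mem_zpowers_iff.mp hb
          exact ((show Commute a s from has).zpow_left i).eq)⟩ : s ∈ S ⊓ Subgroup.centralizer (B : Set (MulAut V))))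
      rw [hs1, one_mul, mul_one]
    by_cases haπ : a ∈ Subgroup.zpowers π
    · obtain ⟨i, hi⟩ := Subgroup.mem_zpowers_iff.mp (h.pair.mem_zpowers_symm h.pair.πB ha1 haπ)
      refine h.cent hπ1 s hs ?_ x hx ?_
      · rw [← hi]; exact ((show Commute a s from has).zpow_left i).eq
      · rw [← hi]; exact ((show Commute a x from hax).zpow_left i).eq
    obtain ⟨ha2, haπi, htop⟩ := (h.pair.cases ha).resolve_left haπ
    have hπR : ∀ y ∈ R, π * y * π⁻¹ ∈ R := fun y hy => (Subgroup.mem_normalizer_iff.mp (h.nR h.pair.πB) y).mp hy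
    have haR : ∀ y ∈ R, a * y * a⁻¹ ∈ R := fun y hy => (Subgroup.mem_normalizer_iff.mp (h.nR ha) y).mp hy
    let πN : N := ⟨π, h.nR h.pair.πB⟩
    -- the part killed by the characters fixed by `π`
    let R0 : Subgroup (MulAut V) :=
      { carrier := {y | ∃ hy : y ∈ R, ∀ f ∈ Λ, πN • f = f → f ⟨y, hy⟩ = 1}
        one_mem' := ⟨R.one_mem, fun f _ _ => map_one f⟩
        mul_mem' := fun {u w} ⟨hu, hu'⟩ ⟨hw, hw'⟩ => ⟨R.mul_mem hu hw, fun f hf hf' => by
          rw [show (⟨u * w, R.mul_mem hu hw⟩ : R) = ⟨u, hu⟩ * ⟨w, hw⟩ from rfl, map_mul, hu' f hf hf', hw' f hf hf', one_mul]⟩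
        inv_mem' := fun {u} ⟨hu, hu'⟩ => ⟨R.inv_mem hu, fun f hf hf' => by
          rw [show (⟨u⁻¹, R.inv_mem hu⟩ : R) = (⟨u, hu⟩ : R)⁻¹ from rfl, map_inv, hu' f hf hf', inv_one]⟩ }
    have hR0R : R0 ≤ R := fun y hy => hy.1
    have hπ3 : ∀ y, π * (π * (π * y * π⁻¹) * π⁻¹) * π⁻¹ = y := fun y => by
      calc _ = π ^ 3 * y * (π ^ 3)⁻¹ := by rw [pow_three]; group
        _ = y := by rw [h.pair.π3]; group
    have hxR0 : x ∈ R0 := by
      refine ⟨hx, fun f hf hπf => ?_⟩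
      have hinvar : ∀ y : R, f ⟨π * y * π⁻¹, hπR y y.2⟩ = f y := by
        intro y
        have e := congrArg (fun g : R →* ℂˣ => g ⟨π * y * π⁻¹, hπR y y.2⟩) hπf
        rw [hsmul πN f _ y (by simp only [πN]; group)] at e
        exact e.symm
      set w : R := ⟨x, hx⟩ * ⟨π * x * π⁻¹, hπR x hx⟩ * ⟨π * (π * x * π⁻¹) * π⁻¹, hπR _ (hπR x hx)⟩
      have hw1 : w = 1 := by
        refine Subtype.ext (Subgroup.mem_bot.mp (h.rfix ▸ (⟨w.2, ?_⟩ : (w : MulAut V) ∈ R ⊓ Subgroup.centralizer (B : Set (MulAut V)))))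
        set y := π * x * π⁻¹
        set z := π * y * π⁻¹
        have hy : y ∈ R := hπR x hx
        have hz : z ∈ R := hπR y hy
        have hperm : z * x * y = x * y * z ∧ x * z * y = x * y * z := by
          refine ⟨?_, by rw [mul_assoc, hR z hz y hy, ← mul_assoc]⟩
          rw [mul_assoc, hR z hz (x * y) (R.mul_mem hx hy)]
        have hπw : π * (x * y * z) = x * y * z * π := by
          calc π * (x * y * z) = (π * x * π⁻¹) * (π * y * π⁻¹) * (π * z * π⁻¹) * π := by group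
            _ = y * z * x * π := by rw [show π * z * π⁻¹ = x from hπ3 x]
            _ = x * y * z * π := by rw [hR (y * z) (R.mul_mem hy hz) x hx, mul_assoc x y z]
        have hconjπ : ∀ u, a * (π * u * π⁻¹) * a⁻¹ = π⁻¹ * (a * u * a⁻¹) * π := fun u => by
          calc a * (π * u * π⁻¹) * a⁻¹ = (a * π * a⁻¹) * (a * u * a⁻¹) * (a * π * a⁻¹)⁻¹ := by group
            _ = _ := by rw [haπi, inv_inv]
        have hax' : a * x * a⁻¹ = x := by rw [hax, mul_inv_cancel_right]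
        have hay : a * y * a⁻¹ = z := by
          rw [hconjπ, hax']
          calc π⁻¹ * x * π = π⁻¹ * (π * z * π⁻¹) * π := by rw [show π * z * π⁻¹ = x from hπ3 x]
            _ = z := by group
        have haz : a * z * a⁻¹ = y := by
          rw [hconjπ, hay]
          show π⁻¹ * (π * y * π⁻¹) * π = y
          group
        have haw : a * (x * y * z) = x * y * z * a := by
          calc a * (x * y * z) = (a * x * a⁻¹) * (a * y * a⁻¹) * (a * z * a⁻¹) * a := by group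
            _ = x * y * z * a := by rw [hax', hay, haz, hperm.2]
        refine Subgroup.mem_centralizer_iff.mpr fun b hb => ?_
        have hle : Subgroup.zpowers π ⊔ Subgroup.zpowers a ≤ Subgroup.centralizer {(w : MulAut V)} := by
          refine sup_le (Subgroup.zpowers_le.mpr ?_) (Subgroup.zpowers_le.mpr ?_)
          · exact Subgroup.mem_centralizer_iff.mpr fun g hg => by rw [Set.mem_singleton_iff.mp hg]; exact hπw.symm
          · exact Subgroup.mem_centralizer_iff.mpr fun g hg => by rw [Set.mem_singleton_iff.mp hg]; exact haw.symm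
        exact (Subgroup.mem_centralizer_iff.mp (hle (htop ▸ hb)) _ rfl).symm
      have e3 : f ⟨x, hx⟩ ^ 3 = 1 := by
        have e := congrArg f hw1
        rw [map_one, map_mul, map_mul, hinvar ⟨π * x * π⁻¹, hπR x hx⟩, hinvar ⟨x, hx⟩] at e
        rw [pow_three, ← mul_assoc]; exact e
      rw [← orderOf_eq_one_iff]
      exact Nat.eq_one_of_dvd_coprimes (h.copR6.coprime_dvd_right (by norm_num : 3 ∣ 6))
        ((orderOf_map_dvd f _).trans (orderOf_dvd_natCard _)) (orderOf_dvd_of_pow_eq_one e3)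
    -- invariance
    have hmap : ∀ g : N, (∀ f ∈ Λ, πN • f = f → g • f ∈ Λ ∧ πN • (g • f) = g • f) → ∀ y ∈ R0,
        (g : MulAut V)⁻¹ * y * g ∈ R0 := by
      intro g hg y hy
      obtain ⟨hy, hy'⟩ := hy
      have hgy : (g : MulAut V)⁻¹ * y * g ∈ R := by simpa using (Subgroup.mem_normalizer_iff.mp (N.inv_mem g.2) y).mp hy
      refine ⟨hgy, fun f hf hπf => ?_⟩
      obtain ⟨hg1, hg2⟩ := hg f hf hπf
      rw [← hsmul g f ⟨y, hy⟩ ⟨_, hgy⟩ rfl]
      exact hy' _ hg1 hg2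
    have hSR0 : S ≤ Subgroup.normalizer (R0 : Set (MulAut V)) := Coprime.le_normalizer_of_conj_mem fun u hu y hy => by
      have hu' : (⟨u, h.SR hu⟩ : N)⁻¹ ∈ SN := SN.inv_mem hu
      have := hmap (⟨u, h.SR hu⟩ : N)⁻¹
        (fun f hf hπf => ⟨hΛS _ hu' f hf, horbit f hf π h.pair.πB hπ1 hπf _ hu'⟩) y hy
      simpa using this
    have hπR0 : π ∈ Subgroup.normalizer (R0 : Set (MulAut V)) := by
      have hconjmem : ∀ y ∈ R0, π * y * π⁻¹ ∈ R0 := by
        rintro y ⟨hy, hy'⟩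
        refine ⟨hπR y hy, fun f hf hπf => ?_⟩
        have e := congrArg (fun g : R →* ℂˣ => g ⟨π * y * π⁻¹, hπR y hy⟩) hπf
        rw [hsmul πN f _ ⟨y, hy⟩ (by simp only [πN]; group)] at e
        exact e.symm.trans (hy' f hf hπf)
      refine Subgroup.mem_normalizer_iff.mpr fun y => ⟨hconjmem y, fun hy => ?_⟩
      have := hconjmem _ (hconjmem _ hy)
      rwa [hπ3] at this
    letI : CommGroup R0 :=
      { (inferInstance : Group R0) with mul_comm := fun u w => Subtype.ext (hR u (hR0R u.2) w (hR0R w.2)) }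
    let θ := R0.normalizerMonoidHom
    set M := (S.subgroupOf (Subgroup.normalizer (R0 : Set (MulAut V)))).map θ
    set πθ := θ ⟨π, hπR0⟩
    have hMcomm : ∀ u ∈ M, ∀ w ∈ M, u * w = w * u := by
      rintro _ ⟨u, hu, rfl⟩ _ ⟨w, hw, rfl⟩
      rw [← commutatorElement_eq_one_iff_mul_comm, ← map_commutatorElement]
      refine MulEquiv.ext fun y => Subtype.ext ?_
      show ⁅(u : MulAut V), (w : MulAut V)⁆ * y * ⁅(u : MulAut V), (w : MulAut V)⁆⁻¹ = y
      rw [h.scomm u hu w hw y (hR0R y.2), mul_inv_cancel_right]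
    have hπM : πθ ∈ Subgroup.normalizer (M : Set (MulAut R0)) := by
      rw [Coprime.mem_normalizer_iff_map_conj_eq, Subgroup.map_map]
      refine Subgroup.eq_of_le_of_card_ge ?_ ?_
      · rintro _ ⟨u, hu, rfl⟩
        refine ⟨⟨π, hπR0⟩ * u * ⟨π, hπR0⟩⁻¹, (Subgroup.mem_normalizer_iff.mp (h.nS h.pair.πB) _).mp hu, ?_⟩
        show θ _ = θ ⟨π, hπR0⟩ * θ u * (θ ⟨π, hπR0⟩)⁻¹
        rw [map_mul, map_mul, map_inv]
      · rw [← Subgroup.map_map]
        exact (Subgroup.card_map_of_injective (f := (MulAut.conj πθ).toMonoidHom) (MulAut.conj πθ).injective).ge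
    have hfixθ : fix (Subgroup.zpowers πθ) = ⊥ := by
      refine (Subgroup.eq_bot_iff_forall _).mpr fun y hy => Subtype.ext ?_
      have hπy : π * (y : MulAut V) = y * π := by
        have e : π * (y : MulAut V) * π⁻¹ = y := congrArg Subtype.val (hy πθ (Subgroup.mem_zpowers _))
        exact mul_inv_eq_iff_eq_mul.mp e
      refine hsepΛ _ (hR0R y.2) fun f hf y' hy' => ?_
      obtain rfl : y' = ⟨y, hR0R y.2⟩ := Subtype.ext hy'
      obtain ⟨b, hb, hb1, hbf⟩ := hΛfix f hf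
      rcases h.pair.cases hb with hbπ | ⟨hb2, hbπi, hbtop⟩
      · obtain ⟨i, hi⟩ := Subgroup.mem_zpowers_iff.mp (h.pair.mem_zpowers_symm h.pair.πB hb1 hbπ)
        obtain ⟨hy0, hy0'⟩ := y.2
        refine hy0' f hf ?_
        rw [show πN = (⟨b, h.nR hb⟩ : N) ^ i from Subtype.ext (by rw [SubgroupClass.coe_zpow]; exact hi.symm)]
        exact MulAction.mem_stabilizer_iff.mp (Subgroup.zpow_mem (MulAction.stabilizer N f) hbf i)
      · have hbR : b * (y : MulAut V) * b⁻¹ ∈ R := (Subgroup.mem_normalizer_iff.mp (h.nR hb) _).mp (hR0R y.2)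
        have hbπ : b * π = π⁻¹ * b := mul_inv_eq_iff_eq_mul.mp hbπi
        have hπinv : π⁻¹ * (y : MulAut V) = y * π⁻¹ := (show Commute π (y : MulAut V) from hπy).inv_left.eq
        have hπb : π * (b * (y : MulAut V) * b⁻¹) = b * (y : MulAut V) * b⁻¹ * π := by
          have e : π = b * π⁻¹ * b⁻¹ := by rw [show b * π⁻¹ * b⁻¹ = (b * π * b⁻¹)⁻¹ by group, hbπi, inv_inv]
          calc π * (b * (y : MulAut V) * b⁻¹) = b * π⁻¹ * b⁻¹ * (b * y * b⁻¹) := by rw [← e]
            _ = b * (π⁻¹ * y) * b⁻¹ := by group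
            _ = b * (y * π⁻¹) * b⁻¹ := by rw [hπinv]
            _ = b * y * b⁻¹ * (b * π⁻¹ * b⁻¹) := by group
            _ = _ := by rw [← e]
        have hbinv : b⁻¹ = b := inv_eq_of_mul_eq_one_right hb2
        have hw : (y : MulAut V) * (b * y * b⁻¹) = 1 := by
          refine Subgroup.mem_bot.mp (h.rfix ▸ (⟨R.mul_mem (hR0R y.2) hbR, Subgroup.centralizer_le hbtop.le ?_⟩ :
            (y : MulAut V) * (b * y * b⁻¹) ∈ R ⊓ Subgroup.centralizer (B : Set (MulAut V))))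
          have hb' : b * ((y : MulAut V) * (b * y * b⁻¹)) = (y : MulAut V) * (b * y * b⁻¹) * b := by
            calc b * ((y : MulAut V) * (b * y * b⁻¹)) = (b * y * b⁻¹) * ((b * b) * y * (b * b)⁻¹) * b := by group
              _ = (b * y * b⁻¹) * y * b := by rw [hb2]; group
              _ = _ := by rw [hR _ hbR _ (hR0R y.2)]
          have hle : Subgroup.zpowers π ⊔ Subgroup.zpowers b ≤ Subgroup.centralizer {(y : MulAut V) * (b * y * b⁻¹)} := by
            refine sup_le (Subgroup.zpowers_le.mpr ?_) (Subgroup.zpowers_le.mpr ?_)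
            · exact Subgroup.mem_centralizer_iff.mpr fun g hg => by
                rw [Set.mem_singleton_iff.mp hg]; exact ((show Commute π (y : MulAut V) from hπy).mul_right hπb).eq.symm
            · exact Subgroup.mem_centralizer_iff.mpr fun g hg => by rw [Set.mem_singleton_iff.mp hg]; exact hb'.symm
          exact Subgroup.mem_centralizer_iff.mpr fun g hg => (Subgroup.mem_centralizer_iff.mp (hle hg) _ rfl).symm
        have e2 : f ⟨y, hR0R y.2⟩ ^ 2 = 1 := by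
          have e := congrArg f (show (⟨y, hR0R y.2⟩ : R) * ⟨_, hbR⟩ = 1 from Subtype.ext hw)
          have e' := congrArg (fun g : R →* ℂˣ => g ⟨_, hbR⟩) hbf
          rw [hsmul _ f _ ⟨y, hR0R y.2⟩ (by simp only; group)] at e'
          rw [map_one, map_mul, ← e'] at e
          rw [pow_two]; exact e
        rw [← orderOf_eq_one_iff]
        exact Nat.eq_one_of_dvd_coprimes (h.copR6.coprime_dvd_right (by norm_num : 2 ∣ 6))
          ((orderOf_map_dvd f _).trans (orderOf_dvd_natCard _)) (orderOf_dvd_of_pow_eq_one e2)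
    have hcopM : (Nat.card M).Coprime (Nat.card R0) :=
      (h.copSR.coprime_dvd_left ((Subgroup.card_map_dvd _ _).trans
        (Nat.card_congr (Subgroup.subgroupOfEquivOfLe hSR0).toEquiv).dvd)).coprime_dvd_right (Subgroup.card_dvd_of_le hR0R)
    have hπθ3 : πθ ^ 3 = 1 := by
      rw [← map_pow, show (⟨π, hπR0⟩ : Subgroup.normalizer (R0 : Set (MulAut V))) ^ 3 = 1 from Subtype.ext h.pair.π3, map_one]
    have hθs := commute_abelian Nat.prime_three hπθ3 hMcomm hπM hcopM hfixθ (θ ⟨s, hSR0 hs⟩) ⟨⟨s, hSR0 hs⟩, hs, rfl⟩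
    -- lift
    let K : Subgroup (MulAut V) := S ⊓ θ.ker.map (Subgroup.normalizer (R0 : Set (MulAut V))).subtype
    have hmemK : ∀ u, ∀ hu : u ∈ S, u ∈ K ↔ θ ⟨u, hSR0 hu⟩ = 1 := fun u hu => by
      refine ⟨fun hk => ?_, fun hk => ⟨hu, ⟨_, hk, rfl⟩⟩⟩
      obtain ⟨w, hw, hwu⟩ := hk.2
      rw [show (⟨u, hSR0 hu⟩ : Subgroup.normalizer (R0 : Set (MulAut V))) = w from Subtype.ext hwu.symm]
      exact hw
    have haR0 : a ∈ Subgroup.normalizer (R0 : Set (MulAut V)) := by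
      have ha' : ∀ y ∈ R0, a * y * a⁻¹ ∈ R0 := by
        rintro y ⟨hy, hy'⟩
        refine ⟨haR y hy, fun f hf hπf => ?_⟩
        set aN : N := ⟨a, h.nR ha⟩
        have e : f ⟨a * y * a⁻¹, haR y hy⟩ = (aN⁻¹ • f) ⟨y, hy⟩ :=
          (hsmul _ f _ ⟨a * y * a⁻¹, haR y hy⟩ (by simp [aN])).symm
        rw [e]
        refine hy' _ (hΛB _ (BN.inv_mem ha) f hf) ?_
        have hc : πN * aN⁻¹ = aN⁻¹ * πN⁻¹ := Subtype.ext (by
          show π * a⁻¹ = a⁻¹ * π⁻¹
          rw [← haπi]; group)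
        rw [← mul_smul, hc, mul_smul]
        exact congrArg (aN⁻¹ • ·) (inv_smul_eq_iff.mpr hπf.symm)
      refine Subgroup.mem_normalizer_iff.mpr fun y => ⟨ha' y, fun hy => ?_⟩
      have := ha' _ hy
      rwa [show a * (a * y * a⁻¹) * a⁻¹ = (a * a) * y * (a * a)⁻¹ by group, ha2, one_mul, inv_one, mul_one] at this
    have hBle : B ≤ Subgroup.normalizer (R0 : Set (MulAut V)) :=
      htop.le.trans (sup_le (Subgroup.zpowers_le.mpr hπR0) (Subgroup.zpowers_le.mpr haR0))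
    have hBK : B ≤ Subgroup.normalizer (K : Set (MulAut V)) := by
      refine Coprime.le_normalizer_of_conj_mem fun b hb u hu => ?_
      have hbu : b * u * b⁻¹ ∈ S := (Subgroup.mem_normalizer_iff.mp (h.nS hb) u).mp hu.1
      refine (hmemK _ hbu).mpr ?_
      rw [show (⟨b * u * b⁻¹, hSR0 hbu⟩ : Subgroup.normalizer (R0 : Set (MulAut V))) =
        ⟨b, hBle hb⟩ * ⟨u, hSR0 hu.1⟩ * ⟨b, hBle hb⟩⁻¹ from rfl, map_mul, map_mul, (hmemK u hu.1).mp hu, mul_one,
        ← map_mul, mul_inv_cancel, map_one]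
    have hBfix : B.subgroupOf (Subgroup.normalizer (R0 : Set (MulAut V))) ≤
        (Subgroup.centralizer {θ ⟨s, hSR0 hs⟩}).comap θ := by
      intro b hb
      have : Subgroup.zpowers π ⊔ Subgroup.zpowers a ≤ ((Subgroup.centralizer {θ ⟨s, hSR0 hs⟩}).comap θ).map
          (Subgroup.normalizer (R0 : Set (MulAut V))).subtype :=
        sup_le (Subgroup.zpowers_le.mpr ⟨⟨π, hπR0⟩, Subgroup.mem_centralizer_iff.mpr (fun g hg => by
            rw [Set.mem_singleton_iff.mp hg]; exact hθs.symm), rfl⟩)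
          (Subgroup.zpowers_le.mpr ⟨⟨a, haR0⟩, Subgroup.mem_centralizer_iff.mpr (fun g hg => by
            rw [Set.mem_singleton_iff.mp hg, ← map_mul, ← map_mul]
            exact congrArg θ (Subtype.ext has.symm)), rfl⟩)
      obtain ⟨q, hq, hqb⟩ := this (htop ▸ hb)
      rwa [show b = q from Subtype.ext hqb.symm]
    obtain ⟨u, ⟨huS, huc⟩, huK⟩ := Coprime.exists_fixed_of_coset hBK
      ((h.copB h.copS).coprime_dvd_right (Subgroup.card_dvd_of_le inf_le_left)) (Or.inr h.pair.solv) h.nS (h.copB h.copS)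
      inf_le_left hs (fun b hb => by
        have hm : s⁻¹ * b * s * b⁻¹ ∈ S := by
          rw [show s⁻¹ * b * s * b⁻¹ = s⁻¹ * (b * s * b⁻¹) by group]
          exact S.mul_mem (S.inv_mem hs) ((Subgroup.mem_normalizer_iff.mp (h.nS hb) s).mp hs)
        refine (hmemK _ hm).mpr ?_
        have hc : θ ⟨b, hBle hb⟩ * θ ⟨s, hSR0 hs⟩ = θ ⟨s, hSR0 hs⟩ * θ ⟨b, hBle hb⟩ :=
          (Subgroup.mem_centralizer_iff.mp (hBfix (x := ⟨b, hBle hb⟩) hb) _ rfl).symm
        rw [show (⟨s⁻¹ * b * s * b⁻¹, hSR0 hm⟩ : Subgroup.normalizer (R0 : Set (MulAut V))) =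
          ⟨s, hSR0 hs⟩⁻¹ * ⟨b, hBle hb⟩ * ⟨s, hSR0 hs⟩ * ⟨b, hBle hb⟩⁻¹ from rfl, map_mul, map_mul, map_mul, map_inv, map_inv,
          mul_assoc _ (θ ⟨b, hBle hb⟩), hc, ← mul_assoc, inv_mul_cancel, one_mul, mul_inv_cancel])
    have hu1 : u = 1 := Subgroup.mem_bot.mp (h.sfix ▸ (⟨huS, huc⟩ : u ∈ S ⊓ Subgroup.centralizer (B : Set (MulAut V))))
    rw [hu1, mul_one] at huK
    have e := (hmemK _ (S.inv_mem hs)).mp huK
    rw [show (⟨s⁻¹, hSR0 (S.inv_mem hs)⟩ : Subgroup.normalizer (R0 : Set (MulAut V))) = ⟨s, hSR0 hs⟩⁻¹ from rfl,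
      map_inv, inv_eq_one] at e
    have e' : s * x * s⁻¹ = x := congrArg Subtype.val (DFunLike.congr_fun e (⟨x, hxR0⟩ : R0))
    exact mul_inv_eq_iff_eq_mul.mp e'
  have key : ∀ f ∈ Λ, ∀ g ∈ SN, g • f = f := by
    intro f hf
    obtain ⟨a, ha, ha1, haf⟩ := hΛfix f hf
    set aN : N := ⟨a, h.nR ha⟩
    let O : Set (R →* ℂˣ) := {μ | ∃ g ∈ SN, g • f = μ}
    have hfO : ∀ μ ∈ O, aN • μ = μ := by
      rintro μ ⟨g0, hg0, rfl⟩
      exact horbit f hf a ha ha1 haf g0 hg0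
    intro g hg
    obtain ⟨c', hc', n, hn, hcn⟩ := Coprime.exists_mul_eq (A := Subgroup.zpowers a) ((Subgroup.zpowers_le.mpr ha).trans h.nS)
      (h.copZ ha h.copS) (Or.inr (solvable_zpowers a)) (g := (g : (MulAut V))) hg
    have hnfix : ⁅S, Subgroup.zpowers a⁆ ≤ (MulAction.stabilizer N f).map N.subtype := by
      refine Subgroup.commutator_le.mpr fun t ht y hy => ?_
      obtain ⟨i, rfl⟩ := Subgroup.mem_zpowers_iff.mp hy
      let tN : N := ⟨t, h.SR ht⟩
      refine ⟨tN * aN ^ i * tN⁻¹ * (aN ^ i)⁻¹, ?_, by simp [commutatorElement_def, SubgroupClass.coe_zpow, tN, aN]⟩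
      have hfix : aN ^ i ∈ MulAction.stabilizer N f := Subgroup.zpow_mem _ haf i
      have hfix2 : aN ^ i ∈ MulAction.stabilizer N (tN⁻¹ • f) :=
        Subgroup.zpow_mem _ (hfO _ ⟨tN⁻¹, SN.inv_mem ht, rfl⟩) i
      show (tN * aN ^ i * tN⁻¹ * (aN ^ i)⁻¹) • f = f
      rw [mul_smul, inv_smul_eq_iff.mpr (MulAction.mem_stabilizer_iff.mp hfix).symm, mul_smul, mul_smul,
        MulAction.mem_stabilizer_iff.mp hfix2, smul_inv_smul]
    obtain ⟨nN, hnN, rfl⟩ := hnfix hn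
    rw [show g = (⟨c', h.SR hc'.1⟩ : N) * nN from Subtype.ext hcn.symm, mul_smul, MulAction.mem_stabilizer_iff.mp hnN]
    -- centralisers of `a`
    have hca : a * c' = c' * a := Subgroup.mem_centralizer_iff.mp hc'.2 a (Subgroup.mem_zpowers a)
    ext x : 1
    have hx' : c'⁻¹ * (x : (MulAut V)) * c' ∈ R := by
      simpa using (Subgroup.mem_normalizer_iff.mp (N.inv_mem (h.SR hc'.1)) x).mp x.2
    rw [hsmul _ f x ⟨_, hx'⟩ rfl]
    obtain ⟨y, hy, z, hz, hyz⟩ := Coprime.exists_mul_eq (A := Subgroup.zpowers a) ((Subgroup.zpowers_le.mpr ha).trans h.nR)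
      (h.copZ ha h.copR6) (Or.inr (solvable_zpowers a)) x.2
    have hya : a * y = y * a := Subgroup.mem_centralizer_iff.mp hy.2 a (Subgroup.mem_zpowers a)
    have hyc : c' * y = y * c' := hcent a ha ha1 c' hc'.1 hca y hy.1 hya
    have hkill : ⁅R, Subgroup.zpowers a⁆ ≤ f.ker.map R.subtype := by
      refine Subgroup.commutator_le.mpr fun k hk b hb => ?_
      obtain ⟨i, rfl⟩ := Subgroup.mem_zpowers_iff.mp hb
      have hb' : a ^ i * k⁻¹ * (a ^ i)⁻¹ ∈ R :=
        (Subgroup.mem_normalizer_iff.mp (h.nR (B.zpow_mem ha i)) _).mp (R.inv_mem hk)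
      refine ⟨⟨k, hk⟩ * ⟨_, hb'⟩, MonoidHom.mem_ker.mpr ?_, by simp [commutatorElement_def, mul_assoc]⟩
      have e := congrArg (fun t : R →* ℂˣ => t ⟨_, hb'⟩)
        (MulAction.mem_stabilizer_iff.mp (Subgroup.zpow_mem (MulAction.stabilizer N f) haf i))
      rw [hsmul _ f _ (⟨k, hk⟩⁻¹ : R) (by simp [mul_assoc, SubgroupClass.coe_zpow, aN])] at e
      rw [map_mul, ← e, ← map_mul, mul_inv_cancel, map_one]
    have hz' : c'⁻¹ * z * c' ∈ ⁅R, Subgroup.zpowers a⁆ := by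
      have hcn' : c'⁻¹ ∈ Subgroup.normalizer ((⁅R, Subgroup.zpowers a⁆ : Subgroup (MulAut V)) : Set (MulAut V)) := by
        refine Subgroup.inv_mem _ (Coprime.mem_normalizer_iff_map_conj_eq.mpr ?_)
        rw [Subgroup.map_commutator, Coprime.mem_normalizer_iff_map_conj_eq.mp (h.SR hc'.1), MonoidHom.map_zpowers,
          show (MulAut.conj c').toMonoidHom a = a by show c' * a * c'⁻¹ = a; rw [← hca, mul_inv_cancel_right]]
      simpa using (Subgroup.mem_normalizer_iff.mp hcn' z).mp hz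
    obtain ⟨z1, hz1, hz1e⟩ := hkill hz
    obtain ⟨z2, hz2, hz2e⟩ := hkill hz'
    rw [show (⟨_, hx'⟩ : R) = ⟨y, hy.1⟩ * z2 from Subtype.ext (show c'⁻¹ * (x : (MulAut V)) * c' = y * (z2 : (MulAut V)) by
        rw [← hyz, show (z2 : (MulAut V)) = c'⁻¹ * z * c' from hz2e]
        calc c'⁻¹ * (y * z) * c' = c'⁻¹ * y * (z * c') := by group
          _ = c'⁻¹ * y * c' * (c'⁻¹ * z * c') := by group
          _ = _ := by rw [mul_assoc c'⁻¹ y c', ← hyc, inv_mul_cancel_left]),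
      show x = ⟨y, hy.1⟩ * z1 from Subtype.ext (hyz.symm.trans (congrArg (y * ·) hz1e.symm)),
      map_mul, map_mul, MonoidHom.mem_ker.mp hz1, MonoidHom.mem_ker.mp hz2]
  -- separation
  intro x hx s hs
  have hzR : s * x * s⁻¹ * x⁻¹ ∈ R :=
    R.mul_mem ((Subgroup.mem_normalizer_iff.mp (h.SR hs) x).mp hx) (R.inv_mem hx)
  have hz1 : s * x * s⁻¹ * x⁻¹ = 1 := hsepΛ _ hzR fun f hfΛ y hy => by
    obtain rfl : y = ⟨_, hzR⟩ := Subtype.ext hy
    have hk := DFunLike.congr_fun (key f hfΛ ⟨s, h.SR hs⟩ hs) ⟨s * x * s⁻¹, (Subgroup.mem_normalizer_iff.mp (h.SR hs) x).mp hx⟩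
    rw [hsmul _ f _ ⟨x, hx⟩ (by simp only; group)] at hk
    rw [show (⟨_, hzR⟩ : R) = ⟨s * x * s⁻¹, (Subgroup.mem_normalizer_iff.mp (h.SR hs) x).mp hx⟩ * ⟨x, hx⟩⁻¹ from rfl,
      map_mul, ← hk, map_inv, mul_inv_cancel]
  rw [mul_inv_eq_one, mul_inv_eq_iff_eq_mul] at hz1
  exact hz1.symm

end CfsgLib.GroupB.FpfS3Commute
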