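import Cfsg.Agent.Lib.GroupB.FpfS3Commute
import Cfsg.Agent.Lib.GroupB.FpfHeight

/-! The symmetric group of degree three acting without fixed points on a solvable group of order prime to six. -/

set_option autoImplicit false

namespace CfsgLib.GroupB.FpfS3Height

open scoped commutatorElement
open CfsgLib.GroupB.FpfRestrict CfsgLib.GroupB.FpfAbelian CfsgLib.GroupB.FpfHeight CfsgLib.GroupB.FpfS3

attribute [local instance] finite_mulAut

universe u

/-- Fixed points lift along a homomorphism under coprime action. -/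
theorem exists_lift_hom {X : Type*} [Group X] [Finite X] {Q : Type*} [Group Q] {N : Subgroup X} (θ : N →* Q)
    {S B : Subgroup X} (hS : S ≤ N) (hB : B ≤ N) (hBS : B ≤ Subgroup.normalizer (S : Set X))
    (hcop : (Nat.card B).Coprime (Nat.card S)) (hsol : Group.IsSolvable B) {s : X} (hs : s ∈ S)
    (hfix : ∀ b, ∀ hb : b ∈ B, θ ⟨b, hB hb⟩ * θ ⟨s, hS hs⟩ = θ ⟨s, hS hs⟩ * θ ⟨b, hB hb⟩) :
    ∃ u, ∃ hu : u ∈ S, (∀ b ∈ B, b * u = u * b) ∧ θ ⟨u, hS hu⟩ = θ ⟨s, hS hs⟩ := by
  set K : Subgroup X := S ⊓ θ.ker.map N.subtype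
  have hmem : ∀ u, ∀ hu : u ∈ S, u ∈ K ↔ θ ⟨u, hS hu⟩ = 1 := fun u hu => by
    refine ⟨fun hk => ?_, fun hk => ⟨hu, ⟨_, hk, rfl⟩⟩⟩
    obtain ⟨w, hw, hwu⟩ := hk.2
    rw [show (⟨u, hS hu⟩ : N) = w from Subtype.ext hwu.symm]
    exact hw
  have hBK : B ≤ Subgroup.normalizer (K : Set X) := by
    refine Coprime.le_normalizer_of_conj_mem fun b hb u hu => ?_
    have hbu : b * u * b⁻¹ ∈ S := (Subgroup.mem_normalizer_iff.mp (hBS hb) u).mp hu.1
    refine (hmem _ hbu).mpr ?_
    rw [show (⟨b * u * b⁻¹, hS hbu⟩ : N) = ⟨b, hB hb⟩ * ⟨u, hS hu.1⟩ * ⟨b, hB hb⟩⁻¹ from rfl, map_mul, map_mul,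
      (hmem u hu.1).mp hu, mul_one, ← map_mul, mul_inv_cancel, map_one]
  obtain ⟨y, ⟨hyS, hyc⟩, hyK⟩ := Coprime.exists_fixed_of_coset hBK
    (hcop.coprime_dvd_right (Subgroup.card_dvd_of_le inf_le_left)) (Or.inr hsol) hBS hcop inf_le_left hs (fun b hb => by
      have hm : s⁻¹ * b * s * b⁻¹ ∈ S := by
        rw [show s⁻¹ * b * s * b⁻¹ = s⁻¹ * (b * s * b⁻¹) by group]
        exact S.mul_mem (S.inv_mem hs) ((Subgroup.mem_normalizer_iff.mp (hBS hb) s).mp hs)
      refine (hmem _ hm).mpr ?_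
      rw [show (⟨s⁻¹ * b * s * b⁻¹, hS hm⟩ : N) = ⟨s, hS hs⟩⁻¹ * ⟨b, hB hb⟩ * ⟨s, hS hs⟩ * ⟨b, hB hb⟩⁻¹ from rfl,
        map_mul, map_mul, map_mul, map_inv, map_inv, mul_assoc _ (θ ⟨b, hB hb⟩), hfix b hb, ← mul_assoc,
        inv_mul_cancel, one_mul, mul_inv_cancel])
  refine ⟨y, hyS, fun b hb => Subgroup.mem_centralizer_iff.mp hyc b hb, ?_⟩
  have hm : s⁻¹ * y ∈ S := S.mul_mem (S.inv_mem hs) hyS
  have := (hmem _ hm).mp hyK
  rw [show (⟨s⁻¹ * y, hS hm⟩ : N) = ⟨s, hS hs⟩⁻¹ * ⟨y, hS hyS⟩ from rfl, map_mul, map_inv, inv_mul_eq_one] at this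
  exact this.symm

/-- A nilpotent group of operators induces an abelian group on an abelian group it normalises. -/
theorem scomm {V : Type*} [CommGroup V] [Finite V] {B R S : Subgroup (MulAut V)} {π t : MulAut V} (h : Pair B π t)
    (hnR : B ≤ Subgroup.normalizer (R : Set (MulAut V))) (hnS : B ≤ Subgroup.normalizer (S : Set (MulAut V)))
    (hSR : S ≤ Subgroup.normalizer (R : Set (MulAut V))) (hR : ∀ x ∈ R, ∀ y ∈ R, x * y = y * x)
    (hR6 : (Nat.card R).Coprime 6) (hS6 : (Nat.card S).Coprime 6) (hcop : (Nat.card S).Coprime (Nat.card R))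
    (hrfix : R ⊓ Subgroup.centralizer (B : Set (MulAut V)) = ⊥) (hsfix : S ⊓ Subgroup.centralizer (B : Set (MulAut V)) = ⊥)
    (hnil : Group.IsNilpotent S)
    (hcent : ∀ s ∈ S, π * s = s * π → ∀ x ∈ R, π * x = x * π → s * x = x * s) :
    ∀ s ∈ S, ∀ s' ∈ S, ∀ x ∈ R, ⁅s, s'⁆ * x = x * ⁅s, s'⁆ := by
  letI : CommGroup R := { (inferInstance : Group R) with mul_comm := fun u w => Subtype.ext (hR u u.2 w w.2) }
  set N := Subgroup.normalizer (R : Set (MulAut V))
  let θ : N →* MulAut R := R.normalizerMonoidHom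
  have hcopB : (Nat.card B).Coprime (Nat.card S) := hS6.symm.coprime_dvd_left h.card
  have hpair : Pair ((B.subgroupOf N).map θ) (θ ⟨π, hnR h.πB⟩) (θ ⟨t, hnR h.tB⟩) := by
    refine Pair.map (B := B.subgroupOf N) (π := (⟨π, hnR h.πB⟩ : N)) (t := (⟨t, hnR h.tB⟩ : N)) ?_ θ
    have e := Subgroup.subgroupOfEquivOfLe hnR
    exact
      { πB := h.πB
        tB := h.tB
        π3 := Subtype.ext h.π3
        t2 := Subtype.ext h.t2
        conj := Subtype.ext h.conj
        top := by
          intro x hx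
          have : Subgroup.zpowers π ⊔ Subgroup.zpowers t ≤
              (Subgroup.zpowers (⟨π, hnR h.πB⟩ : N) ⊔ Subgroup.zpowers (⟨t, hnR h.tB⟩ : N)).map N.subtype := by
            rw [Subgroup.map_sup, MonoidHom.map_zpowers, MonoidHom.map_zpowers]; rfl
          obtain ⟨q, hq, hqx⟩ := this (h.top hx)
          rwa [show x = q from Subtype.ext hqx.symm]
        card := (Nat.card_congr e.toEquiv).dvd.trans h.card
        solv := haveI := h.solv; Group.isSolvable_of_surjective (f := e.symm.toMonoidHom) e.symm.surjective }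
  have hcard : Nat.card ((S.subgroupOf N).map θ) ∣ Nat.card S :=
    (Subgroup.card_map_dvd _ _).trans (Nat.card_congr (Subgroup.subgroupOfEquivOfLe hSR).toEquiv).dvd
  haveI := hnil
  haveI : Group.IsNilpotent (S.subgroupOf N) := Group.nilpotent_of_mulEquiv (Subgroup.subgroupOfEquivOfLe hSR).symm
  have key := comm_of_nilpotent hpair ?_ hR6 (Nat.card ((S.subgroupOf N).map θ)) _ le_rfl
    (Group.nilpotent_of_surjective _ (θ.subgroupMap_surjective (S.subgroupOf N))) ?_ (hS6.coprime_dvd_left hcard)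
    (hcop.coprime_dvd_left hcard) ?_ ?_
  · intro s hs s' hs' x hx
    have e : θ ⁅(⟨s, hSR hs⟩ : N), ⟨s', hSR hs'⟩⁆ = 1 := by
      rw [map_commutatorElement, commutatorElement_eq_one_iff_mul_comm]
      exact key _ ⟨_, hs, rfl⟩ _ ⟨_, hs', rfl⟩
    have e' : ⁅s, s'⁆ * x * ⁅s, s'⁆⁻¹ = x := congrArg Subtype.val (DFunLike.congr_fun e (⟨x, hx⟩ : R))
    exact mul_inv_eq_iff_eq_mul.mp e'
  · refine (Subgroup.eq_bot_iff_forall _).mpr fun y hy => Subtype.ext ?_
    refine Subgroup.mem_bot.mp (hrfix ▸ (⟨y.2, Subgroup.mem_centralizer_iff.mpr fun b hb => ?_⟩ :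
      (y : MulAut V) ∈ R ⊓ Subgroup.centralizer (B : Set (MulAut V))))
    have e : b * (y : MulAut V) * b⁻¹ = y := congrArg Subtype.val (hy (θ ⟨b, hnR hb⟩) ⟨_, hb, rfl⟩)
    exact mul_inv_eq_iff_eq_mul.mp e
  · refine Coprime.le_normalizer_of_conj_mem ?_
    rintro _ ⟨b, hb, rfl⟩ _ ⟨s, hs, rfl⟩
    rw [← map_inv, ← map_mul, ← map_mul]
    exact ⟨b * s * b⁻¹, (Subgroup.mem_normalizer_iff.mp (hnS hb) _).mp hs, rfl⟩
  · refine (Subgroup.eq_bot_iff_forall _).mpr fun y hy => ?_
    obtain ⟨⟨s, hs⟩, hsS, rfl⟩ := hy.1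
    obtain ⟨u, hu, huc, hue⟩ := exists_lift_hom θ hSR hnR hnS hcopB h.solv (s := s) hsS
      (fun b hb => Subgroup.mem_centralizer_iff.mp hy.2 _ ⟨⟨b, hnR hb⟩, hb, rfl⟩)
    have hu1 : u = 1 := Subgroup.mem_bot.mp (hsfix ▸ (⟨hu, Subgroup.mem_centralizer_iff.mpr huc⟩ :
      u ∈ S ⊓ Subgroup.centralizer (B : Set (MulAut V))))
    subst hu1
    rw [← hue]
    exact map_one θ
  · intro _ y' hy' hπy v hv
    obtain ⟨⟨s, hs⟩, hsS, rfl⟩ := hy'
    have hzN : Subgroup.zpowers π ≤ N := Subgroup.zpowers_le.mpr (hnR h.πB)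
    obtain ⟨u, hu, huc, hue⟩ := exists_lift_hom θ hSR hzN (h.zpowers_le.trans hnS)
      (hcopB.coprime_dvd_left (Subgroup.card_dvd_of_le h.zpowers_le)) (solvable_zpowers π) (s := s) hsS (fun b hb => by
        obtain ⟨i, rfl⟩ := Subgroup.mem_zpowers_iff.mp hb
        rw [show (⟨π ^ i, hzN hb⟩ : N) = ⟨π, hnR h.πB⟩ ^ i from Subtype.ext (by rw [SubgroupClass.coe_zpow]), map_zpow]
        exact ((show Commute _ _ from hπy).zpow_left i).eq)
    rw [← hue]
    refine Subtype.ext ?_
    show u * (v : MulAut V) * u⁻¹ = v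
    have hv' : π * (v : MulAut V) * π⁻¹ = v := congrArg Subtype.val hv
    rw [hcent u hu (huc π (Subgroup.mem_zpowers π)) v v.2 (mul_inv_eq_iff_eq_mul.mp hv'), mul_inv_cancel_right]

abbrev S3 := Equiv.Perm (Fin 3)

def π0 : S3 := finRotate 3
def t0 : S3 := Equiv.swap 0 1

theorem s3_facts : π0 ^ 3 = 1 ∧ t0 * t0 = 1 ∧ t0 * π0 * t0⁻¹ = π0⁻¹ ∧
    ∀ a : S3, ∃ i : Fin 3, ∃ j : Fin 2, a = π0 ^ (i : ℕ) * t0 ^ (j : ℕ) := by
  decide

/-- `S₃` acting without fixed points on a solvable group of order prime to six. -/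
theorem isNilpotent_commutator (n : ℕ) : ∀ (G : Type u) [Group G] [Finite G], Nat.card G ≤ n → Group.IsSolvable G →
    (Nat.card G).Coprime 6 → ∀ φ : S3 →* MulAut G, (∀ g, (∀ a, φ a g = g) → g = 1) →
      Group.IsNilpotent (commutator G) := by
  induction n with
  | zero => intro G _ _ h; exact absurd h (by simpa using (Nat.card_pos (α := G)).ne')
  | succ n ih =>
  intro G _ _ hn hG h6 φ hfpf
  classical
  rcases subsingleton_or_nontrivial G with hs | hnt
  · exact Group.isNilpotent_of_subsingleton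
  haveI := hG
  haveI : Fact (Nat.Prime 2) := ⟨Nat.prime_two⟩
  haveI : Fact (Nat.Prime 3) := ⟨Nat.prime_three⟩
  obtain ⟨hπ3, ht2, hconj, hgen⟩ := s3_facts
  have hall : ∀ g, φ π0 g = g → φ t0 g = g → ∀ a, φ a g = g := by
    intro g hπg htg a
    obtain ⟨i, j, rfl⟩ := hgen a
    have h1 : π0 ∈ (MulAction.stabilizer (MulAut G) g).comap φ := hπg
    have h2 : t0 ∈ (MulAction.stabilizer (MulAut G) g).comap φ := htg
    exact Subgroup.mul_mem _ (Subgroup.pow_mem _ h1 i) (Subgroup.pow_mem _ h2 j)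
  have hP3 : IsPGroup 3 (Subgroup.zpowers π0) := by
    refine IsPGroup.of_card (n := 1) ?_
    rw [Nat.card_zpowers, orderOf_eq_prime hπ3 (by decide), pow_one]
  have hP2 : IsPGroup 2 (Subgroup.zpowers t0) := by
    refine IsPGroup.of_card (n := 1) ?_
    rw [Nat.card_zpowers, orderOf_eq_prime (by rw [pow_two, ht2]) (by decide), pow_one]
  have hstab : ∀ (N : Subgroup G) (b : S3), (∀ a, ∀ x ∈ N, φ a x ∈ N) → ∀ (a : Subgroup.zpowers b), ∀ x ∈ N,
      φ.comp (Subgroup.zpowers b).subtype a x ∈ N := fun N b hN a x hx => hN a x hx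
  have hnd : ∀ (N : Subgroup G) (p : ℕ), p.Prime → p ∣ 6 → ¬ p ∣ Nat.card N := fun N p hp hp6 hd =>
    hp.not_dvd_one (h6.gcd_eq_one ▸ Nat.dvd_gcd (hd.trans (Subgroup.card_subgroup_dvd_card N)) hp6)
  -- lifting of fixed points
  have hliftπ : ∀ (N : Subgroup G), (∀ a, ∀ x ∈ N, φ a x ∈ N) → ∀ g, g⁻¹ * φ π0 g ∈ N →
      ∃ y, φ π0 y = y ∧ g⁻¹ * y ∈ N := by
    intro N hN g hg
    obtain ⟨y, hy, hyN⟩ := exists_fixed_mem_coset hP3 (φ.comp (Subgroup.zpowers π0).subtype) N (hstab N π0 hN)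
      (hnd N 3 Nat.prime_three (by norm_num)) (g := g) (fun a => by
        obtain ⟨k, hk⟩ := mem_powers_iff_mem_zpowers.mpr a.2
        show g⁻¹ * φ (a : S3) g ∈ N
        rw [← show π0 ^ k = (a : S3) from hk]
        clear hk
        induction k with
        | zero => simp
        | succ k ihk =>
          rw [pow_succ', map_mul, MulAut.mul_apply,
            show g⁻¹ * φ π0 (φ (π0 ^ k) g) = (g⁻¹ * φ π0 g) * φ π0 (g⁻¹ * φ (π0 ^ k) g) by rw [map_mul, map_inv]; group]
          exact N.mul_mem hg (hN _ _ ihk))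
    exact ⟨y, hy ⟨π0, Subgroup.mem_zpowers π0⟩, hyN⟩
  have hfpfN : ∀ (N : Subgroup G), (∀ a, ∀ x ∈ N, φ a x ∈ N) → ∀ g, (∀ a, g⁻¹ * φ a g ∈ N) → g ∈ N := by
    intro N hN g hg
    obtain ⟨y, hy, hgy⟩ := hliftπ N hN g (hg π0)
    let K : Subgroup G := N ⊓ (φ π0 : G ≃* G).toMonoidHom.eqLocus (MonoidHom.id G)
    have hconj2 : π0 * t0 = t0 * π0⁻¹ := by
      rw [← hconj]; simp only [← mul_assoc, ht2, one_mul, inv_mul_cancel_right]
      rw [show t0⁻¹ = t0 from inv_eq_of_mul_eq_one_right ht2]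
    have hinv : ∀ x, φ π0 x = x → φ π0⁻¹ x = x := fun x hx => by
      conv_lhs => rw [← hx]
      rw [map_inv, MulAut.inv_apply_self]
    have htfix : ∀ x, φ π0 x = x → φ π0 (φ t0 x) = φ t0 x := fun x hx => by
      rw [← MulAut.mul_apply, ← map_mul, hconj2, map_mul, MulAut.mul_apply, hinv x hx]
    have hK : ∀ a : Subgroup.zpowers t0, ∀ x ∈ K, φ.comp (Subgroup.zpowers t0).subtype a x ∈ K := by
      intro a x hx
      refine ⟨hN a x hx.1, ?_⟩
      obtain ⟨k, hk⟩ := mem_powers_iff_mem_zpowers.mpr a.2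
      show φ π0 (φ (a : S3) x) = φ (a : S3) x
      rw [← show t0 ^ k = (a : S3) from hk]
      clear hk
      induction k with
      | zero => rw [pow_zero, map_one]; exact hx.2
      | succ k ihk => rw [pow_succ', map_mul, MulAut.mul_apply]; exact htfix _ ihk
    obtain ⟨z, hz, hyz⟩ := exists_fixed_mem_coset hP2 (φ.comp (Subgroup.zpowers t0).subtype) K hK
      (hnd K 2 Nat.prime_two (by norm_num)) (g := y) (fun a => by
        refine ⟨?_, ?_⟩
        · show y⁻¹ * φ (a : S3) y ∈ N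
          rw [show y⁻¹ * φ (a : S3) y = (g⁻¹ * y)⁻¹ * (g⁻¹ * φ (a : S3) g) * φ (a : S3) (g⁻¹ * y) by rw [map_mul, map_inv]; group]
          exact N.mul_mem (N.mul_mem (N.inv_mem hgy) (hg _)) (hN _ _ hgy)
        · obtain ⟨k, hk⟩ := mem_powers_iff_mem_zpowers.mpr a.2
          show φ π0 (y⁻¹ * φ (a : S3) y) = y⁻¹ * φ (a : S3) y
          have : φ π0 (φ (a : S3) y) = φ (a : S3) y := by
            rw [← show t0 ^ k = (a : S3) from hk]
            clear hk
            induction k with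
            | zero => simpa using hy
            | succ k ihk => rw [pow_succ', map_mul, MulAut.mul_apply]; exact htfix _ ihk
          rw [map_mul, map_inv, hy, this])
    have hz1 : z = 1 := hfpf z (hall z (by
      have := hyz.2
      change φ π0 (y⁻¹ * z) = y⁻¹ * z at this
      rw [map_mul, map_inv, hy] at this
      exact mul_left_cancel this) (hz ⟨t0, Subgroup.mem_zpowers t0⟩))
    have h1 : y ∈ N := by
      have := hyz.1
      rw [hz1, mul_one] at this
      exact N.inv_mem_iff.mp this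
    have h2 := N.mul_mem h1 (N.inv_mem hgy)
    rwa [mul_inv_rev, inv_inv, mul_inv_cancel_left] at h2
  have hquot : ∀ (N : Subgroup G) [N.Normal], (∀ a, ∀ x ∈ N, φ a x ∈ N) → N ≠ ⊥ →
      Group.IsNilpotent (commutator (G ⧸ N)) := by
    intro N _ hNφ hNne
    have hmap : ∀ a, N.map (φ a).toMonoidHom = N := fun a =>
      Subgroup.eq_of_le_of_card_ge (by rintro _ ⟨x, hx, rfl⟩; exact hNφ a x hx)
        (Subgroup.card_map_of_injective (φ a).injective).ge
    let τ : S3 →* MulAut (G ⧸ N) := MonoidHom.mk' (fun a => QuotientGroup.congr N N (φ a) (hmap a))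
      fun a b => MulEquiv.ext fun q => by
        obtain ⟨g, rfl⟩ := QuotientGroup.mk_surjective q
        show QuotientGroup.mk ((φ (a * b)) g) = QuotientGroup.mk ((φ a) ((φ b) g))
        rw [map_mul]; rfl
    refine ih (G ⧸ N) ?_ (Group.isSolvable_of_surjective (QuotientGroup.mk'_surjective N))
      (h6.coprime_dvd_left (Subgroup.card_quotient_dvd_card N)) τ ?_
    · haveI : Nontrivial N := (Subgroup.nontrivial_iff_ne_bot N).mpr hNne
      have h1 := Subgroup.card_eq_card_quotient_mul_card_subgroup N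
      have h2 : 1 < Nat.card N := Finite.one_lt_card
      have h3 : Nat.card (G ⧸ N) * 2 ≤ Nat.card G := h1 ▸ Nat.mul_le_mul_left _ h2
      have := (Nat.card_pos (α := G ⧸ N))
      omega
    · intro q hq
      obtain ⟨g, rfl⟩ := QuotientGroup.mk_surjective q
      exact (QuotientGroup.eq_one_iff g).mpr (hfpfN N hNφ g fun a => QuotientGroup.eq.mp (hq a).symm)
  obtain ⟨q, V0, hq, hV0c, hV0ne, hV0a, -, hV0q⟩ := CfsgLib.GroupB.Hall.exists_characteristic_abelian G
  haveI := Fact.mk hq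
  haveI := hV0c
  obtain ⟨V, hVle, hVmin⟩ := Finite.exists_le_minimal
    (p := fun W : Subgroup G => W ≠ ⊥ ∧ W.Normal ∧ ∀ a, ∀ x ∈ W, φ a x ∈ W) (a := V0)
    ⟨hV0ne, inferInstance, fun a x hx => Subgroup.characteristic_iff_map_le.mp hV0c (φ a) ⟨x, hx, rfl⟩⟩
  obtain ⟨⟨hVne, hVn, hVφ⟩, hVmin⟩ := hVmin
  haveI := hVn
  haveI hVa : IsMulCommutative V := ⟨⟨fun a b => Subtype.ext
    (congrArg Subtype.val (hV0a.is_comm.comm ⟨a, hVle a.2⟩ ⟨b, hVle b.2⟩) : (a : G) * b = b * a)⟩⟩
  letI : CommGroup V := { (inferInstance : Group V) with mul_comm := hVa.is_comm.comm }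
  have hVq : IsPGroup q V := hV0q.to_le hVle
  let ψ : G →* MulAut V := (MulAut.conjNormal : G →* MulAut V)
  set C := ψ.ker with hC
  have hmemC : ∀ g, g ∈ C → ∀ v ∈ V, g * v = v * g := fun g hg v hv => by
    have h : g * v * g⁻¹ = v := congrArg Subtype.val (DFunLike.congr_fun (MonoidHom.mem_ker.mp hg) (⟨v, hv⟩ : V))
    calc g * v = g * v * g⁻¹ * g := by group
      _ = v * g := by rw [h]
  set H := ψ.range with hHdef
  suffices hH : ∀ x ∈ H, ∀ y ∈ H, x * y = y * x by
    set π := QuotientGroup.mk' V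
    have hmap : (commutator G).map π = commutator (G ⧸ V) := by
      rw [commutator_def, Subgroup.map_commutator, Subgroup.map_top_of_surjective _ (QuotientGroup.mk'_surjective V), commutator_def]
    have hle : commutator G ≤ C := by
      rw [commutator_def, Subgroup.commutator_le]
      intro a _ b _
      rw [hC, MonoidHom.mem_ker, map_commutatorElement, commutatorElement_eq_one_iff_mul_comm]
      exact hH _ ⟨a, rfl⟩ _ ⟨b, rfl⟩
    haveI : Group.IsNilpotent ((commutator G).map π) := hmap ▸ hquot V hVφ hVne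
    refine Subgroup.isNilpotent_of_ker_le_center (π.subgroupMap (commutator G)) fun x hx => ?_
    have hxV : (x : G) ∈ V := (QuotientGroup.eq_one_iff _).mp (congrArg Subtype.val (MonoidHom.mem_ker.mp hx))
    exact Subgroup.mem_center_iff.mpr fun y => Subtype.ext (hmemC _ (hle y.2) x hxV)
  -- the action on `V`
  let ρ : S3 →* MulAut V := MonoidHom.mk' (fun a =>
    { toFun := fun v => ⟨φ a v, hVφ a v v.2⟩
      invFun := fun v => ⟨φ a⁻¹ v, hVφ a⁻¹ v v.2⟩
      left_inv := fun v => Subtype.ext (by show φ a⁻¹ (φ a v) = v; rw [map_inv, MulAut.inv_apply_self])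
      right_inv := fun v => Subtype.ext (by show φ a (φ a⁻¹ v) = v; rw [map_inv, MulAut.apply_inv_self])
      map_mul' := fun v w => Subtype.ext (map_mul (φ a) (v : G) w) })
    fun a b => MulEquiv.ext fun v => Subtype.ext (by show φ (a * b) v = φ a (φ b v); rw [map_mul]; rfl)
  have hρψ : ∀ a g, ρ a * ψ g * (ρ a)⁻¹ = ψ (φ a g) := fun a g => MulEquiv.ext fun v => Subtype.ext (by
    show φ a (g * ((ρ a)⁻¹ v : V) * g⁻¹) = φ a g * v * (φ a g)⁻¹
    have : φ a (((ρ a)⁻¹ v : V) : G) = v := congrArg Subtype.val (MulAut.apply_inv_self _ (ρ a) v)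
    rw [map_mul, map_mul, map_inv, this])
  set B := ρ.range with hBdef
  have hpair : Pair B (ρ π0) (ρ t0) :=
    { πB := ⟨π0, rfl⟩
      tB := ⟨t0, rfl⟩
      π3 := by rw [← map_pow, hπ3, map_one]
      t2 := by rw [← map_mul, ht2, map_one]
      conj := by rw [← map_inv, ← map_mul, ← map_mul, hconj, map_inv]
      top := by
        rintro _ ⟨a, rfl⟩
        obtain ⟨i, j, rfl⟩ := hgen a
        rw [map_mul, map_pow, map_pow]
        exact Subgroup.mul_mem _ (Subgroup.mem_sup_left (Subgroup.pow_mem _ (Subgroup.mem_zpowers _) _))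
          (Subgroup.mem_sup_right (Subgroup.pow_mem _ (Subgroup.mem_zpowers _) _))
      card := (Subgroup.card_range_dvd ρ).trans (by rw [Nat.card_eq_fintype_card, Fintype.card_perm, Fintype.card_fin]; rfl)
      solv := by
        haveI : Group.IsSolvable (Subgroup.zpowers (ρ π0)) := solvable_zpowers _
        have hn : ((Subgroup.zpowers (ρ π0)).subgroupOf B).Normal := by
          constructor
          intro x hx g
          obtain ⟨i, hi⟩ := Subgroup.mem_zpowers_iff.mp (show (x : MulAut V) ∈ Subgroup.zpowers (ρ π0) from hx)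
          obtain ⟨a, ha⟩ := g.2
          obtain ⟨i', j', rfl⟩ := hgen a
          show (g : MulAut V) * x * (g : MulAut V)⁻¹ ∈ Subgroup.zpowers (ρ π0)
          rw [← hi, ← conj_zpow]
          refine Subgroup.zpow_mem _ ?_ i
          have hN : ρ π0 ∈ Subgroup.normalizer (Subgroup.zpowers (ρ π0) : Set (MulAut V)) :=
            Subgroup.le_normalizer (Subgroup.mem_zpowers _)
          have hT : ρ t0 ∈ Subgroup.normalizer (Subgroup.zpowers (ρ π0) : Set (MulAut V)) := by
            rw [Coprime.mem_normalizer_iff_map_conj_eq, MonoidHom.map_zpowers]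
            rw [show (MulAut.conj (ρ t0)).toMonoidHom (ρ π0) = (ρ π0)⁻¹ from by
              show ρ t0 * ρ π0 * (ρ t0)⁻¹ = _
              rw [← map_inv, ← map_mul, ← map_mul, hconj, map_inv], Subgroup.zpowers_inv]
          have hg : (g : MulAut V) ∈ Subgroup.normalizer (Subgroup.zpowers (ρ π0) : Set (MulAut V)) := by
            rw [← ha, map_mul, map_pow, map_pow]
            exact Subgroup.mul_mem _ (Subgroup.pow_mem _ hN _) (Subgroup.pow_mem _ hT _)
          exact (Subgroup.mem_normalizer_iff.mp hg _).mp (Subgroup.mem_zpowers _)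
        haveI := hn
        haveI : Group.IsSolvable ((Subgroup.zpowers (ρ π0)).subgroupOf B) :=
          Group.isSolvable_of_isSolvable_injective (f := (Subgroup.subgroupOfEquivOfLe
            (Subgroup.zpowers_le.mpr ⟨π0, rfl⟩ : Subgroup.zpowers (ρ π0) ≤ B)).toMonoidHom) (MulEquiv.injective _)
        haveI : Group.IsSolvable (B ⧸ (Subgroup.zpowers (ρ π0)).subgroupOf B) := by
          refine Group.isSolvable_of_comm fun x y => ?_
          obtain ⟨⟨x, a, rfl⟩, rfl⟩ := QuotientGroup.mk_surjective x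
          obtain ⟨⟨y, b, rfl⟩, rfl⟩ := QuotientGroup.mk_surjective y
          have hgen' : ∀ a : S3, ∃ j : Fin 2, (QuotientGroup.mk ⟨ρ a, a, rfl⟩ : B ⧸ (Subgroup.zpowers (ρ π0)).subgroupOf B) =
              QuotientGroup.mk (⟨ρ t0, t0, rfl⟩ : B) ^ (j : ℕ) := by
            intro a
            obtain ⟨i, j, rfl⟩ := hgen a
            refine ⟨j, ?_⟩
            rw [← QuotientGroup.mk_pow, QuotientGroup.eq]
            show (ρ (π0 ^ (i : ℕ) * t0 ^ (j : ℕ)))⁻¹ * (ρ t0 ^ (j : ℕ)) ∈ Subgroup.zpowers (ρ π0)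
            have hT' : ρ t0 ∈ Subgroup.normalizer (Subgroup.zpowers (ρ π0) : Set (MulAut V)) := by
              rw [Coprime.mem_normalizer_iff_map_conj_eq, MonoidHom.map_zpowers]
              rw [show (MulAut.conj (ρ t0)).toMonoidHom (ρ π0) = (ρ π0)⁻¹ from by
                show ρ t0 * ρ π0 * (ρ t0)⁻¹ = _
                rw [← map_inv, ← map_mul, ← map_mul, hconj, map_inv], Subgroup.zpowers_inv]
            have h1 := (Subgroup.mem_normalizer_iff''.mp (Subgroup.pow_mem _ hT' (j : ℕ)) _).mp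
              (Subgroup.inv_mem _ (Subgroup.pow_mem _ (Subgroup.mem_zpowers (ρ π0)) (i : ℕ)))
            rw [map_mul, map_pow, map_pow, mul_inv_rev]
            exact h1
          obtain ⟨j, hj⟩ := hgen' a
          obtain ⟨k, hk⟩ := hgen' b
          rw [hj, hk, ← pow_add, ← pow_add, add_comm]
        exact Group.isSolvable_of_ker_le_range ((Subgroup.zpowers (ρ π0)).subgroupOf B).subtype
          (QuotientGroup.mk' ((Subgroup.zpowers (ρ π0)).subgroupOf B))
          (by rw [QuotientGroup.ker_mk', Subgroup.range_subtype]) }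
  have hCφ : ∀ a, ∀ x ∈ C, φ a x ∈ C := fun a x hx => MonoidHom.mem_ker.mpr (by
    rw [← hρψ, MonoidHom.mem_ker.mp hx, mul_one, mul_inv_cancel])
  have hBH : B ≤ Subgroup.normalizer (H : Set (MulAut V)) := by
    refine Coprime.le_normalizer_of_conj_mem fun b hb x hx => ?_
    obtain ⟨a, rfl⟩ := hb
    obtain ⟨g, rfl⟩ := hx
    exact ⟨φ a g, (hρψ a g).symm⟩
  have hH6 : (Nat.card H).Coprime 6 := h6.coprime_dvd_left (Subgroup.card_range_dvd ψ)
  have hV6 : (Nat.card V).Coprime 6 := h6.coprime_dvd_left (Subgroup.card_subgroup_dvd_card V)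
  have hHlift : ∀ g a, ρ a * ψ g = ψ g * ρ a → g⁻¹ * φ a g ∈ C := fun g a h => MonoidHom.mem_ker.mpr (by
    rw [map_mul, map_inv, ← hρψ, h, mul_inv_cancel_right, inv_mul_cancel])
  have hrfix : H ⊓ Subgroup.centralizer (B : Set (MulAut V)) = ⊥ := by
    refine (Subgroup.eq_bot_iff_forall _).mpr fun x hx => ?_
    obtain ⟨g, rfl⟩ := hx.1
    exact MonoidHom.mem_ker.mp (hfpfN C hCφ g fun a => hHlift g a (Subgroup.mem_centralizer_iff.mp hx.2 _ ⟨a, rfl⟩))
  have hvfix : fix B = ⊥ := (Subgroup.eq_bot_iff_forall _).mpr fun v hv =>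
    Subtype.ext (hfpf v fun a => congrArg Subtype.val (hv (ρ a) ⟨a, rfl⟩))
  -- fixed points of `π0` commute
  have hKcomm : ∀ g h, φ π0 g = g → φ π0 h = h → g * h = h * g := by
    let K : Subgroup G := (φ π0 : G ≃* G).toMonoidHom.eqLocus (MonoidHom.id G)
    have htK : ∀ x ∈ K, φ t0 x ∈ K := fun x hx => by
      show φ π0 (φ t0 x) = φ t0 x
      have hconj2 : π0 * t0 = t0 * π0⁻¹ := by
        rw [← hconj]; simp only [← mul_assoc, ht2, one_mul, inv_mul_cancel_right]
        rw [show t0⁻¹ = t0 from inv_eq_of_mul_eq_one_right ht2]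
      rw [← MulAut.mul_apply, ← map_mul, hconj2, map_mul, MulAut.mul_apply]
      congr 1
      conv_lhs => rw [← (show φ π0 x = x from hx)]
      rw [map_inv, MulAut.inv_apply_self]
    let σ : K →* K := MonoidHom.mk' (fun x => ⟨φ t0 x, htK x x.2⟩) (fun x y => Subtype.ext (map_mul (φ t0) (x : G) y))
    have hσ : MonoidHom.FixedPointFree σ := fun x hx => Subtype.ext (hfpf x (hall x x.2 (congrArg Subtype.val hx)))
    have hσ2 : Function.Involutive σ := fun x => Subtype.ext (by
      show φ t0 (φ t0 x) = x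
      rw [← MulAut.mul_apply, ← map_mul, ht2, map_one]; rfl)
    exact fun g h hg hh => congrArg Subtype.val (hσ.commute_all_of_involutive hσ2 ⟨g, hg⟩ ⟨h, hh⟩).eq
  have hliftH : ∀ x ∈ H, ρ π0 * x = x * ρ π0 → ∃ y, φ π0 y = y ∧ ψ y = x := by
    rintro _ ⟨g, rfl⟩ h
    obtain ⟨y, hy, hgy⟩ := hliftπ C hCφ g (hHlift g π0 h)
    refine ⟨y, hy, ?_⟩
    have := MonoidHom.mem_ker.mp hgy
    rw [map_mul, map_inv, inv_mul_eq_one] at this
    exact this.symm
  have hcentH : ∀ x ∈ H, ρ π0 * x = x * ρ π0 → ∀ y ∈ H, ρ π0 * y = y * ρ π0 → x * y = y * x := by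
    intro x hx hx' y hy hy'
    obtain ⟨g, hg, rfl⟩ := hliftH x hx hx'
    obtain ⟨g', hg', rfl⟩ := hliftH y hy hy'
    rw [← map_mul, ← map_mul, hKcomm g g' hg hg']
  have hcentV : ρ π0 ≠ 1 → ∀ x ∈ H, ρ π0 * x = x * ρ π0 → ∀ v, ρ π0 v = v → x v = v := by
    intro _ x hx hx' v hv
    obtain ⟨g, hg, rfl⟩ := hliftH x hx hx'
    refine Subtype.ext ?_
    show g * (v : G) * g⁻¹ = v
    rw [hKcomm g v hg (congrArg Subtype.val hv), mul_inv_cancel_right]
  -- normal `q`-subgroups act trivially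
  have hqtriv : ∀ R : Subgroup (MulAut V), H ≤ Subgroup.normalizer (R : Set (MulAut V)) →
      B ≤ Subgroup.normalizer (R : Set (MulAut V)) → IsPGroup q R → R = ⊥ := by
    intro R hHR hBR hRq
    letI : MulAction R V := MulAction.compHom V R.subtype
    haveI : Nontrivial V := (Subgroup.nontrivial_iff_ne_bot V).mpr hVne
    have hdvd : q ∣ Nat.card V := by
      obtain ⟨i, hi⟩ := IsPGroup.iff_card.mp hVq
      rw [hi]
      refine dvd_pow_self q fun h => ?_
      rw [h, pow_zero] at hi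
      exact (Finite.one_lt_card (α := V)).ne' hi
    obtain ⟨v, hv, hvne⟩ := hRq.exists_fixed_point_of_prime_dvd_card_of_fixed_point V hdvd (a := 1) fun g => map_one (g : MulAut V)
    let W : Subgroup G := (fix R).map V.subtype
    have hWn : W.Normal := ⟨fun y hy g => by
      obtain ⟨w, hw, rfl⟩ := hy
      exact ⟨ψ g w, smul_mem_fix (hHR ⟨g, rfl⟩) hw, rfl⟩⟩
    have hWφ : ∀ a, ∀ y ∈ W, φ a y ∈ W := fun a y hy => by
      obtain ⟨w, hw, rfl⟩ := hy
      exact ⟨ρ a w, smul_mem_fix (hBR ⟨a, rfl⟩) hw, rfl⟩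
    have hVW : V ≤ W := hVmin ⟨fun h => hvne (Subtype.ext (Subgroup.mem_bot.mp (h ▸
      (⟨v, fun z hz => hv ⟨z, hz⟩, rfl⟩ : (v : G) ∈ W))).symm), hWn, hWφ⟩ (Subgroup.map_subtype_le _)
    refine (Subgroup.eq_bot_iff_forall _).mpr fun x hx => MulEquiv.ext fun w => ?_
    obtain ⟨w', hw', hww⟩ := hVW w.2
    rw [← show w' = w from Subtype.ext hww]
    exact hw' x hx
  have hII : ∀ R : Subgroup (MulAut V), R ≤ H → B ≤ Subgroup.normalizer (R : Set (MulAut V)) →
      ∀ r : ℕ, r.Prime → r ≠ q → IsPGroup r R → ∀ x ∈ R, ∀ y ∈ R, x * y = y * x := by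
    intro R hRH hBR r hr hrq hRr
    haveI := Fact.mk hr
    exact comm_of_nilpotent hpair hvfix hV6 (Nat.card R) R le_rfl hRr.isNilpotent hBR
      (hH6.coprime_dvd_left (Subgroup.card_dvd_of_le hRH)) (IsPGroup.coprime_card_of_ne r q hrq R V hRr hVq)
      (le_bot_iff.mp ((inf_le_inf_right _ hRH).trans hrfix.le)) fun h1 x hx => hcentV h1 x (hRH hx)
  -- the action of `S₃` on `H`
  have hHφ : ∃ φH : S3 →* MulAut H, ∀ h, (∀ a, φH a h = h) → h = 1 := by
    have hmem : ∀ a, ∀ h : H, ρ a * h * (ρ a)⁻¹ ∈ H := fun a h =>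
      (Subgroup.mem_normalizer_iff.mp (hBH ⟨a, rfl⟩) h).mp h.2
    let f : S3 → H →* H := fun a => MonoidHom.mk' (fun h => ⟨_, hmem a h⟩)
      (fun x y => Subtype.ext (by show ρ a * (x * y : MulAut V) * (ρ a)⁻¹ = (ρ a * x * (ρ a)⁻¹) * (ρ a * y * (ρ a)⁻¹); group))
    refine ⟨MonoidHom.mk' (fun a => MulEquiv.ofBijective (f a) (Finite.injective_iff_bijective.mp fun x y h =>
      Subtype.ext (mul_left_cancel (mul_right_cancel (congrArg Subtype.val h))))) (fun a b => MulEquiv.ext fun h =>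
        Subtype.ext (by
          show ρ (a * b) * h * (ρ (a * b))⁻¹ = ρ a * (ρ b * h * (ρ b)⁻¹) * (ρ a)⁻¹
          rw [map_mul]; group)), fun h hh => Subtype.ext (Subgroup.mem_bot.mp (hrfix ▸ ⟨h.2, ?_⟩))⟩
    rintro _ ⟨a, rfl⟩
    have := congrArg Subtype.val (hh a)
    exact mul_inv_eq_iff_eq_mul.mp this
  have hcardH : Nat.card H ≤ n := by
    have h1 : Nat.card H * Nat.card C = Nat.card G := by
      rw [hHdef, hC, ← Nat.card_congr (QuotientGroup.quotientKerEquivRange ψ).toEquiv,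
        ← Subgroup.card_eq_card_quotient_mul_card_subgroup]
    have hVC : V ≤ C := fun v hv => MonoidHom.mem_ker.mpr (MulEquiv.ext fun w => Subtype.ext (by
      show v * (w : G) * v⁻¹ = w
      rw [show v * (w : G) = w * v from congrArg Subtype.val (hVa.is_comm.comm ⟨v, hv⟩ w), mul_inv_cancel_right]))
    haveI : Nontrivial C := (Subgroup.nontrivial_iff_ne_bot C).mpr fun he => hVne (le_bot_iff.mp (he ▸ hVC))
    have h2 : 1 < Nat.card C := Finite.one_lt_card
    have := (Nat.card_pos (α := H))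
    nlinarith
  haveI hsolH : Group.IsSolvable H := Group.isSolvable_of_surjective ψ.rangeRestrict_surjective
  obtain ⟨φH, hφH⟩ := hHφ
  have hj := ih H hcardH hsolH hH6 φH hφH
  set F0 := commutator H with hF0
  haveI := hj
  have hcopB : (Nat.card B).Coprime (Nat.card H) := hH6.symm.coprime_dvd_left hpair.card
  -- `H` is nilpotent
  have hnilH : Group.IsNilpotent H := by
    suffices hsyl : ∀ s : ℕ, Fact s.Prime → ∀ S : Sylow s H, (S : Subgroup H).Normal from
      ((Group.isNilpotent_of_finite_tfae (G := H)).out 0 3).mpr hsyl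
    intro s hs S'
    obtain ⟨⟨S, hS, hSB⟩, -⟩ := Coprime.invariant_sylow hBH hcopB (Or.inr hpair.solv) s
    obtain ⟨T, hT⟩ := hS.exists_sylow
    suffices hTn : (T : Subgroup H).Normal by
      letI := Sylow.unique_of_normal T hTn
      rwa [Subsingleton.elim S' T]
    have hSsyl : (T : Subgroup H).map H.subtype = S := hT
    have hSH : S ≤ H := hSsyl ▸ Subgroup.map_subtype_le _
    have hTF : F0 ≤ Subgroup.normalizer ((T : Subgroup H) : Set H) := by
      refine inf_eq_left.mp (Subgroup.eq_of_le_of_card_ge inf_le_left (Nat.le_of_dvd Nat.card_pos ?_))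
      refine (Nat.factorization_prime_le_iff_dvd Nat.card_pos.ne' Nat.card_pos.ne').mp fun r hr => ?_
      haveI := Fact.mk hr
      obtain ⟨Q⟩ : Nonempty (Sylow r F0) := inferInstance
      have h03 : Group.IsNilpotent F0 ↔ ∀ (r : ℕ), Fact r.Prime → ∀ P : Sylow r F0, (P : Subgroup F0).Normal :=
        (Group.isNilpotent_of_finite_tfae (G := F0)).out 0 3
      have hQn : (Q : Subgroup F0).Normal := h03.mp hj r inferInstance Q
      haveI := Sylow.characteristic_of_normal Q hQn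
      set R0 := (Q : Subgroup F0).map F0.subtype with hR0
      have hR0F : R0 ≤ F0 := Subgroup.map_subtype_le _
      refine (hr.pow_dvd_iff_le_factorization Nat.card_pos.ne').mp ?_
      rw [← Q.card_eq_multiplicity, ← Subgroup.card_map_of_injective F0.subtype_injective]
      refine Subgroup.card_dvd_of_le (le_inf hR0F ?_)
      have hR0char : ∀ e : H ≃* H, R0.map e.toMonoidHom ≤ R0 := by
        rintro e _ ⟨_, ⟨x, hx, rfl⟩, rfl⟩
        have hF : F0.map e.toMonoidHom = F0 :=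
          Subgroup.characteristic_iff_map_eq.mp (inferInstance : F0.Characteristic) e
        let e' : F0 ≃* F0 := (e.subgroupMap F0).trans (MulEquiv.subgroupCongr hF)
        exact ⟨e' x, Subgroup.characteristic_iff_map_le.mp (inferInstance : (Q : Subgroup F0).Characteristic) e' ⟨x, hx, rfl⟩, rfl⟩
      haveI hR0n : R0.Normal := ⟨fun x hx g => hR0char (MulAut.conj g) ⟨x, hx, rfl⟩⟩
      have hR0r : IsPGroup r R0 := Q.isPGroup'.map _
      by_cases hrs : r = s
      · subst hrs
        intro x hx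
        have hle := CfsgLib.Core.sylow_inf_le T hR0r (N := R0)
        exact Subgroup.le_normalizer (hle hx)
      set R := R0.map H.subtype with hRdef
      have hRH : R ≤ H := Subgroup.map_subtype_le _
      have hHR : H ≤ Subgroup.normalizer (R : Set (MulAut V)) := by
        refine Coprime.le_normalizer_of_conj_mem fun g hg x hx => ?_
        obtain ⟨y, hy, rfl⟩ := hx
        exact ⟨_, hR0n.conj_mem y hy ⟨g, hg⟩, rfl⟩
      have hBR : B ≤ Subgroup.normalizer (R : Set (MulAut V)) := by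
        refine Coprime.le_normalizer_of_conj_mem fun b hb x hx => ?_
        obtain ⟨y, hy, rfl⟩ := hx
        have hmem : ∀ h : H, b * h * b⁻¹ ∈ H := fun h => (Subgroup.mem_normalizer_iff.mp (hBH hb) h).mp h.2
        let e : H ≃* H := MulEquiv.ofBijective
          (MonoidHom.mk' (fun h : H => (⟨_, hmem h⟩ : H)) fun x y => Subtype.ext (by
            show b * (x * y : MulAut V) * b⁻¹ = (b * x * b⁻¹) * (b * y * b⁻¹); group))
          (Finite.injective_iff_bijective.mp fun x y h =>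
            Subtype.ext (mul_left_cancel (mul_right_cancel (congrArg Subtype.val h))))
        exact ⟨_, hR0char e ⟨y, hy, rfl⟩, rfl⟩
      have hRr : IsPGroup r R := hR0r.map _
      have hTR : ∀ x ∈ R, ∀ y ∈ S, x * y = y * x := by
        by_cases hrq : r = q
        · subst hrq
          rw [hqtriv R hHR hBR hRr]
          intro x hx y _
          rw [Subgroup.mem_bot.mp hx, one_mul, mul_one]
        have hRc := hII R hRH hBR r hr hrq hRr
        have hSs : IsPGroup s S := hS.isPGroup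
        have hS6 : (Nat.card S).Coprime 6 := hH6.coprime_dvd_left (Subgroup.card_dvd_of_le hSH)
        have hR6 : (Nat.card R).Coprime 6 := hH6.coprime_dvd_left (Subgroup.card_dvd_of_le hRH)
        have hcopSR : (Nat.card S).Coprime (Nat.card R) := IsPGroup.coprime_card_of_ne s r (Ne.symm hrs) S R hSs hRr
        have hrR := le_bot_iff.mp ((inf_le_inf_right (Subgroup.centralizer (B : Set (MulAut V))) hRH).trans hrfix.le)
        have hrS := le_bot_iff.mp ((inf_le_inf_right (Subgroup.centralizer (B : Set (MulAut V))) hSH).trans hrfix.le)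
        have hcent : ∀ y ∈ S, ρ π0 * y = y * ρ π0 → ∀ x ∈ R, ρ π0 * x = x * ρ π0 → y * x = x * y :=
          fun y hy hy' x hx hx' => hcentH y (hSH hy) hy' x (hRH hx) hx'
        exact FpfS3Commute.commute_of_acts
          { pair := hpair, nR := hBR, nS := hSB, SR := hSH.trans hHR
            copR := IsPGroup.coprime_card_of_ne r q hrq R V hRr hVq
            copR6 := hR6, copS := hS6, copSR := hcopSR, vfix := hvfix, rfix := hrR, sfix := hrS
            cent := fun _ => hcent
            scomm := scomm hpair hBR hSB (hSH.trans hHR) hRc hR6 hS6 hcopSR hrR hrS hSs.isNilpotent hcent } hRc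
      intro x hx
      refine Subgroup.mem_normalizer_iff.mpr fun y => ?_
      have key : ∀ y : H, y ∈ (T : Subgroup H) → x * y * x⁻¹ = y := fun y hy => Subtype.ext (by
        show (x : MulAut V) * y * (x : MulAut V)⁻¹ = y
        rw [hTR x ⟨x, hx, rfl⟩ y (hSsyl ▸ Subgroup.mem_map_of_mem _ hy), mul_inv_cancel_right])
      refine ⟨fun hy => (key y hy).symm ▸ hy, fun hy => ?_⟩
      have := (MulAut.conj x).injective (key _ hy)
      rwa [show x * y * x⁻¹ = y from this] at hy
    haveI hF0n : F0.Normal := inferInstance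
    set π1 := QuotientGroup.mk' F0
    haveI hQnil : Group.IsNilpotent (H ⧸ F0) := by
      refine Subgroup.nilpotent_iff_lowerCentralSeries.mpr ⟨1, ?_⟩
      rw [← Subgroup.map_top_of_surjective _ (QuotientGroup.mk'_surjective F0), ← Subgroup.map_lowerCentralSeries,
        Subgroup.top_lowerCentralSeries_one, QuotientGroup.map_mk'_self]
    have h03 : Group.IsNilpotent (H ⧸ F0) ↔ ∀ (r : ℕ), Fact r.Prime → ∀ P : Sylow r (H ⧸ F0), (P : Subgroup (H ⧸ F0)).Normal :=
      (Group.isNilpotent_of_finite_tfae (G := H ⧸ F0)).out 0 3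
    have hnT : ((T : Subgroup H).map π1).Normal :=
      h03.mp hQnil s hs (T.mapSurjective (QuotientGroup.mk'_surjective F0))
    haveI hsupn : ((T : Subgroup H) ⊔ F0).Normal := by
      have := hnT.comap π1
      rwa [Subgroup.comap_map_eq, QuotientGroup.ker_mk'] at this
    have := Sylow.normalizer_sup_eq_top' (N := (T : Subgroup H) ⊔ F0) T le_sup_left
    exact Subgroup.normalizer_eq_top_iff.mp (top_le_iff.mp (this.ge.trans (sup_le le_rfl (sup_le Subgroup.le_normalizer hTF))))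
  -- the Sylow subgroups of `H` are abelian
  have h03 : Group.IsNilpotent H ↔ ∀ (r : ℕ), Fact r.Prime → ∀ P : Sylow r H, (P : Subgroup H).Normal :=
    (Group.isNilpotent_of_finite_tfae (G := H)).out 0 3
  have h04 : Group.IsNilpotent H ↔ Nonempty ((∀ p : (Nat.card H).primeFactors, ∀ P : Sylow p H, P) ≃* H) :=
    (Group.isNilpotent_of_finite_tfae (G := H)).out 0 4
  obtain ⟨e⟩ := h04.mp hnilH
  have hP : ∀ (p : (Nat.card H).primeFactors) (P : Sylow p H), ∀ a b : P, a * b = b * a := by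
    intro p P
    haveI : Fact (Nat.Prime (p : ℕ)) := ⟨Nat.prime_of_mem_primeFactors p.2⟩
    haveI := Sylow.characteristic_of_normal P (h03.mp hnilH (p : ℕ) inferInstance P)
    set R := (P : Subgroup H).map H.subtype
    have hRH : R ≤ H := Subgroup.map_subtype_le _
    have hRp : IsPGroup (p : ℕ) R := P.isPGroup'.map _
    have hHR : H ≤ Subgroup.normalizer (R : Set (MulAut V)) := by
      refine Coprime.le_normalizer_of_conj_mem fun g hg x hx => ?_
      obtain ⟨y, hy, rfl⟩ := hx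
      exact ⟨_, (inferInstance : (P : Subgroup H).Normal).conj_mem y hy ⟨g, hg⟩, rfl⟩
    have hBR : B ≤ Subgroup.normalizer (R : Set (MulAut V)) := by
      refine Coprime.le_normalizer_of_conj_mem fun b hb x hx => ?_
      obtain ⟨y, hy, rfl⟩ := hx
      have hmem : ∀ h : H, b * h * b⁻¹ ∈ H := fun h => (Subgroup.mem_normalizer_iff.mp (hBH hb) h).mp h.2
      let e : H ≃* H := MulEquiv.ofBijective
        (MonoidHom.mk' (fun h : H => (⟨_, hmem h⟩ : H)) fun x y => Subtype.ext (by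
          show b * (x * y : MulAut V) * b⁻¹ = (b * x * b⁻¹) * (b * y * b⁻¹); group))
        (Finite.injective_iff_bijective.mp fun x y h =>
          Subtype.ext (mul_left_cancel (mul_right_cancel (congrArg Subtype.val h))))
      exact ⟨_, Subgroup.characteristic_iff_map_le.mp (inferInstance : (P : Subgroup H).Characteristic) e ⟨y, hy, rfl⟩, rfl⟩
    have hRcomm : ∀ x ∈ R, ∀ y ∈ R, x * y = y * x := by
      by_cases hpq : (p : ℕ) = q
      · intro x hx y _
        have hbot := hqtriv R hHR hBR (hpq ▸ hRp)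
        have hx1 : x = 1 := Subgroup.mem_bot.mp (show x ∈ (⊥ : Subgroup (MulAut V)) by rw [← hbot]; exact hx)
        rw [hx1, one_mul, mul_one]
      · exact hII R hRH hBR _ (Fact.out) hpq hRp
    intro a b
    exact Subtype.ext (Subtype.ext (hRcomm _ ⟨(a : H), a.2, rfl⟩ _ ⟨(b : H), b.2, rfl⟩))
  intro x hx y hy
  have h : e.symm ⟨x, hx⟩ * e.symm ⟨y, hy⟩ = e.symm ⟨y, hy⟩ * e.symm ⟨x, hx⟩ := by
    funext p P
    exact hP p P _ _
  rw [← map_mul, ← map_mul] at h
  exact congrArg Subtype.val (e.symm.injective h)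

end CfsgLib.GroupB.FpfS3Height
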