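import Cfsg.Agent.Lib.GroupB.Small
import Mathlib.LinearAlgebra.Matrix.ToLin
import Mathlib.LinearAlgebra.Matrix.NonsingularInverse
import Mathlib.Algebra.Group.TypeTags.Finite
import Mathlib.Algebra.Module.Equiv.Basic

/-! Frobenius complements from fixed-point-free linear actions. -/

set_option autoImplicit false

namespace CfsgLib.GroupB.FrobExamples

universe u v

open CfsgLib.GroupB

theorem exists_complement_of_fpf {V : Type u} [AddCommGroup V] [Finite V] [Nontrivial V] {H : Type v}
    [Group H] [Finite H] [Nontrivial H] (ρ : H → V → V) (hρadd : ∀ h v w, ρ h (v + w) = ρ h v + ρ h w)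
    (hρone : ∀ v, ρ 1 v = v) (hρmul : ∀ g h v, ρ (g * h) v = ρ g (ρ h v))
    (hfpf : ∀ h : H, h ≠ 1 → ∀ v : V, ρ h v = v → v = 0) :
    ∃ (L : Type) (_ : Group L) (_ : Finite L) (C : Subgroup L),
      Cfsg.IsFrobeniusComplement C ∧ Nonempty (H ≃* C) := by
  let φ : H →* MulAut (Multiplicative V) := MonoidHom.mk' (fun h =>
    { toFun := fun v => Multiplicative.ofAdd (ρ h v.toAdd)
      invFun := fun v => Multiplicative.ofAdd (ρ h⁻¹ v.toAdd)
      left_inv := fun v => by simp [← hρmul, hρone]
      right_inv := fun v => by simp [← hρmul, hρone]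
      map_mul' := fun v w => by simp [hρadd] })
    (fun g h => MulEquiv.ext fun v => by simp [hρmul])
  have hfin : Finite (SemidirectProduct (Multiplicative V) H φ) :=
    Finite.of_equiv _ SemidirectProduct.equivProd.symm
  exact Small.exists_type_complement _
    (Small.isFrobeniusComplement_inr φ fun h hh v hv =>
      Multiplicative.toAdd.injective (hfpf h hh v.toAdd (congrArg Multiplicative.toAdd hv)))
    (MonoidHom.ofInjective (SemidirectProduct.inr_injective (φ := φ)))

open Matrix in
/-- A matrix representation in which `ρ h - 1` is invertible for `h ≠ 1`. -/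
theorem exists_complement_of_matrix {R : Type u} [CommRing R] [Finite R] [Nontrivial R] {n : ℕ}
    {H : Type v} [Group H] [Finite H] [Nontrivial H] (hn : 0 < n)
    (ρ : H →* Matrix (Fin n) (Fin n) R) (hfpf : ∀ h : H, h ≠ 1 → IsUnit (ρ h - 1).det) :
    ∃ (L : Type) (_ : Group L) (_ : Finite L) (C : Subgroup L),
      Cfsg.IsFrobeniusComplement C ∧ Nonempty (H ≃* C) := by
  haveI : Nonempty (Fin n) := ⟨⟨0, hn⟩⟩
  refine exists_complement_of_fpf (V := Fin n → R) (fun h v => ρ h *ᵥ v)
    (fun h v w => mulVec_add _ v w) (fun v => by simp) (fun g h v => by simp [mulVec_mulVec])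
    (fun h hh v hv => ?_)
  have hinj := Matrix.mulVec_injective_of_isUnit ((Matrix.isUnit_iff_isUnit_det _).mpr (hfpf h hh))
  exact hinj (show (ρ h - 1) *ᵥ v = (ρ h - 1) *ᵥ 0 by rw [sub_mulVec, one_mulVec, hv, sub_self, mulVec_zero])

end CfsgLib.GroupB.FrobExamples
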