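import Cfsg.Agent.Lib.GroupB.FrobBasic
import Mathlib.LinearAlgebra.Determinant
import Mathlib.Algebra.Module.ZMod
import Mathlib.Tactic

/-! Frobenius kernels admitting quaternion action have square order. -/

set_option autoImplicit false

namespace CfsgLib.GroupB.FrobSquare

open Cfsg

universe u

theorem even_finrank {p : ℕ} [Fact p.Prime] (hp : p ≠ 2) {V : Type u} [AddCommGroup V] [Module (ZMod p) V]
    [Finite V] (a b : V ≃+ V) (h : ∀ v, a (b v) = - b (a v)) : Even (Module.finrank (ZMod p) V) := by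
  haveI : FiniteDimensional (ZMod p) V := Module.Finite.of_finite
  let A : V →ₗ[ZMod p] V := a.toAddMonoidHom.toZModLinearMap p
  let B : V →ₗ[ZMod p] V := b.toAddMonoidHom.toZModLinearMap p
  have hu : ∀ (c : V ≃+ V), IsUnit (LinearMap.det (c.toAddMonoidHom.toZModLinearMap p)) := by
    intro c
    refine LinearMap.isUnit_iff_isUnit_det _ |>.mp ((Module.End.isUnit_iff _).mpr c.bijective)
  have hAB : A * B = (-1 : ZMod p) • (B * A) := by
    ext v
    simp [A, B, h v]
  have hd := congrArg LinearMap.det hAB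
  rw [map_mul, LinearMap.det_smul, map_mul, mul_comm (LinearMap.det B)] at hd
  have hne : LinearMap.det A * LinearMap.det B ≠ 0 := ((hu a).mul (hu b)).ne_zero
  have h1 : (-1 : ZMod p) ^ Module.finrank (ZMod p) V = 1 :=
    (mul_eq_right₀ hne).mp hd.symm
  by_contra hev
  rw [Nat.not_even_iff_odd] at hev
  rw [hev.neg_one_pow] at h1
  haveI : Fact (2 < p) := ⟨by have := (Fact.out : p.Prime).two_le; omega⟩
  exact ZMod.neg_one_ne_one h1

theorem isSquare_card (n : ℕ) : ∀ (A : Type u) [AddCommGroup A] [Finite A], Nat.card A = n → Odd n →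
    ∀ a b : A ≃+ A, (∀ v, a (b v) = - b (a v)) → IsSquare n := by
  induction n using Nat.strong_induction_on with
  | _ n ih =>
    intro A _ _ hn hodd a b h
    by_cases h1 : n = 1
    · exact h1 ▸ ⟨1, rfl⟩
    have hp : n.minFac.Prime := Nat.minFac_prime h1
    set p := n.minFac
    haveI := Fact.mk hp
    have hp2 : p ≠ 2 := fun e => (Nat.not_even_iff_odd.mpr hodd) (even_iff_two_dvd.mpr (e ▸ n.minFac_dvd))
    let f : A →+ A := nsmulAddMonoidHom p
    have hres : ∀ (c : A ≃+ A), f.ker.map c.toAddMonoidHom = f.ker ∧ f.range.map c.toAddMonoidHom = f.range := by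
      intro c
      constructor
      · ext x
        constructor
        · rintro ⟨y, hy, rfl⟩
          show p • c y = 0
          rw [← map_nsmul, show p • y = 0 from hy, map_zero]
        · intro hx
          refine ⟨c.symm x, ?_, c.apply_symm_apply x⟩
          show p • c.symm x = 0
          rw [← map_nsmul, show p • x = 0 from hx, map_zero]
      · ext x
        constructor
        · rintro ⟨_, ⟨y, rfl⟩, rfl⟩
          exact ⟨c y, (map_nsmul c p y).symm⟩
        · rintro ⟨y, rfl⟩
          exact ⟨p • c.symm y, ⟨c.symm y, rfl⟩, by simp [f]⟩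
    let res : ∀ (S : AddSubgroup A) (c : A ≃+ A), S.map c.toAddMonoidHom = S → (S ≃+ S) := fun S c hc =>
      (c.addSubgroupMap S).trans ((AddEquiv.addSubgroupCongr hc))
    have hres' : ∀ (S : AddSubgroup A) (c : A ≃+ A) (hc : S.map c.toAddMonoidHom = S) (v : S),
        (res S c hc v : A) = c v := fun S c hc v => rfl
    have hcard : Nat.card f.ker * Nat.card f.range = n := by
      rw [← hn, ← AddSubgroup.index_ker f, f.ker.card_mul_index]
    -- the kernel
    letI : Module (ZMod p) f.ker := AddCommGroup.zmodModule fun v => Subtype.ext (by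
      rw [AddSubgroup.coe_nsmul]; exact v.2)
    have hev : Even (Module.finrank (ZMod p) f.ker) := even_finrank hp2 (res _ a (hres a).1) (res _ b (hres b).1)
      fun v => Subtype.ext (by rw [AddSubgroup.coe_neg, hres', hres', hres', hres', h])
    haveI : Fintype f.ker := Fintype.ofFinite _
    have hk : Nat.card f.ker = p ^ Module.finrank (ZMod p) f.ker := by
      rw [Nat.card_eq_fintype_card, Module.card_eq_pow_finrank (K := ZMod p), ZMod.card]
    have hk1 : 1 < Nat.card f.ker := by
      obtain ⟨x, hx⟩ := exists_prime_addOrderOf_dvd_card' (G := A) p (hn ▸ n.minFac_dvd)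
      haveI : Nontrivial f.ker := ⟨⟨⟨x, show p • x = 0 from hx ▸ addOrderOf_nsmul_eq_zero x⟩, 0, fun e => by
        have : x = 0 := congrArg Subtype.val e
        rw [this, addOrderOf_zero] at hx
        exact hp.ne_one hx.symm⟩⟩
      exact Finite.one_lt_card
    have hlt : Nat.card f.range < n := by
      rw [← hcard]; exact lt_mul_of_one_lt_left Nat.card_pos hk1
    have hodd' : Odd (Nat.card f.range) := (Nat.odd_mul.mp (by rw [hcard]; exact hodd : Odd (Nat.card f.ker * Nat.card f.range))).2
    have hR := ih _ hlt f.range rfl hodd' (res _ a (hres a).2) (res _ b (hres b).2)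
      fun v => Subtype.ext (by rw [AddSubgroup.coe_neg, hres', hres', hres', hres', h])
    rw [← hcard, hk]
    exact (hev.isSquare_pow p).mul hR

variable {G : Type u} [Group G] [Finite G] {H : Subgroup G}

/-- An involution in the complement inverts the kernel. -/
theorem conj_eq_inv (hH : IsFrobeniusComplement H) (N : Subgroup G) [N.Normal]
    (hc : Subgroup.IsComplement' N H) {t : G} (ht : t ∈ H) (ht1 : t ≠ 1) (ht2 : t * t = 1) :
    ∀ v ∈ N, t * v * t⁻¹ = v⁻¹ := by
  have hti : t⁻¹ = t := inv_eq_of_mul_eq_one_right ht2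
  let f : N → N := fun v => ⟨(v : G)⁻¹ * (t * v * t⁻¹),
    N.mul_mem (N.inv_mem v.2) ((inferInstance : N.Normal).conj_mem _ v.2 t)⟩
  have hf : Function.Injective f := by
    intro v w e
    have e' : (v : G)⁻¹ * (t * v * t⁻¹) = (w : G)⁻¹ * (t * w * t⁻¹) := congrArg Subtype.val e
    have hcomm : t * ((w : G) * (v : G)⁻¹) = (w : G) * (v : G)⁻¹ * t := by
      have e2 := congrArg (fun x => (w : G) * x * t * (v : G)⁻¹) e'
      simp only [mul_assoc, inv_mul_cancel_left, mul_inv_cancel_left, inv_mul_cancel, mul_one, mul_inv_cancel] at e2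
      simpa [mul_assoc] using e2.symm
    exact Subtype.ext (mul_inv_eq_one.mp (Frobenius.eq_one_of_commute hH hc.disjoint.eq_bot ht ht1
      (N.mul_mem w.2 (N.inv_mem v.2)) hcomm)).symm
  intro v hv
  obtain ⟨w, hw⟩ := (Finite.injective_iff_surjective.mp hf) ⟨v, hv⟩
  have hw' : v = (w : G)⁻¹ * (t * w * t⁻¹) := (congrArg Subtype.val hw).symm
  rw [hw', hti]
  simp only [mul_inv_rev, inv_inv, hti]
  calc t * ((w : G)⁻¹ * (t * w * t)) * t = t * (w : G)⁻¹ * t * w * (t * t) := by group
    _ = _ := by rw [ht2, mul_one]; group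

/-- Two elements of the complement commuting up to an involution force a square kernel. -/
theorem odd_and_square (hH : IsFrobeniusComplement H) {x y z : G} (hz : z ∈ H)
    (hz1 : z ≠ 1) (hz2 : z * z = 1) (hxy : x * y = z * (y * x)) :
    Odd (Nat.card (frobeniusKernel H)) ∧ IsSquare (Nat.card (frobeniusKernel H)) := by
  obtain ⟨N, hN, hNn, hc⟩ := Frobenius.exists_kernel_subgroup hH
  haveI := hNn
  rw [← hN]
  show Odd (Nat.card N) ∧ IsSquare (Nat.card N)
  have hodd : Odd (Nat.card N) := by
    have h2 : orderOf (⟨z, hz⟩ : H) = 2 := by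
      rw [Subgroup.orderOf_mk]
      exact orderOf_eq_prime (by rw [pow_two, hz2]) hz1
    have hd : 2 ∣ Nat.card H := h2 ▸ orderOf_dvd_natCard _
    rw [← Nat.not_even_iff_odd, even_iff_two_dvd]
    intro hd'
    have := (Frobenius.coprime_index hH)
    rw [hc.index_eq_card] at this
    exact Nat.prime_two.not_dvd_one (this.gcd_eq_one ▸ Nat.dvd_gcd hd' hd)
  have hinv := conj_eq_inv hH N hc hz hz1 hz2
  have hcomm : ∀ u v : N, u * v = v * u := fun u v => Subtype.ext (by
    have h1 := hinv _ (N.mul_mem u.2 v.2)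
    rw [show z * ((u : G) * v) * z⁻¹ = (z * u * z⁻¹) * (z * v * z⁻¹) by group, hinv _ u.2, hinv _ v.2] at h1
    exact inv_injective (by rw [Subgroup.coe_mul, Subgroup.coe_mul, ← h1, mul_inv_rev]))
  letI : CommGroup N := { (inferInstance : Group N) with mul_comm := hcomm }
  refine ⟨hodd, isSquare_card _ (Additive N) rfl hodd (MulEquiv.toAdditive (MulAut.conjNormal (H := N) x))
    (MulEquiv.toAdditive (MulAut.conjNormal (H := N) y)) fun v => ?_⟩
  apply Additive.toMul.injective
  apply Subtype.ext
  show x * (y * (v.toMul : G) * y⁻¹) * x⁻¹ = (y * (x * (v.toMul : G) * x⁻¹) * y⁻¹)⁻¹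
  rw [← hinv _ (hNn.conj_mem _ (hNn.conj_mem _ v.toMul.2 x) y)]
  rw [show x * (y * (v.toMul : G) * y⁻¹) * x⁻¹ = (x * y) * v.toMul * (x * y)⁻¹ by group, hxy]
  group

end CfsgLib.GroupB.FrobSquare
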