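import Mathlib

/-! Landau: boundedly many classes bound the group order. -/

universe u

namespace CfsgLib.GroupB.Landau

theorem egypt (k : ℕ) : ∀ r : ℚ, ∃ N : ℕ, ∀ s : Multiset ℕ, Multiset.card s ≤ k → (∀ n ∈ s, 0 < n) →
    (s.map fun n : ℕ => (1 : ℚ) / n).sum = r → ∀ n ∈ s, n ≤ N := by
  induction k with
  | zero =>
    intro r
    refine ⟨0, fun s hs _ _ n hn => ?_⟩
    rw [Multiset.card_eq_zero.mp (Nat.le_zero.mp hs)] at hn
    simp at hn
  | succ k ih =>
    intro r
    choose f hf using ih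
    set B := ⌈((k + 1 : ℕ) : ℚ) / r⌉₊
    refine ⟨max B ((Finset.range (B + 1)).sup fun m => f (r - 1 / m)), fun s hs hpos hsum n hn => ?_⟩
    obtain ⟨m, hm, hmin⟩ := s.toFinset.exists_min_image id ⟨n, Multiset.mem_toFinset.mpr hn⟩
    rw [Multiset.mem_toFinset] at hm
    have hm0 : (0 : ℚ) < m := by exact_mod_cast hpos m hm
    have hr : 1 / (m : ℚ) ≤ r := by
      rw [← hsum]
      refine Multiset.single_le_sum (fun x hx => ?_) _ (Multiset.mem_map_of_mem _ hm)
      obtain ⟨y, hy, rfl⟩ := Multiset.mem_map.mp hx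
      positivity
    have hr0 : 0 < r := lt_of_lt_of_le (by positivity) hr
    have hle : r ≤ ((k + 1 : ℕ) : ℚ) * (1 / m) := by
      rw [← hsum]
      refine (Multiset.sum_le_card_nsmul _ (1 / (m : ℚ)) ?_).trans ?_
      · intro x hx
        obtain ⟨y, hy, rfl⟩ := Multiset.mem_map.mp hx
        exact one_div_le_one_div_of_le hm0 (by exact_mod_cast hmin y (Multiset.mem_toFinset.mpr hy))
      · rw [nsmul_eq_mul, Multiset.card_map]
        exact mul_le_mul_of_nonneg_right (by exact_mod_cast hs) (by positivity)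
    have hmB : m ≤ B := by
      have : (m : ℚ) ≤ ((k + 1 : ℕ) : ℚ) / r := by
        rw [le_div_iff₀ hr0]
        rw [mul_one_div, le_div_iff₀ hm0] at hle
        linarith
      exact_mod_cast this.trans (Nat.le_ceil _)
    by_cases hnm : n = m
    · exact le_max_of_le_left (hnm ▸ hmB)
    · refine le_max_of_le_right (le_trans ?_ (Finset.le_sup (Finset.mem_range.mpr (Nat.lt_succ_of_le hmB))))
      refine hf (r - 1 / m) (s.erase m) ?_ (fun x hx => hpos x (Multiset.mem_of_mem_erase hx)) ?_ n
        ((Multiset.mem_erase_of_ne hnm).mpr hn)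
      · have := Multiset.card_erase_of_mem hm
        rw [this]; exact Nat.pred_le_iff.mpr hs
      · rw [eq_sub_iff_add_eq', ← hsum]
        conv_rhs => rw [← Multiset.cons_erase hm]
        simp

theorem landau (k : ℕ) : ∃ N : ℕ, ∀ (G : Type u) [Group G] [Finite G],
    Nat.card (ConjClasses G) ≤ k → Nat.card G ≤ N := by
  obtain ⟨N, hN⟩ := egypt k 1
  refine ⟨N, fun G _ _ hk => ?_⟩
  classical
  haveI := Fintype.ofFinite G
  set n : ConjClasses G → ℕ := fun C => Nat.card G / Nat.card C.carrier with hn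
  have hdvd : ∀ C : ConjClasses G, Nat.card C.carrier ∣ Nat.card G := by
    intro C
    obtain ⟨g, rfl⟩ := ConjClasses.exists_rep C
    have e : (ConjClasses.mk g).carrier = MulAction.orbit (ConjAct G) g := by
      ext x
      rw [ConjClasses.mem_carrier_iff_mk_eq, ConjAct.mem_orbit_conjAct, ConjClasses.mk_eq_mk_iff_isConj]
    rw [e, Nat.card_coe_set_eq, ← MulAction.index_stabilizer]
    exact (Subgroup.index_dvd_card _).trans (Nat.card_congr ConjAct.toConjAct.toEquiv).symm.dvd
  have hc : ∀ C : ConjClasses G, 0 < Nat.card C.carrier := fun C => by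
    obtain ⟨g, rfl⟩ := ConjClasses.exists_rep C
    haveI : Nonempty (ConjClasses.mk g).carrier := ⟨⟨g, ConjClasses.mem_carrier_mk⟩⟩
    exact Nat.card_pos
  have hpos : ∀ C, 0 < n C := fun C => Nat.div_pos (Nat.le_of_dvd Nat.card_pos (hdvd C)) (hc C)
  have h1 : n (ConjClasses.mk 1) = Nat.card G := by
    have : (ConjClasses.mk (1 : G)).carrier = {1} := by
      ext x
      rw [ConjClasses.mem_carrier_iff_mk_eq, ConjClasses.mk_eq_mk_iff_isConj, Set.mem_singleton_iff, isConj_comm, isConj_one_right]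
    simp [hn, this]
  have hG : (Nat.card G : ℚ) ≠ 0 := by exact_mod_cast Nat.card_pos.ne'
  rw [← h1]
  refine hN ((Finset.univ : Finset (ConjClasses G)).val.map n) ?_ ?_ ?_ _ (Multiset.mem_map_of_mem _ (Finset.mem_univ _))
  · rw [Multiset.card_map, ← Finset.card_def, Finset.card_univ, ← Nat.card_eq_fintype_card]
    exact hk
  · intro x hx
    obtain ⟨C, -, rfl⟩ := Multiset.mem_map.mp hx
    exact hpos C
  · rw [Multiset.map_map]
    show ∑ C : ConjClasses G, (1 : ℚ) / (n C : ℕ) = 1
    have key : ∀ C, (1 : ℚ) / (n C : ℕ) = (Nat.card C.carrier : ℚ) / Nat.card G := by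
      intro C
      rw [hn]
      simp only
      rw [Nat.cast_div (hdvd C) (by exact_mod_cast (hc C).ne'), one_div_div]
    rw [Finset.sum_congr rfl (fun C _ => key C), ← Finset.sum_div, div_eq_one_iff_eq hG, ← Nat.cast_sum]
    norm_cast
    simp only [Nat.card_eq_fintype_card, ← Set.toFinset_card]
    exact sum_conjClasses_card_eq_card G

end CfsgLib.GroupB.Landau
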