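import Mathlib.GroupTheory.Sylow
import Mathlib.GroupTheory.SpecificGroups.Cyclic
import Mathlib.Data.ZMod.Basic
import Mathlib.Tactic

/-! Counting subgroups of prime power order (Wielandt's argument). -/

set_option autoImplicit false

namespace CfsgLib.GroupB.SubgroupCount

open Finset

universe u

variable {G : Type u} [Group G]

/-- The left translation action on `k`-element subsets. -/
@[instance_reducible]
def translate (G : Type u) [Group G] (k : ℕ) : MulAction G {s : Finset G // s.card = k} where
  smul g s := ⟨s.1.map (Equiv.mulLeft g).toEmbedding, by rw [Finset.card_map]; exact s.2⟩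
  one_smul s := Subtype.ext (by
    show s.1.map (Equiv.mulLeft (1 : G)).toEmbedding = s.1
    rw [show (Equiv.mulLeft (1 : G)).toEmbedding = Function.Embedding.refl G from by ext; simp, Finset.map_refl])
  mul_smul g h s := Subtype.ext (by
    show s.1.map (Equiv.mulLeft (g * h)).toEmbedding =
      (s.1.map (Equiv.mulLeft h).toEmbedding).map (Equiv.mulLeft g).toEmbedding
    rw [Finset.map_map]
    congr 1
    ext x; simp [mul_assoc])

theorem card_subsets_modEq [Finite G] {p β m : ℕ} (hp : p.Prime) (hn : Nat.card G = p ^ β * m) :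
    (Nat.card G).choose (p ^ β) ≡ Nat.card {H : Subgroup G // Nat.card H = p ^ β} * m [MOD p * m] := by
  classical
  haveI := Fintype.ofFinite G
  set k := p ^ β with hk
  have hk0 : 0 < k := pow_pos hp.pos β
  have hm0 : 0 < m := Nat.pos_of_mul_pos_left (hn ▸ Nat.card_pos (α := G))
  letI := translate G k
  let α := {s : Finset G // s.card = k}
  have hα : Nat.card α = (Nat.card G).choose k := by
    show Nat.card {s : Finset G // s.card = k} = _
    rw [Nat.card_eq_fintype_card, Fintype.card_finset_len, Fintype.card_eq_nat_card]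
  have hstab : ∀ (s : α) (g : G), g ∈ MulAction.stabilizer G s → ∀ x ∈ s.1, g * x ∈ s.1 := by
    intro s g hg x hx
    have := congrArg Subtype.val (MulAction.mem_stabilizer_iff.mp hg)
    exact this.le (Finset.mem_map_of_mem _ hx)
  have hdvd : ∀ s : α, Nat.card (MulAction.stabilizer G s) ∣ k := by
    intro s
    let U := MulAction.stabilizer G s
    letI : MulAction U {x // x ∈ s.1} :=
      { smul := fun u x => ⟨(u : G) * x, hstab s u u.2 x x.2⟩
        one_smul := fun x => Subtype.ext (one_mul _)
        mul_smul := fun u v x => Subtype.ext (mul_assoc _ _ _) }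
    have key := MulAction.sum_card_fixedBy_eq_card_orbits_mul_card_group U {x // x ∈ s.1}
    rw [Finset.sum_eq_single (1 : U)] at key
    · rw [show Fintype.card (MulAction.fixedBy {x // x ∈ s.1} (1 : U)) = Fintype.card {x // x ∈ s.1} from
        Fintype.card_congr (Equiv.subtypeUnivEquiv fun x => one_smul U x), Fintype.card_coe, s.2] at key
      rw [Nat.card_eq_fintype_card]
      exact Dvd.intro_left _ key.symm
    · intro u _ hu
      refine Fintype.card_eq_zero_iff.mpr ⟨fun x => hu (Subtype.ext ?_)⟩
      exact mul_eq_right.mp (congrArg Subtype.val x.2 :)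
    · intro h; exact absurd (Finset.mem_univ _) h
  have hsmul : ∀ (g : G) (s : α), Nat.card (MulAction.stabilizer G (g • s)) = Nat.card (MulAction.stabilizer G s) := by
    intro g s
    exact (Nat.card_congr (MulAction.stabilizerEquivStabilizer (g := g) (a := s) (b := g • s) rfl).toEquiv).symm
  -- orbits with small stabiliser
  let B := {s : α // Nat.card (MulAction.stabilizer G s) ≠ k}
  letI : MulAction G B :=
    { smul := fun g s => ⟨g • s.1, by rw [hsmul]; exact s.2⟩
      one_smul := fun s => Subtype.ext (one_smul G s.1)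
      mul_smul := fun g h s => Subtype.ext (mul_smul g h s.1) }
  have hB : p * m ∣ Nat.card B := by
    haveI : Fintype (MulAction.orbitRel.Quotient G B) := Fintype.ofFinite _
    rw [Nat.card_congr (MulAction.selfEquivSigmaOrbits G B), Nat.card_sigma]
    refine Finset.dvd_sum fun q _ => ?_
    set b : B := Quotient.out q
    obtain ⟨u, hu, hcu⟩ := (Nat.dvd_prime_pow hp).mp (hdvd b.1)
    have hne : u ≠ β := fun e => b.2 (by rw [hcu, e])
    have hst : MulAction.stabilizer G b = MulAction.stabilizer G b.1 := by
      ext g
      exact ⟨fun h => congrArg Subtype.val h, fun h => Subtype.ext h⟩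
    have h1 := (MulAction.stabilizer G b).index_mul_card
    rw [hn, hst, hcu, Subgroup.index_eq_card, ← hst,
      ← Nat.card_congr (MulAction.orbitEquivQuotientStabilizer G b)] at h1
    show p * m ∣ Nat.card (MulAction.orbit G b)
    have h2 : Nat.card (MulAction.orbit G b) = p ^ (β - u) * m := by
      refine Nat.eq_of_mul_eq_mul_right (pow_pos hp.pos u) (h1.trans ?_)
      rw [mul_right_comm, ← pow_add, Nat.sub_add_cancel hu]
    rw [h2]
    exact mul_dvd_mul_right (dvd_pow_self p (by omega)) m
  -- subsets with stabiliser of order `k`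
  let A := {s : α // Nat.card (MulAction.stabilizer G s) = k}
  have hA : Nat.card A = Nat.card {H : Subgroup G // Nat.card H = k} * m := by
    let X := Σ H : {H : Subgroup G // Nat.card H = k}, G ⧸ H.1
    let S : X → Finset G := fun x => Finset.univ.filter (fun g => g * x.2.out ∈ x.1.1)
    have hS : ∀ x : X, (S x).card = k := by
      intro x
      rw [← x.1.2, ← Fintype.card_subtype, Fintype.card_eq_nat_card]
      exact Nat.card_congr ((Equiv.mulRight x.2.out).subtypeEquiv fun g => Iff.rfl)
    have hst : ∀ x : X, MulAction.stabilizer G (⟨S x, hS x⟩ : α) = x.1.1 := by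
      intro x
      ext g
      rw [MulAction.mem_stabilizer_iff]
      constructor
      · intro h
        have h' := (congrArg Subtype.val h).le (Finset.mem_map_of_mem (Equiv.mulLeft g).toEmbedding
          (show x.2.out⁻¹ ∈ S x by simp [S, x.1.1.one_mem]))
        simpa [S, mul_assoc] using h'
      · intro hg
        apply Subtype.ext
        show (S x).map (Equiv.mulLeft g).toEmbedding = S x
        refine Finset.eq_of_subset_of_card_le ?_ (by rw [Finset.card_map])
        intro y hy
        obtain ⟨z, hz, rfl⟩ := Finset.mem_map.mp hy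
        simp only [S, Finset.mem_filter, Finset.mem_univ, true_and] at hz ⊢
        simpa [mul_assoc] using x.1.1.mul_mem hg hz
    let F : X → A := fun x => ⟨⟨S x, hS x⟩, by rw [hst x]; exact x.1.2⟩
    have hF : Function.Bijective F := by
      constructor
      · intro x y h
        have hH : x.1 = y.1 := Subtype.ext (by
          rw [← hst x, ← hst y]
          exact congrArg (fun s : A => MulAction.stabilizer G s.1) h)
        obtain ⟨H, c⟩ := x
        obtain ⟨H', d⟩ := y
        cases hH
        have hcd : S ⟨H, c⟩ = S ⟨H, d⟩ := congrArg (fun s : A => s.1.1) h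
        have h1 : c.out⁻¹ ∈ S ⟨H, c⟩ := by simp [S, H.1.one_mem]
        rw [hcd] at h1
        simp only [S, Finset.mem_filter, Finset.mem_univ, true_and] at h1
        have : c = d := by
          rw [← Quotient.out_eq c, ← Quotient.out_eq d]
          exact QuotientGroup.eq.mpr h1
        rw [this]
      · intro s
        have hk' : 0 < s.1.1.card := by rw [s.1.2]; exact hk0
        obtain ⟨y, hy⟩ := Finset.card_pos.mp hk'
        refine ⟨⟨⟨MulAction.stabilizer G s.1, s.2⟩, ((y⁻¹ : G) : G ⧸ MulAction.stabilizer G s.1)⟩, ?_⟩
        apply Subtype.ext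
        apply Subtype.ext
        refine Finset.eq_of_subset_of_card_le ?_ (by rw [s.1.2]; exact (hS _).ge)
        intro z hz
        simp only [F, S, Finset.mem_filter, Finset.mem_univ, true_and] at hz
        obtain ⟨u, hu⟩ := QuotientGroup.mk_out_eq_mul (MulAction.stabilizer G s.1) y⁻¹
        rw [hu] at hz
        have hz' : z * y⁻¹ ∈ MulAction.stabilizer G s.1 := by
          have := (MulAction.stabilizer G s.1).mul_mem hz ((MulAction.stabilizer G s.1).inv_mem u.2)
          simpa [mul_assoc] using this
        simpa [mul_assoc] using hstab s.1 _ hz' y hy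
    rw [← Nat.card_congr (Equiv.ofBijective F hF), Nat.card_sigma]
    rw [Finset.sum_congr rfl (g := fun _ => m) fun H _ => ?_, Finset.sum_const, Finset.card_univ, smul_eq_mul,
      Fintype.card_eq_nat_card]
    have h3 := H.1.index_mul_card
    rw [hn, H.2, mul_comm k m, Subgroup.index_eq_card] at h3
    exact Nat.eq_of_mul_eq_mul_right hk0 h3
  have hsum : Nat.card α = Nat.card A + Nat.card B := by
    rw [← Nat.card_sum]; exact (Nat.card_congr (Equiv.sumCompl _)).symm
  rw [← hα, hsum, hA]
  obtain ⟨c, hc⟩ := hB
  rw [hc]
  simp [Nat.ModEq, Nat.add_mul_mod_self_left]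

/-- The number of subgroups of order `p^β` is `1 (mod p)`. -/
theorem card_subgroups_modEq_one [Finite G] {p β : ℕ} (hp : p.Prime) (h : p ^ β ∣ Nat.card G) :
    Nat.card {H : Subgroup G // Nat.card H = p ^ β} ≡ 1 [MOD p] := by
  classical
  obtain ⟨m, hm⟩ := h
  have hm0 : 0 < m := Nat.pos_of_mul_pos_left (hm ▸ Nat.card_pos (α := G))
  haveI : NeZero (p ^ β * m) := ⟨(Nat.mul_pos (pow_pos hp.pos β) hm0).ne'⟩
  haveI : Fact p.Prime := ⟨hp⟩
  have hn' : Nat.card (Multiplicative (ZMod (p ^ β * m))) = p ^ β * m := by simp
  have h1 := card_subsets_modEq hp hm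
  have h2 := card_subsets_modEq hp hn'
  rw [hm] at h1
  rw [hn'] at h2
  have hone : Nat.card {H : Subgroup (Multiplicative (ZMod (p ^ β * m))) // Nat.card H = p ^ β} = 1 := by
    rw [Nat.card_eq_one_iff_unique]
    refine ⟨⟨fun H K => Subtype.ext ?_⟩, ?_⟩
    · have key : ∀ L : Subgroup (Multiplicative (ZMod (p ^ β * m))), Nat.card L = p ^ β →
          (Finset.univ.filter (· ∈ L)) = Finset.univ.filter (fun z => z ^ p ^ β = 1) := by
        intro L hL
        refine Finset.eq_of_subset_of_card_le ?_ ?_
        · intro z hz
          rw [Finset.mem_filter] at hz ⊢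
          exact ⟨Finset.mem_univ z, orderOf_dvd_iff_pow_eq_one.mp ((Subgroup.orderOf_dvd_natCard L hz.2).trans hL.dvd)⟩
        · rw [← Fintype.card_subtype (fun z => z ∈ L), Fintype.card_eq_nat_card]
          exact (IsCyclic.card_pow_eq_one_le (pow_pos hp.pos β)).trans hL.ge
      ext z
      have := congrArg (z ∈ ·) ((key _ H.2).trans (key _ K.2).symm)
      simpa using this
    · obtain ⟨L, hL⟩ := Sylow.exists_subgroup_card_pow_prime (G := Multiplicative (ZMod (p ^ β * m))) p
        (hn'.symm ▸ Dvd.intro m rfl)
      exact ⟨⟨L, hL⟩⟩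
  rw [hone] at h2
  exact (h1.symm.trans h2).mul_right_cancel' hm0.ne'

end CfsgLib.GroupB.SubgroupCount
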